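import Cfsg.Agent.GeoClasses.UnitNondeg
import Cfsg.Agent.GeoClasses.UnitBase
import Cfsg.Agent.Classical.UGen

/-!
Facts on the standard hermitian form used for unitary tensor decompositions.
-/

set_option autoImplicit false
set_option linter.style.haveILetI false
set_option linter.unusedSectionVars false
set_option linter.unusedSimpArgs false

namespace Cfsg.Agent.MaxSub.TensorU

open Module Matrix Cfsg.Agent.Classical.U

universe u

variable {F : Type u} [Field F] {n q : ℕ}

/-- `w ↦ h(w, y) x`. -/
def hr1 (q : ℕ) (x y : Fin n → F) : (Fin n → F) →ₗ[F] (Fin n → F) where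
  toFun w := herm q w y • x
  map_add' u v := by rw [herm_add_left, add_smul]
  map_smul' c u := by rw [RingHom.id_apply, herm_smul_left, smul_smul]

lemma hr1_apply (x y w : Fin n → F) : hr1 q x y w = herm q w y • x := rfl

lemma hr1_comp_hr1 (x y x' y' : Fin n → F) :
    hr1 q x y ∘ₗ hr1 q x' y' = herm q x' y • hr1 q x y' := by
  refine LinearMap.ext fun w => ?_
  simp [hr1_apply, herm_smul_left, smul_smul, mul_comm]

lemma hr1_smul_left (c : F) (x y : Fin n → F) : hr1 q (c • x) y = c • hr1 q x y := by
  refine LinearMap.ext fun w => ?_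
  simp [hr1_apply, smul_smul, mul_comm]

lemma hr1_smul_right (c : F) (x y : Fin n → F) : hr1 q x (c • y) = c ^ q • hr1 q x y := by
  refine LinearMap.ext fun w => ?_
  simp [hr1_apply, herm_smul_right, smul_smul]

lemma hr1_add_left (x x' y : Fin n → F) : hr1 q (x + x') y = hr1 q x y + hr1 q x' y := by
  refine LinearMap.ext fun w => ?_
  simp [hr1_apply]

lemma hr1_zero_left (y : Fin n → F) : hr1 q 0 y = 0 := by
  refine LinearMap.ext fun w => ?_
  simp [hr1_apply]

variable (hF : SqField F q)

lemma exists_ne_pow (hF : SqField F q) : ∃ c : F, c ^ q ≠ c := by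
  obtain ⟨c, hc⟩ := GeoClasses.exists_qConj_moved hF
  exact ⟨c, hc⟩

/-- A semilinear relation vanishing for all multiples vanishes. -/
lemma zero_of_semilinear (hF : SqField F q) {A B : F} (h : ∀ c : F, c * A + c ^ q * B = 0) :
    A = 0 ∧ B = 0 := by
  obtain ⟨c, hc⟩ := exists_ne_pow hF
  have h1 := h 1
  rw [one_mul, one_pow, one_mul] at h1
  have h2 : (c ^ q - c) * B = 0 := by linear_combination h c - c * h1
  have hB : B = 0 := (mul_eq_zero.1 h2).resolve_left (sub_ne_zero.2 hc)
  exact ⟨by rw [hB, add_zero] at h1; exact h1, hB⟩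

include hF

lemma hr1_add_right (x y y' : Fin n → F) : hr1 q x (y + y') = hr1 q x y + hr1 q x y' := by
  refine LinearMap.ext fun w => ?_
  simp [hr1_apply, hF.herm_add_right, add_smul]

lemma herm_eq_zero_symm {u v : Fin n → F} (h : herm q u v = 0) : herm q v u = 0 := by
  rw [← hF.herm_symm, h, zero_pow hF.q_ne_zero]

lemma exists_partner {e : Fin n → F} (he0 : e ≠ 0) (he : herm q e e = 0) :
    ∃ f, IsUPair q e f := by
  obtain ⟨f, -, hf⟩ := GeoClasses.exists_pair_mem hF (S := ⊤) Submodule.mem_top he (by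
    by_contra h
    push Not at h
    exact he0 (hF.eq_zero_of_herm e fun v => herm_eq_zero_symm hF (h v Submodule.mem_top)))
  exact ⟨f, hf⟩

lemma exists_isotropic (hn : 2 ≤ n) : ∃ e : Fin n → F, e ≠ 0 ∧ herm q e e = 0 := by
  obtain ⟨e, -, he0, he⟩ := GeoClasses.exists_isotropic_mem hF (S := (⊤ : Submodule F (Fin n → F)))
    (by rw [finrank_top, finrank_fin_fun]; exact hn)
  exact ⟨e, he0, he⟩

omit hF in
/-- `w ↦ h(w, e)`. -/
def dualF (q : ℕ) (e : Fin n → F) : (Fin n → F) →ₗ[F] F where
  toFun w := herm q w e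
  map_add' u v := herm_add_left u v e
  map_smul' c u := herm_smul_left c u e

omit hF in
lemma dualF_apply (e w : Fin n → F) : dualF q e w = herm q w e := rfl

omit hF in
/-- The orthogonal space of two vectors. -/
def perpTwo (q : ℕ) (e f : Fin n → F) : Submodule F (Fin n → F) :=
  LinearMap.ker ((dualF q e).prod (dualF q f))

omit hF in
lemma mem_perpTwo {e f x : Fin n → F} :
    x ∈ perpTwo q e f ↔ herm q x e = 0 ∧ herm q x f = 0 := by
  simp [perpTwo, dualF_apply]

omit hF in
lemma finrank_perpTwo (e f : Fin n → F) : n ≤ finrank F (perpTwo q e f) + 2 := by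
  have h2 := LinearMap.finrank_range_add_finrank_ker ((dualF q e).prod (dualF q f))
  have h3 := (LinearMap.range ((dualF q e).prod (dualF q f))).finrank_le
  rw [finrank_fin_fun] at h2
  rw [Module.finrank_prod, Module.finrank_self] at h3
  rw [perpTwo]
  omega

lemma nondeg_perpTwo {e f : Fin n → F} (hp : IsUPair q e f) {x : Fin n → F}
    (hx : x ∈ perpTwo q e f) (hx0 : x ≠ 0) : ∃ y ∈ perpTwo q e f, herm q y x ≠ 0 := by
  by_contra hc
  push Not at hc
  refine hx0 (hF.eq_zero_of_herm x fun v => herm_eq_zero_symm hF ?_)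
  obtain ⟨h1, h2, h3⟩ := hp
  have h4 : herm q f e = 1 := by rw [← hF.herm_symm, h3, one_pow]
  rw [mem_perpTwo] at hx
  have hm : v - herm q v f • e - herm q v e • f ∈ perpTwo q e f := by
    rw [mem_perpTwo]
    constructor <;> simp [herm_sub_left, herm_smul_left, h1, h2, h3, h4]
  have h5 := hc _ hm
  simpa [herm_sub_left, herm_smul_left, herm_eq_zero_symm hF hx.1,
    herm_eq_zero_symm hF hx.2] using h5

/-- An isotropic pair orthogonal to a given one. -/
lemma exists_second_pair (hn : 4 ≤ n) {e f : Fin n → F} (hp : IsUPair q e f) :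
    ∃ y y', IsUPair q y y' ∧ herm q y e = 0 ∧ herm q y f = 0 ∧ herm q y' e = 0 ∧
      herm q y' f = 0 := by
  obtain ⟨y, hyS, hy0, hy⟩ := GeoClasses.exists_isotropic_mem hF (S := perpTwo q e f)
    (by have := finrank_perpTwo (q := q) e f; omega)
  obtain ⟨y', hy'S, hyy⟩ := GeoClasses.exists_pair_mem hF hyS hy (nondeg_perpTwo hF hp hyS hy0)
  rw [mem_perpTwo] at hyS hy'S
  exact ⟨y, y', hyy, hyS.1, hyS.2, hy'S.1, hy'S.2⟩

/-- The isotropic vectors orthogonal to an isotropic vector span its orthogonal space. -/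
lemma mem_of_perp_isotropic (hn : 4 ≤ n) {e : Fin n → F} (he0 : e ≠ 0) (he : herm q e e = 0)
    (p : Submodule F (Fin n → F)) (hp : ∀ w, herm q w w = 0 → herm q w e = 0 → w ∈ p)
    {x : Fin n → F} (hx : herm q x e = 0) : x ∈ p := by
  obtain ⟨f, hf⟩ := exists_partner hF he0 he
  obtain ⟨y, y', hyy, h1, h2, h3, h4⟩ := exists_second_pair hF hn hf
  have hS : perpTwo q e f ≤ p := (GeoClasses.le_span_isotropic hF (mem_perpTwo.2 ⟨h1, h2⟩)
    (mem_perpTwo.2 ⟨h3, h4⟩) hyy).trans (Submodule.span_le.2 fun w hw =>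
      hp w hw.2.1 (mem_perpTwo.1 hw.1).1)
  have hm : x - herm q x f • e ∈ perpTwo q e f := by
    rw [mem_perpTwo]
    exact ⟨by simp [herm_sub_left, herm_smul_left, he, hx],
      by simp [herm_sub_left, herm_smul_left, hf.2.2]⟩
  have := p.add_mem (hS hm) (p.smul_mem (herm q x f) (hp e he he))
  simpa using this

/-- The isotropic vectors span. -/
lemma mem_of_isotropic (hn : 2 ≤ n) (p : Submodule F (Fin n → F))
    (hp : ∀ w, herm q w w = 0 → w ∈ p) (x : Fin n → F) : x ∈ p := by
  obtain ⟨e, he0, he⟩ := exists_isotropic hF hn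
  obtain ⟨f, hf⟩ := exists_partner hF he0 he
  have := (GeoClasses.le_span_isotropic hF (S := ⊤) Submodule.mem_top Submodule.mem_top hf).trans
    (Submodule.span_le.2 fun w hw => hp w hw.2.1)
  exact this Submodule.mem_top

/-- An operator with `h(Su, u) = 0` on all isotropic vectors is scalar. -/
theorem eq_smul_of_isotropic (hn : 2 ≤ n) (S : (Fin n → F) →ₗ[F] (Fin n → F))
    (hS : ∀ u, herm q u u = 0 → herm q (S u) u = 0) : ∃ k : F, S = k • LinearMap.id := by
  obtain ⟨e, he0, he⟩ := exists_isotropic hF hn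
  obtain ⟨f, hp⟩ := exists_partner hF he0 he
  obtain ⟨-, hf, hef⟩ := hp
  have hfe : herm q f e = 1 := by rw [← hF.herm_symm, hef, one_pow]
  obtain ⟨δ, hδ0, hδ⟩ := hF.exists_skew
  set g : (Fin n → F) → (Fin n → F) → F := fun u v => herm q (S u) v with hg
  have gadd : ∀ u u' v, g (u + u') v = g u v + g u' v := fun u u' v => by
    simp only [hg, map_add, herm_add_left]
  have gadd' : ∀ u v v', g u (v + v') = g u v + g u v' := fun u v v' => by
    simp only [hg, hF.herm_add_right]
  have gsmul : ∀ (c : F) u v, g (c • u) v = c * g u v := fun c u v => by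
    simp only [hg, map_smul, herm_smul_left]
  have gsmul' : ∀ (c : F) u v, g u (c • v) = c ^ q * g u v := fun c u v => by
    simp only [hg, herm_smul_right]
  have gee : g e e = 0 := hS e he
  have gff : g f f = 0 := hS f hf
  have hcross : g f e = g e f := by
    have h1 : g (f + δ • e) (f + δ • e) = 0 := hS (f + δ • e) (by
      simp only [herm_add_left, hF.herm_add_right, herm_smul_left, herm_smul_right, he, hf, hef,
        hfe, hδ]
      ring)
    simp only [gadd, gadd', gsmul, gsmul', gee, gff, hδ] at h1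
    exact mul_left_cancel₀ hδ0 (by linear_combination -h1)
  refine ⟨g e f, ?_⟩
  -- the vectors orthogonal to the pair
  have key : ∀ z, herm q z e = 0 → herm q z f = 0 →
      g z e = 0 ∧ g e z = 0 ∧ g z f = 0 ∧ g f z = 0 ∧ g z z = g e f * herm q z z := by
    intro z hze hzf
    have hez := herm_eq_zero_symm hF hze
    have hfz := herm_eq_zero_symm hF hzf
    have iso : ∀ (c s : F), g (c • z + f + s • e) (c • z + f + s • e) = 0 ∨
        s + s ^ q ≠ -(c * c ^ q * herm q z z) := fun c s => by
      by_cases hs : s + s ^ q = -(c * c ^ q * herm q z z)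
      · refine Or.inl (hS _ ?_)
        simp only [herm_add_left, hF.herm_add_right, herm_smul_left, herm_smul_right, he, hf, hef,
          hfe, hze, hez, hzf, hfz]
        linear_combination hs
      · exact Or.inr hs
    have eq : ∀ (c s : F), s + s ^ q = -(c * c ^ q * herm q z z) →
        c * c ^ q * (g z z - g e f * herm q z z) + c * g z f + c ^ q * g f z
          + c * s ^ q * g z e + c ^ q * s * g e z = 0 := fun c s hs => by
      have h1 := (iso c s).resolve_right (fun h => h hs)
      simp only [gadd, gadd', gsmul, gsmul', gee, gff, hcross] at h1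
      linear_combination h1 - g e f * hs
    have hsol : ∀ c : F, ∃ s : F, s + s ^ q = -(c * c ^ q * herm q z z) := fun c =>
      hF.exists_trace (by rw [hF.neg_pow, mul_pow, mul_pow, hF.pow_pow, hF.herm_symm]; ring)
    have h1 : g z e = 0 ∧ g e z = 0 := by
      have h2 : ∀ c : F, c * (-(δ * g z e)) + c ^ q * (δ * g e z) = 0 := fun c => by
        obtain ⟨s, hs⟩ := hsol c
        have h4 := eq c (s + δ) (by rw [hF.add_pow, hδ]; linear_combination hs)
        rw [hF.add_pow, hδ] at h4
        linear_combination h4 - eq c s hs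
      obtain ⟨h3, h4⟩ := zero_of_semilinear hF h2
      exact ⟨(mul_eq_zero.1 (neg_eq_zero.1 h3)).resolve_left hδ0,
        (mul_eq_zero.1 h4).resolve_left hδ0⟩
    have h5 : ∀ c : F, c * c ^ q * (g z z - g e f * herm q z z) + c * g z f + c ^ q * g f z
        = 0 := fun c => by
      obtain ⟨s, hs⟩ := hsol c
      have h4 := eq c s hs
      rw [h1.1, h1.2] at h4
      linear_combination h4
    set A := g z z - g e f * herm q z z
    have h6 : ∀ c : F, c * A + c ^ q * A = 0 := fun c => by
      have ha := h5 (c + 1)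
      have hb := h5 c
      have hc := h5 1
      rw [hF.add_pow, one_pow] at ha
      simp only [one_pow, one_mul] at hc
      linear_combination ha - hb - hc
    have h9 : A = 0 := (zero_of_semilinear hF h6).1
    obtain ⟨h7, h8⟩ := zero_of_semilinear hF fun c => show c * g z f + c ^ q * g f z = 0 by
      have := h5 c
      rw [h9] at this
      linear_combination this
    exact ⟨h1.1, h1.2, h7, h8, sub_eq_zero.1 h9⟩
  have hdiag : ∀ x, g x x = g e f * herm q x x := by
    intro x
    obtain ⟨z, hz⟩ : ∃ z, x = z + herm q x f • e + herm q x e • f :=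
      ⟨x - herm q x f • e - herm q x e • f, by abel⟩
    have hze : herm q z e = 0 := by
      have := congrArg (fun w => herm q w e) hz
      simp only [herm_add_left, herm_smul_left, he, hfe] at this
      linear_combination -this
    have hzf : herm q z f = 0 := by
      have := congrArg (fun w => herm q w f) hz
      simp only [herm_add_left, herm_smul_left, hf, hef] at this
      linear_combination -this
    obtain ⟨k1, k2, k3, k4, k5⟩ := key z hze hzf
    rw [hz]
    simp only [gadd, gadd', gsmul, gsmul', herm_add_left, hF.herm_add_right, herm_smul_left,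
      herm_smul_right, he, hf, hef, hfe, hze, hzf, herm_eq_zero_symm hF hze,
      herm_eq_zero_symm hF hzf, gee, gff, hcross, k1, k2, k3, k4, k5]
    ring
  refine LinearMap.ext fun x => sub_eq_zero.1 (hF.eq_zero_of_herm _ fun y => ?_)
  have hpol : ∀ c : F, c * (g x y - g e f * herm q x y)
      + c ^ q * (g y x - g e f * herm q y x) = 0 := fun c => by
    have h1 := hdiag (c • x + y)
    simp only [gadd, gadd', gsmul, gsmul', herm_add_left, hF.herm_add_right, herm_smul_left,
      herm_smul_right, hdiag] at h1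
    linear_combination h1
  have h2 := (zero_of_semilinear hF hpol).1
  simp only [hg] at h2 ⊢
  rw [herm_sub_left, LinearMap.smul_apply, LinearMap.id_apply, herm_smul_left]
  exact h2

/-- `SUG` is transitive on the vectors of a given non-zero norm. -/
theorem SUG_transitive_norm (hn : 2 ≤ n) {u v : Fin n → F} (huv : herm q u u = herm q v v)
    (h0 : herm q u u ≠ 0) : ∃ g ∈ SUG n F q, g.1 u = v := by
  obtain ⟨m, rfl⟩ := Nat.exists_eq_add_of_le' (show 1 ≤ n by omega)
  obtain ⟨c, hc⟩ := hF.exists_norm (hF.herm_symm u u)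
  have hc0 : c ≠ 0 := fun h => h0 (by rw [← hc, h, zero_pow (Nat.succ_ne_zero q)])
  have hcc : c * c ^ q = herm q u u := by rw [← pow_succ', hc]
  have h1 : ∀ w : Fin (m + 1) → F, herm q w w = herm q u u → herm q (c⁻¹ • w) (c⁻¹ • w) = 1 := by
    intro w hw
    rw [herm_smul_left, herm_smul_right, hw, ← hcc, inv_pow]
    field_simp
  have he : herm q (Pi.single 0 1 : Fin (m + 1) → F) (Pi.single 0 1) = 1 := by
    simp [herm_single_one _ hF.q_ne_zero]
  obtain ⟨g, hg⟩ := UG_transitive_one hF he (h1 u rfl)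
  obtain ⟨h, hh⟩ := UG_transitive_one hF he (h1 v huv.symm)
  set k := h * g⁻¹ with hk
  obtain ⟨d, hd⟩ := exists_det_eq hF (show 1 ≤ m by omega)
    (c := ((LinearEquiv.det k.1 : Fˣ) : F)⁻¹) (by rw [inv_pow, det_norm_one hF k, inv_one])
  refine ⟨h * tailLift m F q d * g⁻¹, ?_, ?_⟩
  · rw [mem_SUG]
    simp only [Subgroup.coe_mul, InvMemClass.coe_inv, map_mul, map_inv]
    have h2 : LinearEquiv.det (tailLift m F q d).1 = LinearEquiv.det d.1 := det_consEquiv d.1
    have h3 : LinearEquiv.det d.1 = (LinearEquiv.det h.1 * (LinearEquiv.det g.1)⁻¹)⁻¹ := by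
      apply Units.ext
      rw [hd, Units.val_inv_eq_inv_val]
      congr 2
      simp [hk]
    rw [h2, h3, mul_comm (LinearEquiv.det h.1) _, mul_assoc, mul_inv, inv_inv]
    simp [mul_comm, mul_left_comm]
  · have h2 : g.1.symm (c⁻¹ • u) = Pi.single 0 1 := by rw [← hg, LinearEquiv.symm_apply_apply]
    have h3 : (tailLift m F q d).1 (Pi.single 0 1) = Pi.single 0 1 := by
      have h4 : Fin.tail (Pi.single 0 1 : Fin (m + 1) → F) = 0 := by ext i; simp [Fin.tail]
      rw [tailLift_apply, h4, map_zero]
      ext i; refine Fin.cases ?_ (fun j => ?_) i <;> simp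
    have h5 : (h * tailLift m F q d * g⁻¹).1 (c⁻¹ • u) = c⁻¹ • v := by
      simp only [Subgroup.coe_mul, InvMemClass.coe_inv, LinearEquiv.mul_apply]
      rw [show (g.1)⁻¹ (c⁻¹ • u) = g.1.symm (c⁻¹ • u) from rfl, h2, h3, hh]
    rw [map_smul] at h5
    exact smul_right_injective _ (inv_ne_zero hc0) h5

end Cfsg.Agent.MaxSub.TensorU
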