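import Cfsg.Agent.GeoClasses.UnitBase

/-!
Common zeros on the fixed subfield of polynomials over a field with `q ^ 2` elements.
-/

set_option autoImplicit false
set_option linter.style.haveILetI false

namespace Cfsg.Agent.MaxSub.TensorU

open Module Matrix Cfsg.Agent.Classical.U MvPolynomial

universe u

variable {F : Type u} [Field F] {q : ℕ}

/-- The fixed field of `x ↦ x ^ q`. -/
abbrev fixK (hF : SqField F q) : Subfield F :=
  RingHom.eqLocusField (GeoClasses.qConj hF).toRingHom (RingHom.id F)

lemma mem_fixK (hF : SqField F q) {x : F} : x ∈ fixK hF ↔ x ^ q = x := Iff.rfl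

lemma fixK_pow (hF : SqField F q) (x : fixK hF) : (x : F) ^ q = x := x.2

variable {ι : Type} [Fintype ι]
set_option linter.unusedSectionVars false

/-- Descend a polynomial to the fixed field without changing the rational values. -/
lemma exists_descend (hF : SqField F q) (f : MvPolynomial ι F)
    (hf : ∀ x : ι → fixK hF, eval (fun i => (x i : F)) f ∈ fixK hF) :
    ∃ g : MvPolynomial ι (fixK hF), g.totalDegree ≤ f.totalDegree ∧
      ∀ x : ι → fixK hF, ((eval x g : fixK hF) : F) = eval (fun i => (x i : F)) f := by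
  classical
  obtain ⟨π, hπ⟩ := LinearMap.exists_leftInverse_of_injective
    (Algebra.linearMap (fixK hF) F) (LinearMap.ker_eq_bot.2 Subtype.val_injective)
  have hπ' : ∀ k : fixK hF, π (k : F) = k := fun k => LinearMap.congr_fun hπ k
  refine ⟨∑ d ∈ f.support, monomial d (π (coeff d f)), ?_, fun x => ?_⟩
  · exact (totalDegree_finsetSum _ _).trans (Finset.sup_le fun d hd =>
      (totalDegree_monomial_le _ _).trans (le_totalDegree hd))
  · have h1 : eval (fun i => (x i : F)) f
        = ∑ d ∈ f.support, (d.prod fun i k => x i ^ k : fixK hF) • coeff d f := by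
      rw [eval_eq]
      refine Finset.sum_congr rfl fun d _ => ?_
      rw [Subfield.smul_def, smul_eq_mul, mul_comm]
      congr 1
      simp [Finsupp.prod]
    have h2 : eval x (∑ d ∈ f.support, monomial d (π (coeff d f)))
        = π (eval (fun i => (x i : F)) f) := by
      rw [h1, map_sum, map_sum]
      refine Finset.sum_congr rfl fun d _ => ?_
      rw [eval_monomial, map_smul, smul_eq_mul, mul_comm]
    rw [h2]
    have := hπ' ⟨_, hf x⟩
    exact congrArg Subtype.val this

/-- Two polynomials of small total degree with values in the fixed field. -/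
theorem exists_common_zero (hF : SqField F q) (f g : MvPolynomial ι F)
    (hfK : ∀ x : ι → fixK hF, eval (fun i => (x i : F)) f ∈ fixK hF)
    (hgK : ∀ x : ι → fixK hF, eval (fun i => (x i : F)) g ∈ fixK hF)
    (hf0 : eval (0 : ι → F) f = 0) (hg0 : eval (0 : ι → F) g = 0)
    (hdeg : f.totalDegree + g.totalDegree < Fintype.card ι) :
    ∃ x : ι → fixK hF, x ≠ 0 ∧ eval (fun i => (x i : F)) f = 0 ∧
      eval (fun i => (x i : F)) g = 0 := by
  classical
  haveI : Finite F := hF.1
  haveI : Fintype (fixK hF) := Fintype.ofFinite _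
  obtain ⟨p, hp⟩ := CharP.exists (fixK hF)
  haveI := hp
  have hp1 : 1 < p := (CharP.char_is_prime (fixK hF) p).one_lt
  obtain ⟨f', hf', hfe⟩ := exists_descend hF f hfK
  obtain ⟨g', hg', hge⟩ := exists_descend hF g hgK
  have hdvd := char_dvd_card_solutions_of_add_lt p (f₁ := f') (f₂ := g') (by omega)
  have hz : eval (0 : ι → fixK hF) f' = 0 ∧ eval (0 : ι → fixK hF) g' = 0 := by
    constructor <;> apply Subtype.ext
    · rw [hfe]; simpa using hf0
    · rw [hge]; simpa using hg0
  obtain ⟨⟨x, hx1, hx2⟩, hne⟩ := Fintype.exists_ne_of_one_lt_card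
    (α := { x : ι → fixK hF // eval x f' = 0 ∧ eval x g' = 0 })
    (lt_of_lt_of_le hp1 (Nat.le_of_dvd (Fintype.card_pos_iff.2 ⟨⟨0, hz⟩⟩) hdvd)) ⟨0, hz⟩
  refine ⟨x, fun h => hne (Subtype.ext h), ?_, ?_⟩
  · rw [← hfe, hx1]; rfl
  · rw [← hge, hx2]; rfl

/-- A linear combination of the coordinates as a polynomial. -/
lemma exists_linear_poly (hF : SqField F q) (L : (ι → fixK hF) →ₗ[fixK hF] F) :
    ∃ P : MvPolynomial ι F, P.totalDegree ≤ 1 ∧
      ∀ x : ι → fixK hF, eval (fun i => (x i : F)) P = L x := by
  classical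
  refine ⟨∑ i, C (L (Pi.single i 1)) * X i, ?_, fun x => ?_⟩
  · exact (totalDegree_finsetSum _ _).trans (Finset.sup_le fun i _ =>
      (totalDegree_mul _ _).trans (by rw [totalDegree_C, totalDegree_X]))
  · conv_rhs => rw [pi_eq_sum_univ' x, map_sum]
    rw [map_sum]
    refine Finset.sum_congr rfl fun i _ => ?_
    rw [map_smul, Subfield.smul_def]
    simp [mul_comm]

/-- A non-zero rational point where a hermitian matrix of linear forms is singular and a linear
family of vectors is isotropic. -/
theorem exists_singular_point (hF : SqField F q) {r b : ℕ} (hr : 1 ≤ r)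
    (L : (ι → fixK hF) →ₗ[fixK hF] Matrix (Fin r) (Fin r) F)
    (hL : ∀ x i j, (L x i j) ^ q = L x j i)
    (Y : (ι → fixK hF) →ₗ[fixK hF] (Fin b → F))
    (hdeg : r + 2 < Fintype.card ι ∨ (r < Fintype.card ι ∧ Y = 0)) :
    ∃ x : ι → fixK hF, x ≠ 0 ∧ (L x).det = 0 ∧ herm q (Y x) (Y x) = 0 := by
  classical
  choose P hP hPe using fun ij : Fin r × Fin r => exists_linear_poly hF
    ((LinearMap.proj ij.2).comp ((LinearMap.proj ij.1).comp L))
  let Mp : Matrix (Fin r) (Fin r) (MvPolynomial ι F) := Matrix.of fun i j => P (i, j)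
  have hfdeg : Mp.det.totalDegree ≤ r := by
    rw [Matrix.det_apply]
    refine (totalDegree_finsetSum _ _).trans (Finset.sup_le fun σ _ => ?_)
    refine (totalDegree_smul_le _ _).trans ?_
    refine (totalDegree_finsetProd _ _).trans ?_
    refine (Finset.sum_le_sum (g := fun _ => 1) fun i _ => hP _).trans (by simp)
  have hfe : ∀ x : ι → fixK hF, eval (fun i => (x i : F)) Mp.det = (L x).det := fun x => by
    rw [RingHom.map_det]
    congr 1
    ext i j
    exact hPe (i, j) x
  set σ := (GeoClasses.qConj hF).toRingHom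
  have hfK : ∀ x : ι → fixK hF, eval (fun i => (x i : F)) Mp.det ∈ fixK hF := fun x => by
    rw [hfe, mem_fixK]
    have : σ (L x).det = (L x).det := by
      rw [RingHom.map_det, show σ.mapMatrix (L x) = (L x)ᵀ from Matrix.ext fun i j => hL x i j,
        Matrix.det_transpose]
    exact this
  choose R hR hRe using fun k : Fin b => exists_linear_poly hF ((LinearMap.proj k).comp Y)
  choose S hS hSe using fun k : Fin b => exists_linear_poly hF
    ({ toFun := fun x => Y x k ^ q
       map_add' := fun x y => by rw [map_add, Pi.add_apply, hF.add_pow]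
       map_smul' := fun c x => by
        rw [RingHom.id_apply, map_smul, Pi.smul_apply, Subfield.smul_def, Subfield.smul_def,
          smul_eq_mul, smul_eq_mul, mul_pow, fixK_pow hF] } : (ι → fixK hF) →ₗ[fixK hF] F)
  let g : MvPolynomial ι F := if Y = 0 then 0 else ∑ k, R k * S k
  have hge : ∀ x : ι → fixK hF, eval (fun i => (x i : F)) g = herm q (Y x) (Y x) := fun x => by
    simp only [g]
    split_ifs with h
    · simp [h]
    · rw [map_sum, herm_def]
      refine Finset.sum_congr rfl fun k _ => ?_
      rw [map_mul, hRe, hSe]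
      rfl
  have hgdeg : g.totalDegree ≤ if Y = 0 then 0 else 2 := by
    simp only [g]
    split_ifs with h
    · simp
    · exact (totalDegree_finsetSum _ _).trans (Finset.sup_le fun k _ =>
        (totalDegree_mul _ _).trans (by have := hR k; have := hS k; omega))
  have h0 : (fun i => ((0 : ι → fixK hF) i : F)) = (0 : ι → F) := rfl
  haveI : Nonempty (Fin r) := ⟨⟨0, hr⟩⟩
  obtain ⟨x, hx, h1, h2⟩ := exists_common_zero hF Mp.det g hfK
    (fun x => by rw [hge, mem_fixK]; exact hF.herm_symm _ _)
    (by rw [← h0, hfe, map_zero, Matrix.det_zero])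
    (by rw [← h0, hge, map_zero, herm_zero_left]) (by
      rcases hdeg with h | ⟨h, h'⟩
      · split_ifs at hgdeg <;> omega
      · rw [if_pos h'] at hgdeg; omega)
  exact ⟨x, hx, by rw [← hfe, h1], by rw [← hge, h2]⟩

end Cfsg.Agent.MaxSub.TensorU
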