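import Cfsg.Agent.MaxSub.TensorU.Fix
import Cfsg.Agent.MaxSub.TensorU.Warning
import Cfsg.Agent.MaxSub.TensorMax.Root

/-!
Without non-scalar root parameters every element is a tensor product: intersections of images of
lines with lines would grow without bound.
-/

set_option autoImplicit false
set_option linter.style.haveILetI false
set_option linter.unusedSectionVars false
set_option linter.unusedSimpArgs false

namespace Cfsg.Agent.MaxSub.TensorU

open Module Matrix Cfsg.Agent.Classical.U Cfsg.Agent.MaxSub.TensorMax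
open Cfsg.Agent.MaxSub.ExtField (Mem mem_zero inv_apply_self self_inv_apply rk1)

universe u

variable {F : Type u} [Field F] {a b q : ℕ}

/-- A basis of a complement. -/
lemma exists_complement_basis {V : Type*} [AddCommGroup V] [Module F V] [FiniteDimensional F V]
    (D U : Submodule F V) (hDU : D ≤ U) {r : ℕ} (hr : finrank F D + r = finrank F U) :
    ∃ Ms : Fin r → V, (∀ i, Ms i ∈ U) ∧
      (∀ M ∈ U, ∃ d ∈ D, ∃ c : Fin r → F, d + ∑ i, c i • Ms i = M) ∧
      ∀ c : Fin r → F, ∑ i, c i • Ms i ∈ D → c = 0 := by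
  obtain ⟨C, hC⟩ := Submodule.exists_isCompl D
  have hbot : D ⊓ (C ⊓ U) = ⊥ := by
    rw [← inf_assoc, hC.inf_eq_bot, bot_inf_eq]
  have hdec : ∀ M ∈ U, ∃ d ∈ D, ∃ c ∈ C ⊓ U, d + c = M := fun M hM => by
    obtain ⟨d, hd, c, hc, rfl⟩ := Submodule.mem_sup.1 (show M ∈ D ⊔ C by rw [hC.sup_eq_top]; exact Submodule.mem_top)
    exact ⟨d, hd, c, ⟨hc, by simpa using U.sub_mem hM (hDU hd)⟩, rfl⟩
  have hsup : D ⊔ (C ⊓ U) = U := le_antisymm (sup_le hDU inf_le_right) fun M hM => by
    obtain ⟨d, hd, c, hc, rfl⟩ := hdec M hM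
    exact Submodule.add_mem_sup hd hc
  have hdim : finrank F (C ⊓ U : Submodule F V) = r := by
    have := Submodule.finrank_sup_add_finrank_inf_eq D (C ⊓ U)
    rw [hbot, hsup, finrank_bot] at this
    omega
  let bc := Module.finBasisOfFinrankEq F (C ⊓ U : Submodule F V) hdim
  refine ⟨fun i => (bc i : V), fun i => (bc i).2.2, fun M hM => ?_, fun c hc => ?_⟩
  · obtain ⟨d, hd, c, hc, rfl⟩ := hdec M hM
    refine ⟨d, hd, bc.repr ⟨c, hc⟩, ?_⟩
    have := congrArg Subtype.val (bc.sum_repr ⟨c, hc⟩)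
    rw [Submodule.coe_sum] at this
    simp only [SetLike.val_smul] at this
    rw [this]
  · have h1 : ((∑ i, c i • bc i : (C ⊓ U : Submodule F V)) : V) ∈ D ⊓ (C ⊓ U) :=
      ⟨by simpa [Submodule.coe_sum] using hc, Subtype.mem _⟩
    rw [hbot, Submodule.mem_bot, Submodule.coe_eq_zero] at h1
    exact funext (Fintype.linearIndependent_iff.1 bc.linearIndependent c h1)

/-- The first component of a Siegel map. -/
def planeMap (q : ℕ) (e f : Fin b → F) (s₁ s₂ t : F) :
    Matrix (Fin a) (Fin b) F →ₗ[F] Matrix (Fin a) (Fin b) F :=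
  colMap e ∘ₗ (s₁ • con q e + t • con q f) + colMap f ∘ₗ (s₂ • con q f - t ^ q • con q e)

lemma planeMap_apply (e f : Fin b → F) (s₁ s₂ t : F) (M : Matrix (Fin a) (Fin b) F) :
    planeMap q e f s₁ s₂ t M =
      colMap e (s₁ • con q e M + t • con q f M) + colMap f (s₂ • con q f M - t ^ q • con q e M) :=
  rfl

/-- An image of a line not preserving lines, meeting a line in dimension at least `d`. -/
def Meets (q : ℕ) (G : Subgroup (Matrix (Fin a) (Fin b) F ≃ₗ[F] Matrix (Fin a) (Fin b) F))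
    (d : ℕ) : Prop :=
  ∃ h ∈ G, ∃ w v : Fin b → F, w ≠ 0 ∧ herm q w w = 0 ∧ v ≠ 0 ∧ herm q v v = 0 ∧ ¬ IsTens h ∧
    d ≤ finrank F ((line (a := a) w).map h.toLinearMap ⊓ line v : Submodule F _)

lemma line_map_le_iff {h : Matrix (Fin a) (Fin b) F ≃ₗ[F] Matrix (Fin a) (Fin b) F}
    {w : Fin b → F} {S : Submodule F (Matrix (Fin a) (Fin b) F)} :
    (line (a := a) w).map h.toLinearMap ≤ S ↔ ∀ x, h (colMap w x) ∈ S := by
  constructor
  · exact fun hle x => hle (Submodule.mem_map_of_mem ⟨x, rfl⟩)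
  · rintro hall _ ⟨_, ⟨x, rfl⟩, rfl⟩
    exact hall x

/-- A line is sent to the line of the image vector. -/
lemma IsTens.map_line {h : Matrix (Fin a) (Fin b) F ≃ₗ[F] Matrix (Fin a) (Fin b) F} (ha : 0 < a)
    (ht : IsTens h) {w : Fin b → F} (hw : w ≠ 0) :
    ∃ k : Fin b → F, k ≠ 0 ∧ (line (a := a) w).map h.toLinearMap = line k := by
  obtain ⟨β, ⟨hinj, hsurj⟩, hk⟩ := ht
  obtain ⟨k, hk⟩ := hk w
  refine ⟨k, fun h0 => ?_, le_antisymm (line_map_le_iff.2 fun x => ⟨β x, (hk x).symm⟩) ?_⟩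
  · have h1 := hk (Pi.single ⟨0, ha⟩ 1)
    rw [h0, colMap_zero_right] at h1
    simpa using congrFun (eq_zero_of_colMap hw (h.injective (h1.trans (map_zero h).symm))) ⟨0, ha⟩
  · rintro _ ⟨y, rfl⟩
    obtain ⟨x, rfl⟩ := hsurj y
    exact ⟨_, ⟨x, rfl⟩, hk x⟩

variable {G : Subgroup (Matrix (Fin a) (Fin b) F ≃ₗ[F] Matrix (Fin a) (Fin b) F)}
  (hF : SqField F q) (hG : UFactors q G)
include hF hG

lemma bf_line_map {h : Matrix (Fin a) (Fin b) F ≃ₗ[F] Matrix (Fin a) (Fin b) F} (hh : h ∈ G)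
    {w : Fin b → F} (hw : herm q w w = 0) {M M' : Matrix (Fin a) (Fin b) F}
    (hM : M ∈ (line (a := a) w).map h.toLinearMap)
    (hM' : M' ∈ (line (a := a) w).map h.toLinearMap) : bf q M M' = 0 := by
  obtain ⟨_, ⟨x, rfl⟩, rfl⟩ := hM
  obtain ⟨_, ⟨y, rfl⟩, rfl⟩ := hM'
  show bf q (h (colMap w x)) (h (colMap w y)) = 0
  rw [hG.iso h hh, bf_colMap_colMap hF, hw, mul_zero]

lemma mem_planeMap {e f : Fin b → F} (he : herm q e e = 0) (hf : herm q f f = 0)
    (hef : herm q e f = 0) {s₁ s₂ : F} (h1 : s₁ ^ q = -s₁) (h2 : s₂ ^ q = -s₂) (t : F) :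
    Mem G (planeMap (a := a) q e f s₁ s₂ t) := by
  have hfe := herm_eq_zero_symm hF hef
  refine (((mem_right_hr1 hF hG he h1).add (mem_right_hr1 hF hG hf h2) fun X => ?_).add
    (mem_right_pair hF hG he hf hef t) fun X => ?_).congr fun X => ?_
  · simp [act_smul_right, act_hr1_sq, hfe]
  · simp [act_smul_right, act_sub_right, act_hr1_sq, he, hf, hef, hfe, map_sub]
  · simp only [planeMap_apply, LinearMap.add_apply, act_smul_right, act_sub_right,
      LinearMap.sub_apply, LinearMap.smul_apply, act_hr1, LinearMap.id_apply, map_add, map_sub,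
      map_smul]
    abel

omit hG in
lemma con_planeMap {e f v : Fin b → F} (hev : herm q e v = 0) (hfv : herm q f v = 0)
    (s₁ s₂ t : F) (M : Matrix (Fin a) (Fin b) F) :
    con q v (planeMap q e f s₁ s₂ t M) = 0 := by
  rw [planeMap_apply, map_add, con_colMap, con_colMap, hev, hfv, zero_smul, zero_smul, add_zero]

omit hG in
lemma bf_planeMap (e f : Fin b → F) (s₁ s₂ t : F) (M M' : Matrix (Fin a) (Fin b) F) :
    bf q (planeMap q e f s₁ s₂ t M) M' =
      s₁ * herm q (con q e M) (con q e M') + t * herm q (con q f M) (con q e M')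
      + s₂ * herm q (con q f M) (con q f M') - t ^ q * herm q (con q e M) (con q f M') := by
  rw [planeMap_apply, bf_add_left, bf_colMap_left _ _ _ hF, bf_colMap_left _ _ _ hF, herm_add_left,
    herm_sub_left, herm_smul_left, herm_smul_left, herm_smul_left, herm_smul_left]
  ring

omit hG in
lemma bf_planeMap_symm {e f : Fin b → F} {s₁ s₂ : F} (h1 : s₁ ^ q = -s₁) (h2 : s₂ ^ q = -s₂)
    (t : F) (M M' : Matrix (Fin a) (Fin b) F) :
    bf q (planeMap q e f s₁ s₂ t M) M' ^ q = -bf q (planeMap q e f s₁ s₂ t M') M := by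
  simp only [bf_planeMap hF, hF.sub_pow, hF.add_pow, mul_pow, hF.herm_symm, h1, h2, hF.pow_pow]
  ring

variable (hno : ¬ HasNSParam q G) (ha : 2 ≤ a) (hab : a < b) (hb : 4 ≤ b)
include hno ha hab hb

/-- A conjugate of a root element is not a tensor product. -/
lemma not_isTens_conj_root {h : Matrix (Fin a) (Fin b) F ≃ₗ[F] Matrix (Fin a) (Fin b) F}
    (hh : h ∈ G) (hnt : ¬ IsTens h) {v : Fin b → F} (hv0 : v ≠ 0) (hv : herm q v v = 0) {c : F}
    (hc : c ≠ 0) {g : Matrix (Fin a) (Fin b) F ≃ₗ[F] Matrix (Fin a) (Fin b) F}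
    (hg : ∀ X, g X = X + c • colMap v (con q v X)) : ¬ IsTens (h⁻¹ * g * h) := by
  rintro ⟨β, ⟨hinj, -⟩, hk⟩
  have happ : ∀ X, (h⁻¹ * g * h) X = X + c • h⁻¹ (colMap v (con q v (h X))) := fun X => by
    rw [LinearEquiv.mul_apply, LinearEquiv.mul_apply, hg, map_add, map_smul, inv_apply_self]
  set R := (line (a := a) v).map (h⁻¹ : _ ≃ₗ[F] _).toLinearMap with hR
  have hRdim : finrank F R = a := by rw [hR, LinearEquiv.finrank_map_eq, finrank_line hv0]
  have hmem : ∀ X, (h⁻¹ * g * h) X - X ∈ R := fun X => by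
    rw [happ, add_sub_cancel_left]
    exact R.smul_mem _ (Submodule.mem_map_of_mem ⟨_, rfl⟩)
  have heig : ∀ x : Fin a → F, ∃ l : F, β x = l • x := by
    intro x
    by_contra hcon
    push Not at hcon
    let Ψ : (Fin b → F) →ₗ[F] R :=
      { toFun := fun y => ⟨(h⁻¹ * g * h) (colMap y x) - colMap y x, hmem _⟩
        map_add' := fun y y' => Subtype.ext (by
          simp only [colMap_add_right, map_add, Submodule.coe_add]; abel)
        map_smul' := fun r y => Subtype.ext (by
          simp only [colMap_smul_right, map_smul, SetLike.val_smul, RingHom.id_apply, smul_sub]) }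
    have hΨ : Function.Injective Ψ := (injective_iff_map_eq_zero Ψ).2 fun y hy => by
      have hy' : (h⁻¹ * g * h) (colMap y x) = colMap y x := sub_eq_zero.1 (congrArg Subtype.val hy)
      obtain ⟨k, hk⟩ := hk y
      rw [hk] at hy'
      by_contra hy0
      obtain ⟨j, hj⟩ := Function.ne_iff.1 hy0
      have hcol : ∀ i, β x i * k j = x i * y j := fun i => congrFun (congrFun hy' i) j
      rcases eq_or_ne (k j) 0 with h0 | h0
      · refine hcon 0 ?_
        have hx : x = 0 := funext fun i => by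
          have := hcol i
          rw [h0, mul_zero] at this
          exact (mul_eq_zero.1 this.symm).resolve_right hj
        simp [hx]
      · exact hcon (y j / k j) (funext fun i => by
          rw [Pi.smul_apply, smul_eq_mul, div_mul_eq_mul_div, eq_div_iff h0, hcol, mul_comm])
    have := LinearMap.finrank_le_finrank_of_injective hΨ
    rw [finrank_fin_fun, hRdim] at this
    omega
  obtain ⟨l, hl⟩ := eq_smul_id β heig
  choose k hk using hk
  obtain ⟨f, hp⟩ := exists_partner hF hv0 hv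
  -- the moved vectors
  obtain ⟨y, hy⟩ : ∃ y, l • k y - y ≠ 0 := by
    by_contra hcon
    push Not at hcon
    have hfix : (h⁻¹ * g * h).toLinearMap = LinearMap.id := ext_colMap fun y x => by
      rw [LinearEquiv.coe_coe, hk, hl, LinearMap.smul_apply, LinearMap.id_apply, map_smul,
        ← colMap_smul_right, sub_eq_zero.1 (hcon y)]
      rfl
    have h1 := LinearMap.congr_fun hfix (h⁻¹ (colMap f (Pi.single ⟨0, by omega⟩ 1)))
    rw [LinearEquiv.coe_coe, happ, self_inv_apply, LinearMap.id_apply, con_colMap,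
      (hp.symm hF).2.2, one_smul, add_eq_left, smul_eq_zero] at h1
    have h2 := eq_zero_of_colMap hv0 ((h⁻¹ : _ ≃ₗ[F] _).injective
      ((h1.resolve_left hc).trans (map_zero _).symm))
    simpa using congrFun h2 ⟨0, by omega⟩
  have heq : line (a := a) (l • k y - y) = R := by
    refine Submodule.eq_of_le_of_finrank_le ?_ (by rw [hRdim, finrank_line hy])
    rintro _ ⟨x, rfl⟩
    have := hmem (colMap y x)
    rw [hk, hl, LinearMap.smul_apply, LinearMap.id_apply, map_smul, ← colMap_smul_right,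
      ← colMap_sub_right] at this
    exact this
  have hiso : herm q (l • k y - y) (l • k y - y) = 0 := by
    have hx : colMap (l • k y - y) (Pi.single (⟨0, by omega⟩ : Fin a) (1 : F)) ∈ R :=
      heq ▸ ⟨_, rfl⟩
    have := bf_line_map hF hG (G.inv_mem hh) hv hx hx
    rw [bf_colMap_colMap hF, herm_single_one _ hF.q_ne_zero] at this
    simpa using this
  refine hnt (isTens_of_line hF hG hno (by omega) hb hh hy hiso (z := v) ?_)
  rw [heq, hR, ← Submodule.map_comp]
  convert Submodule.map_id (line (a := a) v)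
  exact LinearMap.ext fun X => self_inv_apply h X

/-- The part of an image of a line orthogonal to a line can be moved into a line. -/
lemma meets_of_perp {h : Matrix (Fin a) (Fin b) F ≃ₗ[F] Matrix (Fin a) (Fin b) F}
    (hh : h ∈ G) (hnt : ¬ IsTens h) {w v : Fin b → F} (hw0 : w ≠ 0) (hw : herm q w w = 0)
    (hv0 : v ≠ 0) (hv : herm q v v = 0) :
    Meets q G (finrank F
      ((line (a := a) w).map h.toLinearMap ⊓ LinearMap.ker (con q v) : Submodule F _)) := by
  obtain ⟨c, hc0, hc⟩ := hF.exists_skew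
  obtain ⟨g, hg, hgx⟩ := mem_right_hr1 hF hG hv hc
  have hgx' : ∀ X, g X = X + c • colMap v (con q v X) := fun X => by
    rw [hgx, act_smul_right, LinearMap.smul_apply, act_hr1, LinearMap.id_apply]
  refine ⟨h⁻¹ * g * h, G.mul_mem (G.mul_mem (G.inv_mem hh) hg) hh, w, w, hw0, hw, hw0, hw,
    not_isTens_conj_root hF hG hno ha hab hb hh hnt hv0 hv hc0 hgx', ?_⟩
  rw [← LinearEquiv.finrank_map_eq (h⁻¹ : _ ≃ₗ[F] _)]
  refine Submodule.finrank_mono ?_
  rintro _ ⟨M, ⟨⟨_, ⟨x, rfl⟩, rfl⟩, hM⟩, rfl⟩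
  simp only [LinearEquiv.coe_coe] at hM ⊢
  have hM' : con q v (h (colMap w x)) = 0 := hM
  rw [inv_apply_self]
  refine ⟨⟨_, ⟨x, rfl⟩, ?_⟩, ⟨x, rfl⟩⟩
  rw [LinearEquiv.coe_coe, LinearEquiv.mul_apply, LinearEquiv.mul_apply, hgx', hM', map_zero,
    smul_zero, add_zero, inv_apply_self]

/-- Radical vectors of a Siegel map give larger intersections. -/
lemma meets_of_radical {h g : Matrix (Fin a) (Fin b) F ≃ₗ[F] Matrix (Fin a) (Fin b) F}
    (hh : h ∈ G) (hg : g ∈ G) {P : Matrix (Fin a) (Fin b) F →ₗ[F] Matrix (Fin a) (Fin b) F}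
    (hgx : ∀ X, g X = X + P X) (hnt : ¬ IsTens (h⁻¹ * g * h)) {w : Fin b → F} (hw0 : w ≠ 0)
    (hw : herm q w w = 0) {K : Submodule F (Matrix (Fin a) (Fin b) F)}
    (hK : K ≤ (line (a := a) w).map h.toLinearMap)
    (hrad : ∀ M ∈ K, ∀ M' ∈ (line (a := a) w).map h.toLinearMap, bf q (P M) M' = 0) :
    Meets q G (finrank F K) := by
  have hg' : h⁻¹ * g * h ∈ G := G.mul_mem (G.mul_mem (G.inv_mem hh) hg) hh
  obtain ⟨h', hh', w', v', h1, h2, h3, h4, h5, h6⟩ :=
    meets_of_perp hF hG hno ha hab hb hg' hnt hw0 hw hw0 hw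
  refine ⟨h', hh', w', v', h1, h2, h3, h4, h5, le_trans ?_ h6⟩
  rw [← LinearEquiv.finrank_map_eq (h⁻¹ * g : _ ≃ₗ[F] _)]
  refine Submodule.finrank_mono ?_
  rintro _ ⟨M, hM, rfl⟩
  obtain ⟨_, ⟨x, rfl⟩, hx⟩ := hK hM
  simp only [LinearEquiv.coe_coe] at hx ⊢
  refine ⟨⟨colMap w x, ⟨x, rfl⟩, ?_⟩, ?_⟩
  · rw [LinearEquiv.coe_coe, LinearEquiv.mul_apply, hx]
  · rw [SetLike.mem_coe, LinearMap.mem_ker]
    refine hF.eq_zero_of_herm _ fun y => herm_eq_zero_symm hF ?_
    have hy : h (colMap w y) ∈ (line (a := a) w).map h.toLinearMap :=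
      Submodule.mem_map_of_mem ⟨y, rfl⟩
    rw [← bf_colMap_left w y _ hF, LinearEquiv.mul_apply, ← hG.iso h hh, self_inv_apply, hgx,
      bf_add_right hF, bf_line_map hF hG hh hw hy (hK hM), ← bf_symm hF (P M), hrad M hM _ hy,
      zero_pow hF.q_ne_zero, add_zero]

lemma lt_of_meets {d : ℕ} (h : Meets q G d) : d < a := by
  obtain ⟨h, hh, w, v, hw0, hw, hv0, hv, hnt, hd⟩ := h
  by_contra hge
  push Not at hge
  refine hnt (isTens_of_line hF hG hno (by omega) hb hh hw0 hw (z := v) ?_)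
  have h1 : ((line (a := a) w).map h.toLinearMap ⊓ line v : Submodule F _)
      = (line (a := a) w).map h.toLinearMap := Submodule.eq_of_le_of_finrank_le inf_le_left (by
    rw [LinearEquiv.finrank_map_eq, finrank_line hw0]; omega)
  have h2 : ((line (a := a) w).map h.toLinearMap ⊓ line v : Submodule F _) = line v :=
    Submodule.eq_of_le_of_finrank_le inf_le_right (by rw [finrank_line hv0]; omega)
  exact h1.symm.trans h2

omit hG hno ha hab hb in
/-- Coordinates over the fixed field. -/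
lemma exists_coords : ∃ ω : F, ∀ x y : fixK hF, (x : F) + ω * y = 0 → x = 0 ∧ y = 0 := by
  obtain ⟨ω, hω⟩ := exists_ne_pow hF
  refine ⟨ω, fun x y h => ?_⟩
  have h1 : (x : F) + ω ^ q * y = 0 := by
    have := congrArg (fun z : F => z ^ q) h
    simp only [hF.add_pow, mul_pow, fixK_pow hF, zero_pow hF.q_ne_zero] at this
    exact this
  have hy : (y : F) = 0 := (mul_eq_zero.1 (by linear_combination h1 - h :
    (ω ^ q - ω) * (y : F) = 0)).resolve_left (sub_ne_zero.2 hω)
  exact ⟨Subtype.ext (by rw [hy, mul_zero, add_zero] at h; exact h), Subtype.ext hy⟩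

omit hG hno ha hab hb in
lemma con_add (y y' : Fin b → F) (M : Matrix (Fin a) (Fin b) F) :
    con q (y + y') M = con q y M + con q y' M := by
  funext i
  exact hF.herm_add_right _ _ _

omit hG hno ha hab hb in
lemma con_smul (c : F) (y : Fin b → F) (M : Matrix (Fin a) (Fin b) F) :
    con q (c • y) M = c ^ q • con q y M := by
  funext i
  exact herm_smul_right _ _ _

omit hG hno ha in
/-- A singular Siegel map on a family of matrices, centred at `e`. -/
lemma exists_line_family {e f₀ : Fin b → F} (hp : IsUPair q e f₀) {r : ℕ} (hr : 1 ≤ r)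
    (hdeg : r + 2 < 2 * (b - 2) + 1) (Ms : Fin r → Matrix (Fin a) (Fin b) F) :
    ∃ (y : Fin b → F) (s : F), herm q y y = 0 ∧ herm q y e = 0 ∧ herm q y f₀ = 0 ∧ s ^ q = -s ∧
      (y ≠ 0 ∨ s ≠ 0) ∧ ∃ c : Fin r → F, c ≠ 0 ∧
        ∀ j, bf q (planeMap q e y s 0 1 (∑ i, c i • Ms i)) (Ms j) = 0 := by
  classical
  obtain ⟨δ, hδ0, hδ⟩ := hF.exists_skew
  obtain ⟨ω, hω⟩ := exists_coords hF
  have hdim : b - 2 ≤ finrank F (perpTwo q e f₀) := by
    have := finrank_perpTwo (q := q) e f₀; omega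
  set W := perpTwo q e f₀
  let bs := Module.finBasis F W
  let vs : Fin (b - 2) → (Fin b → F) := fun i => (bs (Fin.castLE hdim i) : W)
  have hvsW : ∀ i, vs i ∈ W := fun i => (bs (Fin.castLE hdim i)).2
  have hli : LinearIndependent F vs :=
    (bs.linearIndependent.comp _ (Fin.castLE_injective hdim)).map' W.subtype W.ker_subtype
  let Y : (((Fin (b - 2) × Fin 2) ⊕ Unit) → fixK hF) →ₗ[fixK hF] (Fin b → F) :=
    { toFun := fun x => ∑ i, ((x (Sum.inl (i, 0)) : F) + ω * (x (Sum.inl (i, 1)) : F)) • vs i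
      map_add' := fun x x' => by
        rw [← Finset.sum_add_distrib]
        refine Finset.sum_congr rfl fun i _ => ?_
        simp only [Pi.add_apply, Subfield.coe_add]
        module
      map_smul' := fun k x => by
        rw [RingHom.id_apply, Finset.smul_sum]
        refine Finset.sum_congr rfl fun i _ => ?_
        simp only [Pi.smul_apply, smul_eq_mul, Subfield.coe_mul, Subfield.smul_def]
        module }
  have hYW : ∀ x, Y x ∈ W := fun x => by
    simp only [Y, LinearMap.coe_mk, AddHom.coe_mk]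
    exact W.sum_mem fun i _ => W.smul_mem _ (hvsW i)
  let L : (((Fin (b - 2) × Fin 2) ⊕ Unit) → fixK hF) →ₗ[fixK hF] Matrix (Fin r) (Fin r) F :=
    { toFun := fun x => Matrix.of fun i j =>
        δ * bf q (planeMap q e (Y x) (δ * (x (Sum.inr ()) : F)) 0 1 (Ms i)) (Ms j)
      map_add' := fun x x' => by
        ext i j
        simp only [Matrix.of_apply, Matrix.add_apply, bf_planeMap hF, map_add, Pi.add_apply,
          Subfield.coe_add, con_add hF, herm_add_left, hF.herm_add_right]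
        ring
      map_smul' := fun k x => by
        ext i j
        simp only [Matrix.of_apply, Matrix.smul_apply, bf_planeMap hF, map_smul, Pi.smul_apply,
          Subfield.smul_def, smul_eq_mul, Subfield.coe_mul, RingHom.id_apply]
        rw [show ((k : F) • Y x) = (k : F) • Y x from rfl, con_smul hF, con_smul hF, fixK_pow hF]
        simp only [herm_smul_left, herm_smul_right, fixK_pow hF]
        ring }
  have hsk : ∀ x : fixK hF, (δ * (x : F)) ^ q = -(δ * x) := fun x => by
    rw [mul_pow, hδ, fixK_pow hF, neg_mul]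
  obtain ⟨x, hx0, hdet, hiso⟩ := exists_singular_point hF hr L (fun x i j => by
    show (δ * bf q _ _) ^ q = δ * bf q _ _
    rw [mul_pow, hδ, bf_planeMap_symm hF (hsk _) (by rw [zero_pow hF.q_ne_zero, neg_zero]),
      neg_mul_neg]) Y (Or.inl (by simpa [mul_comm] using hdeg))
  obtain ⟨c, hc0, hc⟩ := Matrix.exists_vecMul_eq_zero_iff.2 hdet
  have hYx := mem_perpTwo.1 (hYW x)
  refine ⟨Y x, δ * (x (Sum.inr ()) : F), hiso, hYx.1, hYx.2, hsk _, ?_, c, hc0, fun j => ?_⟩
  · by_contra hcon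
    push Not at hcon
    obtain ⟨h1, h2⟩ := hcon
    apply hx0
    funext s
    rcases s with ⟨i, k⟩ | u
    · have h3 := hω _ _ (Fintype.linearIndependent_iff.1 hli _ h1 i)
      fin_cases k
      · exact h3.1
      · exact h3.2
    · exact Subtype.ext ((mul_eq_zero.1 h2).resolve_left hδ0)
  · have h1 := congrFun hc j
    simp only [Matrix.vecMul, dotProduct, Pi.zero_apply] at h1
    simp only [map_sum, map_smul]
    have hsum : ∀ (s : Finset (Fin r)) (g : Fin r → Matrix (Fin a) (Fin b) F),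
        bf q (∑ i ∈ s, g i) (Ms j) = ∑ i ∈ s, bf q (g i) (Ms j) := fun s g => by
      induction s using Finset.induction with
      | empty => simp [bf_zero_left]
      | @insert i s hi ih => rw [Finset.sum_insert hi, Finset.sum_insert hi, bf_add_left, ih]
    rw [hsum]
    refine mul_left_cancel₀ hδ0 ?_
    rw [mul_zero, Finset.mul_sum]
    refine Eq.trans (Finset.sum_congr rfl fun i _ => ?_) h1
    rw [bf_smul_left]
    show δ * (c i * _) = c i * (δ * _)
    ring

omit hG hno ha hab in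
/-- A singular Siegel map on at most three matrices inside a totally singular plane. -/
lemma exists_plane_family {e f : Fin b → F} {r : ℕ} (hr : 1 ≤ r) (hr4 : r < 4)
    (Ms : Fin r → Matrix (Fin a) (Fin b) F) :
    ∃ s₁ s₂ t : F, s₁ ^ q = -s₁ ∧ s₂ ^ q = -s₂ ∧ (s₁ ≠ 0 ∨ s₂ ≠ 0 ∨ t ≠ 0) ∧
      ∃ c : Fin r → F, c ≠ 0 ∧
        ∀ j, bf q (planeMap q e f s₁ s₂ t (∑ i, c i • Ms i)) (Ms j) = 0 := by
  classical
  obtain ⟨δ, hδ0, hδ⟩ := hF.exists_skew
  obtain ⟨ω, hω⟩ := exists_coords hF
  let L : (Fin 4 → fixK hF) →ₗ[fixK hF] Matrix (Fin r) (Fin r) F :=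
    { toFun := fun x => Matrix.of fun i j =>
        δ * bf q (planeMap q e f (δ * (x 0 : F)) (δ * (x 1 : F)) ((x 2 : F) + ω * (x 3 : F))
          (Ms i)) (Ms j)
      map_add' := fun x x' => by
        ext i j
        simp only [Matrix.of_apply, Matrix.add_apply, bf_planeMap hF, Pi.add_apply,
          Subfield.coe_add, hF.add_pow, mul_pow, fixK_pow hF]
        ring
      map_smul' := fun k x => by
        ext i j
        simp only [Matrix.of_apply, Matrix.smul_apply, bf_planeMap hF, Pi.smul_apply,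
          Subfield.smul_def, smul_eq_mul, Subfield.coe_mul, RingHom.id_apply, hF.add_pow, mul_pow,
          fixK_pow hF]
        ring }
  have hsk : ∀ x : fixK hF, (δ * (x : F)) ^ q = -(δ * x) := fun x => by
    rw [mul_pow, hδ, fixK_pow hF, neg_mul]
  obtain ⟨x, hx0, hdet, -⟩ := exists_singular_point hF hr L (fun x i j => by
    show (δ * bf q _ _) ^ q = δ * bf q _ _
    rw [mul_pow, hδ, bf_planeMap_symm hF (hsk _) (hsk _), neg_mul_neg])
    (0 : (Fin 4 → fixK hF) →ₗ[fixK hF] (Fin b → F)) (Or.inr ⟨by simpa using hr4, rfl⟩)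
  obtain ⟨c, hc0, hc⟩ := Matrix.exists_vecMul_eq_zero_iff.2 hdet
  refine ⟨δ * (x 0 : F), δ * (x 1 : F), (x 2 : F) + ω * (x 3 : F), hsk _, hsk _, ?_, c, hc0,
    fun j => ?_⟩
  · by_contra hcon
    push Not at hcon
    obtain ⟨h1, h2, h3⟩ := hcon
    apply hx0
    obtain ⟨h4, h5⟩ := hω _ _ h3
    funext s
    fin_cases s
    · exact Subtype.ext ((mul_eq_zero.1 h1).resolve_left hδ0)
    · exact Subtype.ext ((mul_eq_zero.1 h2).resolve_left hδ0)
    · exact h4
    · exact h5
  · have h1 := congrFun hc j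
    simp only [Matrix.vecMul, dotProduct, Pi.zero_apply] at h1
    simp only [map_sum, map_smul]
    have hsum : ∀ (s : Finset (Fin r)) (g : Fin r → Matrix (Fin a) (Fin b) F),
        bf q (∑ i ∈ s, g i) (Ms j) = ∑ i ∈ s, bf q (g i) (Ms j) := fun s g => by
      induction s using Finset.induction with
      | empty => simp [bf_zero_left]
      | @insert i s hi ih => rw [Finset.sum_insert hi, Finset.sum_insert hi, bf_add_left, ih]
    rw [hsum]
    refine mul_left_cancel₀ hδ0 ?_
    rw [mul_zero, Finset.mul_sum]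
    refine Eq.trans (Finset.sum_congr rfl fun i _ => ?_) h1
    rw [bf_smul_left]
    show δ * (c i * _) = c i * (δ * _)
    ring

/-- A tensor product square-zero isometry fixes an isotropic line near a line orthogonal to its
image. -/
lemma exists_fixed_line {g : Matrix (Fin a) (Fin b) F ≃ₗ[F] Matrix (Fin a) (Fin b) F}
    (hg : g ∈ G) (ht : IsTens g) (hsq : ∀ X, g (g X) = (2 : F) • g X - X) {w : Fin b → F}
    (hw0 : w ≠ 0) (hw : herm q w w = 0) {x₀ : Fin a → F} (hx₀ : x₀ ≠ 0)
    (hperp : con q w (g (colMap w x₀)) = 0) :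
    ∃ f : Fin b → F, f ≠ 0 ∧ herm q f f = 0 ∧ (line (a := a) f).map g.toLinearMap ≤ line f := by
  haveI : Finite F := hF.1
  obtain ⟨β, ⟨hinj, hsurj⟩, hk⟩ := ht
  obtain ⟨z, hz⟩ := hk w
  obtain ⟨z₂, hz₂⟩ := hk z
  by_cases hzw : z ∈ F ∙ w
  · obtain ⟨c, rfl⟩ := Submodule.mem_span_singleton.1 hzw
    exact ⟨w, hw0, hw, line_map_le_iff.2 fun x => ⟨c • β x, by
      rw [hz, colMap_smul_right, map_smul]⟩⟩
  have hzw0 : herm q z w = 0 := by
    rw [hz, con_colMap, smul_eq_zero] at hperp
    exact hperp.resolve_right fun h0 => hx₀ (hinj (h0.trans (map_zero β).symm))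
  have hzz : herm q z z = 0 := by
    obtain ⟨x, hx⟩ := hsurj (Pi.single ⟨0, by omega⟩ 1)
    have h3 := hG.iso g hg (colMap w x) (colMap w x)
    rw [hz, bf_colMap_colMap hF, bf_colMap_colMap hF, hw, mul_zero, hx,
      herm_single_one _ hF.q_ne_zero] at h3
    simpa using h3
  have heq : ∀ x, colMap z₂ (β (β x)) = colMap z ((2 : F) • β x) - colMap w x := fun x => by
    rw [← hz₂, ← hz, hsq, hz, map_smul]
  obtain ⟨i, hi⟩ : ∃ i, β (β x₀) i ≠ 0 := by
    by_contra hcon
    push Not at hcon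
    exact hx₀ (hinj (hinj (show β (β x₀) = β (β 0) by rw [map_zero, map_zero]; exact funext hcon)))
  set γ := 2 * β x₀ i / β (β x₀) i
  set α := -x₀ i / β (β x₀) i
  have hz₂eq : z₂ = α • w + γ • z := by
    funext j
    have := congrFun (congrFun (heq x₀) i) j
    simp only [colMap_apply, Matrix.sub_apply, vecMulVec_apply, Pi.smul_apply, smul_eq_mul] at this
    simp only [α, γ, Pi.add_apply, Pi.smul_apply, smul_eq_mul]
    field_simp
    linear_combination this
  obtain ⟨η, hη1, hη0⟩ := exists_dot_pair hw0 (η := z) hzw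
  rw [dotProduct_comm] at hη1 hη0
  obtain ⟨η', hη'1, hη'0⟩ := exists_dot_pair (η := w) (η' := z)
    (fun h0 => hzw (h0 ▸ zero_mem _)) (fun hm => hzw (by
      obtain ⟨c, hc⟩ := Submodule.mem_span_singleton.1 hm
      have hc0 : c ≠ 0 := fun h0 => hw0 (by rw [← hc, h0, zero_smul])
      exact Submodule.mem_span_singleton.2 ⟨c⁻¹, by rw [← hc, inv_smul_smul₀ hc0]⟩))
  rw [dotProduct_comm] at hη'1 hη'0
  have hγ : ∀ x, γ • β (β x) = (2 : F) • β x := fun x => by
    have := congrArg (rowMap η) (heq x)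
    simp only [rowMap_colMap, map_sub, hz₂eq, add_dotProduct, smul_dotProduct, hη1, hη0,
      smul_eq_mul, mul_zero, mul_one, zero_add, one_smul, zero_smul, sub_zero] at this
    exact this
  have hα : ∀ x, α • β (β x) = -x := fun x => by
    have := congrArg (rowMap η') (heq x)
    simp only [rowMap_colMap, map_sub, hz₂eq, add_dotProduct, smul_dotProduct, hη'1, hη'0,
      smul_eq_mul, mul_zero, mul_one, add_zero, one_smul, zero_smul, zero_sub] at this
    exact this
  obtain ⟨l, hl⟩ : ∃ l : F, l * l = γ * l + α := by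
    by_cases h2 : (2 : F) = 0
    · have hγ0 : γ = 0 := by simp [γ, h2]
      have hchar : ringChar F = 2 := by
        haveI := ringChar.charP F
        exact CharP.ringChar_of_prime_eq_zero Nat.prime_two (by exact_mod_cast h2)
      obtain ⟨l, hl⟩ := FiniteField.isSquare_of_char_two hchar α
      exact ⟨l, by rw [hγ0, zero_mul, zero_add, ← hl]⟩
    · have hγ0 : γ ≠ 0 := fun h0 => by
        have h3 := hγ x₀
        rw [h0, zero_smul, eq_comm, smul_eq_zero] at h3
        exact hx₀ (hinj ((h3.resolve_left h2).trans (map_zero β).symm))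
      have hβ : ∀ x, γ • β x = (2 : F) • x := fun x => hinj (by
        rw [map_smul, map_smul]; exact hγ x)
      have h4 : (4 * α + γ * γ) • x₀ = 0 := by
        have h5 := congrArg (fun X => (γ * γ) • X) (hα x₀)
        simp only [smul_smul] at h5
        have h6 : (γ * γ) • β (β x₀) = (4 : F) • x₀ := by
          rw [mul_smul, hγ, smul_comm, hβ, smul_smul]
          norm_num
        rw [show γ * γ * α = α * (γ * γ) by ring, mul_smul, h6, smul_smul, smul_neg] at h5
        rw [add_smul, mul_comm 4 α, h5, neg_add_cancel]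
      have h5 : 4 * α + γ * γ = 0 := (smul_eq_zero.1 h4).resolve_right hx₀
      refine ⟨γ / 2, ?_⟩
      field_simp
      linear_combination -h5
  refine ⟨(l - γ) • w + z, fun h0 => hzw ?_, ?_, line_map_le_iff.2 fun x => ⟨l • β x, ?_⟩⟩
  · exact Submodule.mem_span_singleton.2 ⟨-(l - γ), by rw [neg_smul, neg_eq_iff_add_eq_zero, h0]⟩
  · simp [herm_add_left, hF.herm_add_right, herm_smul_left, herm_smul_right, hw, hzz, hzw0,
      herm_eq_zero_symm hF hzw0]
  · rw [colMap_add_right ((l - γ) • w) z x, map_smul (colMap (a := a) _) l,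
      colMap_smul_right w (l - γ), map_add g, map_smul g, hz, hz₂, hz₂eq]
    simp only [colMap_add_right, colMap_smul_right, smul_add, smul_smul, hl]
    rw [show l * (l - γ) = α from by linear_combination hl]
    module

set_option maxHeartbeats 1600000 in
set_option synthInstance.maxHeartbeats 100000 in
/-- Every element is a tensor product. -/
theorem isTens_of_noParam {h₀ : Matrix (Fin a) (Fin b) F ≃ₗ[F] Matrix (Fin a) (Fin b) F}
    (hh₀ : h₀ ∈ G) : IsTens h₀ := by
  classical
  by_contra hnt₀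
  obtain ⟨e₀, he₀0, he₀⟩ := exists_isotropic hF (n := b) (by omega)
  have hP0 : Meets q G 0 := ⟨h₀, hh₀, e₀, e₀, he₀0, he₀, he₀0, he₀, hnt₀, Nat.zero_le _⟩
  set d := Nat.findGreatest (Meets q G) a
  have hdP : Meets q G d := Nat.findGreatest_spec (Nat.zero_le a) hP0
  have hmax : ∀ e, Meets q G e → e ≤ d := fun e he =>
    Nat.le_findGreatest (lt_of_meets hF hG hno ha hab hb he).le he
  have hda := lt_of_meets hF hG hno ha hab hb hdP
  obtain ⟨h, hh, w, v, hw0, hw, hv0, hv, hnt, hd⟩ := hdP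
  set U := (line (a := a) w).map h.toLinearMap with hUdef
  have hUdim : finrank F U = a := by rw [hUdef, LinearEquiv.finrank_map_eq, finrank_line hw0]
  have hperpU : ∀ {h' : Matrix (Fin a) (Fin b) F ≃ₗ[F] Matrix (Fin a) (Fin b) F}, h' ∈ G →
      ¬ IsTens h' → ∀ {w' c : Fin b → F}, w' ≠ 0 → herm q w' w' = 0 → c ≠ 0 → herm q c c = 0 →
      finrank F ((line (a := a) w').map h'.toLinearMap ⊓ LinearMap.ker (con q c) :
        Submodule F _) ≤ d := fun h1 h2 _ _ h3 h4 h5 h6 =>
    hmax _ (meets_of_perp hF hG hno ha hab hb h1 h2 h3 h4 h5 h6)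
  rcases Nat.eq_zero_or_pos d with hd0 | hd1
  · -- no image meets the orthogonal space of a line
    have hbot : ∀ {h' : Matrix (Fin a) (Fin b) F ≃ₗ[F] Matrix (Fin a) (Fin b) F}, h' ∈ G →
        ¬ IsTens h' → ∀ {w' c : Fin b → F}, w' ≠ 0 → herm q w' w' = 0 → c ≠ 0 → herm q c c = 0 →
        ∀ M ∈ (line (a := a) w').map h'.toLinearMap, con q c M = 0 → M = 0 := by
      intro h' h1 h2 w' c h3 h4 h5 h6 M hM hM0
      have := hperpU h1 h2 h3 h4 h5 h6
      rw [hd0, Nat.le_zero, Submodule.finrank_eq_zero] at this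
      exact (Submodule.eq_bot_iff _).1 this M ⟨hM, hM0⟩
    set Ms : Fin a → Matrix (Fin a) (Fin b) F := fun i => h (colMap w (Pi.single i 1)) with hMs
    obtain ⟨e, f, s₁, s₂, t, he, hf, hef, h1, h2, hne, c, hc0, hc⟩ :
        ∃ (e f : Fin b → F) (s₁ s₂ t : F), (e ≠ 0 ∧ herm q e e = 0) ∧ herm q f f = 0 ∧
          herm q e f = 0 ∧ s₁ ^ q = -s₁ ∧ s₂ ^ q = -s₂ ∧
          ((f = 0 ∧ s₁ ≠ 0) ∨ (f ≠ 0 ∧ (∀ A B : Fin a → F, colMap e A + colMap f B = 0 →
            A = 0 ∧ B = 0) ∧ (∀ x y : F, x • e + y • f = 0 → x = 0 ∧ y = 0) ∧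
            (s₁ ≠ 0 ∨ s₂ ≠ 0 ∨ t ≠ 0))) ∧
          ∃ c : Fin a → F, c ≠ 0 ∧
            ∀ j, bf q (planeMap q e f s₁ s₂ t (∑ i, c i • Ms i)) (Ms j) = 0 := by
      obtain ⟨f₀, hp⟩ := exists_partner hF he₀0 he₀
      have hindep : ∀ y : Fin b → F, y ≠ 0 → herm q y f₀ = 0 →
          (∀ A B : Fin a → F, colMap e₀ A + colMap y B = 0 → A = 0 ∧ B = 0) ∧
            (∀ x z : F, x • e₀ + z • y = 0 → x = 0 ∧ z = 0) := by
        intro y hy0 hyf
        refine ⟨fun A B hAB => ?_, fun x z hxz => ?_⟩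
        · have hA := congrArg (con q f₀) hAB
          rw [map_add, con_colMap, con_colMap, hp.2.2, hyf, map_zero, one_smul, zero_smul,
            add_zero] at hA
          rw [hA, map_zero, zero_add] at hAB
          exact ⟨hA, eq_zero_of_colMap hy0 hAB⟩
        · have hx := congrArg (fun u => herm q u f₀) hxz
          simp [herm_add_left, herm_smul_left, hp.2.2, hyf] at hx
          rw [hx, zero_smul, zero_add, smul_eq_zero] at hxz
          exact ⟨hx, hxz.resolve_right hy0⟩
      rcases Nat.lt_or_ge a 4 with h4 | h4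
      · obtain ⟨y, y', hyy, hy1, hy2, -, -⟩ := exists_second_pair hF hb hp
        obtain ⟨s₁, s₂, t, h1, h2, hne, hc⟩ := exists_plane_family hF hb (e := e₀) (f := y)
          (by omega : 1 ≤ a) h4 Ms
        exact ⟨e₀, y, s₁, s₂, t, ⟨he₀0, he₀⟩, hyy.1, herm_eq_zero_symm hF hy1, h1, h2,
          Or.inr ⟨hyy.ne_zero, (hindep y hyy.ne_zero hy2).1, (hindep y hyy.ne_zero hy2).2, hne⟩,
          hc⟩
      · obtain ⟨y, s, hyy, hy1, hy2, hs, hne, hc⟩ := exists_line_family hF hab hb hp
          (by omega : 1 ≤ a) (by omega) Ms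
        refine ⟨e₀, y, s, 0, 1, ⟨he₀0, he₀⟩, hyy, herm_eq_zero_symm hF hy1, hs,
          by rw [zero_pow hF.q_ne_zero, neg_zero], ?_, hc⟩
        by_cases hy0 : y = 0
        · exact Or.inl ⟨hy0, hne.resolve_left fun h => h hy0⟩
        · exact Or.inr ⟨hy0, (hindep y hy0 hy2).1, (hindep y hy0 hy2).2,
            Or.inr (Or.inr one_ne_zero)⟩
    obtain ⟨g, hg, hgx⟩ := mem_planeMap hF hG he.2 hf hef h1 h2 t
    set M₀ := ∑ i, c i • Ms i with hM₀
    have hM₀c : M₀ = h (colMap w c) := by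
      conv_rhs => rw [pi_eq_sum_univ' c]
      rw [map_sum, map_sum, hM₀]
      simp only [map_smul, hMs]
    have hM₀0 : M₀ ≠ 0 := fun h0 => hc0 (eq_zero_of_colMap hw0
      (h.injective ((hM₀c.symm.trans h0).trans (map_zero h).symm)))
    have hbasis : ∀ M ∈ U, bf q (planeMap q e f s₁ s₂ t M₀) M = 0 := by
      rintro _ ⟨_, ⟨x, rfl⟩, rfl⟩
      let P₀ : Submodule F (Fin a → F) :=
        { carrier := {x | bf q (planeMap q e f s₁ s₂ t M₀) (h (colMap w x)) = 0}
          add_mem' := fun {x y} hx hy => by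
            simp only [Set.mem_ofPred_eq, map_add, bf_add_right hF] at hx hy ⊢
            rw [hx, hy, add_zero]
          zero_mem' := by simp [bf_zero_right hF]
          smul_mem' := fun r x hx => by
            simp only [Set.mem_ofPred_eq, map_smul, bf_smul_right] at hx ⊢
            rw [hx, mul_zero] }
      have : x ∈ P₀ := by
        rw [pi_eq_sum_univ' x]
        exact Submodule.sum_mem _ fun i _ => P₀.smul_mem _ (hc i)
      exact this
    by_cases ht : IsTens (h⁻¹ * g * h)
    · rcases hne with ⟨hf0, hs₁⟩ | ⟨hf0, hind, hind', hs⟩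
      · refine not_isTens_conj_root hF hG hno ha hab hb hh hnt he.1 he.2 hs₁ (fun X => ?_) ht
        rw [hgx, planeMap_apply, hf0]
        simp [colMap_zero_right, cj, rowMap_apply, hF.q_ne_zero, show cj q (0 : Fin b → F) = 0 from
          funext fun j => zero_pow hF.q_ne_zero, map_smul]
      obtain ⟨hee, hfe⟩ := he.2, herm_eq_zero_symm hF hef
      have hsq : ∀ X, (h⁻¹ * g * h) ((h⁻¹ * g * h) X) = (2 : F) • (h⁻¹ * g * h) X - X := fun X => by
        have hPP : ∀ Y : Matrix (Fin a) (Fin b) F, planeMap q e f s₁ s₂ t (planeMap q e f s₁ s₂ t Y) = 0 := fun Y => by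
          rw [planeMap_apply e f s₁ s₂ t (planeMap q e f s₁ s₂ t Y),
            con_planeMap hF he.2 (herm_eq_zero_symm hF hef) s₁ s₂ t Y,
            con_planeMap hF hef hf s₁ s₂ t Y]
          simp only [smul_zero, add_zero, sub_zero, map_zero]
        simp only [LinearEquiv.mul_apply, self_inv_apply, hgx, map_add, inv_apply_self, hPP]
        simp only [map_zero, add_zero, smul_add]
        module
      have hperp : con q w ((h⁻¹ * g * h) (colMap w c)) = 0 := by
        refine hF.eq_zero_of_herm _ fun y => herm_eq_zero_symm hF ?_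
        have hy : h (colMap w y) ∈ U := Submodule.mem_map_of_mem ⟨y, rfl⟩
        have hM₀U : M₀ ∈ U := hM₀c ▸ Submodule.mem_map_of_mem ⟨c, rfl⟩
        rw [← bf_colMap_left w y _ hF, LinearEquiv.mul_apply, LinearEquiv.mul_apply,
          ← hG.iso h hh, self_inv_apply, hgx, ← hM₀c, bf_add_right hF,
          bf_line_map hF hG hh hw hy hM₀U, ← bf_symm hF (planeMap q e f s₁ s₂ t M₀), hbasis _ hy,
          zero_pow hF.q_ne_zero, add_zero]
      obtain ⟨l, hl0, hll, hlf⟩ := exists_fixed_line hF hG hno ha hab hb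
        (G.mul_mem (G.mul_mem (G.inv_mem hh) hg) hh) ht hsq hw0 hw hc0 hperp
      have hPz : ∀ x, planeMap q e f s₁ s₂ t (h (colMap l x)) = 0 := fun x => by
        refine hbot hh hnt hl0 hll he.1 he.2 _ ?_
          (con_planeMap hF he.2 (herm_eq_zero_symm hF hef) s₁ s₂ t _)
        obtain ⟨y, hy⟩ := hlf (Submodule.mem_map_of_mem ⟨x, rfl⟩)
        simp only [LinearEquiv.coe_coe, LinearEquiv.mul_apply, hgx] at hy
        refine ⟨colMap l (y - x), ⟨_, rfl⟩, ?_⟩
        rw [LinearEquiv.coe_coe, map_sub, map_sub, hy, self_inv_apply, add_sub_cancel_left]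
      obtain ⟨c', hc', hc'0, hc'z⟩ : ∃ c' : Fin b → F, herm q c' c' = 0 ∧ c' ≠ 0 ∧
          ∀ x, con q c' (h (colMap l x)) = 0 := by
        by_cases h3 : s₁ = 0 ∧ t = 0
        · obtain ⟨rfl, rfl⟩ := h3
          have hs2 : s₂ ≠ 0 := by simpa using hs
          refine ⟨f, hf, hf0, fun x => ?_⟩
          have h4 := (hind _ _ ((planeMap_apply e f _ _ _ _).symm.trans (hPz x))).2
          simpa [zero_pow hF.q_ne_zero, hs2] using h4
        · refine ⟨s₁ ^ q • e + t ^ q • f, ?_, fun h0 => h3 ?_, fun x => ?_⟩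
          · simp [herm_add_left, hF.herm_add_right, herm_smul_left, herm_smul_right, he.2, hf, hef,
              hfe]
          · obtain ⟨h4, h5⟩ := hind' _ _ h0
            exact ⟨(pow_eq_zero_iff hF.q_ne_zero).1 h4, (pow_eq_zero_iff hF.q_ne_zero).1 h5⟩
          · have h4 := (hind _ _ ((planeMap_apply e f _ _ _ _).symm.trans (hPz x))).1
            rw [con_add hF, con_smul hF, con_smul hF, hF.pow_pow, hF.pow_pow]
            exact h4
      have := hbot hh hnt hl0 hll hc'0 hc' _ (Submodule.mem_map_of_mem ⟨c, rfl⟩) (hc'z c)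
      exact hc0 (eq_zero_of_colMap hl0 (h.injective (this.trans (map_zero h).symm)))
    · have := hmax _ (meets_of_radical hF hG hno ha hab hb hh hg hgx ht hw0 hw (K := F ∙ M₀)
        ((Submodule.span_singleton_le_iff_mem _ _).2 (hM₀c ▸ Submodule.mem_map_of_mem ⟨c, rfl⟩))
        (fun M hM M' hM' => by
          obtain ⟨r, rfl⟩ := Submodule.mem_span_singleton.1 hM
          rw [map_smul, bf_smul_left, hbasis M' hM', mul_zero]))
      rw [finrank_span_singleton hM₀0] at this
      omega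
  -- an image meeting a line
  set D : Submodule F (Matrix (Fin a) (Fin b) F) := U ⊓ line v with hDdef
  have hDd : finrank F D = d := le_antisymm (hmax _ ⟨h, hh, w, v, hw0, hw, hv0, hv, hnt, le_rfl⟩) hd
  have hDker : U ⊓ LinearMap.ker (con q v) = D := by
    refine (Submodule.eq_of_le_of_finrank_le (le_inf inf_le_left ?_) ?_).symm
    · rintro X ⟨-, x, rfl⟩
      rw [LinearMap.mem_ker, con_colMap, hv, zero_smul]
    · rw [hDd]; exact hperpU hh hnt hw0 hw hv0 hv
  obtain ⟨f₀, hp⟩ := exists_partner hF hv0 hv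
  -- a complement
  obtain ⟨Ms, hMsU, hMsdec, hMsind⟩ := exists_complement_basis D U inf_le_left (r := a - d)
    (by omega)
  obtain ⟨y, s, hyy, hy1, hy2, hs, hne, c, hc0, hc⟩ := exists_line_family hF hab hb hp
    (by omega : 1 ≤ a - d) (by omega) Ms
  have hvy := herm_eq_zero_symm hF hy1
  obtain ⟨g, hg, hgx⟩ := mem_planeMap hF hG hv hyy hvy hs (s₂ := 0)
    (by rw [zero_pow hF.q_ne_zero, neg_zero]) 1
  set P := planeMap (a := a) q v y s 0 1
  have hPv : ∀ M, con q v (P M) = 0 := fun M => con_planeMap hF hv hy1 _ _ _ M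
  have hPD : ∀ M ∈ D, P M = 0 := by
    rintro _ ⟨-, x, rfl⟩
    show planeMap q v y s 0 1 (colMap v x) = 0
    rw [planeMap_apply, con_colMap, con_colMap, hv, hvy]
    simp
  by_cases ht : IsTens (h⁻¹ * g * h)
  · by_cases hy0 : y = 0
    · refine not_isTens_conj_root hF hG hno ha hab hb hh hnt hv0 hv
        (hne.resolve_left fun h => h hy0) (fun X => ?_) ht
      rw [hgx]
      show X + planeMap q v y s 0 1 X = _
      rw [planeMap_apply, hy0]
      simp [colMap_zero_right, rowMap_apply, show cj q (0 : Fin b → F) = 0 from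
        funext fun j => zero_pow hF.q_ne_zero]
    obtain ⟨k, -, hk⟩ := ht.map_line (by omega) hw0
    obtain ⟨M₁, hM₁, hM₁0⟩ := D.exists_mem_ne_zero_of_ne_bot fun h0 => by
      rw [h0, finrank_bot] at hDd; omega
    obtain ⟨_, ⟨x₁, rfl⟩, hx₁⟩ := hM₁.1
    have hfix : (h⁻¹ * g * h) (colMap w x₁) = colMap w x₁ := by
      rw [LinearEquiv.mul_apply, LinearEquiv.mul_apply, show h (colMap w x₁) = M₁ from hx₁, hgx,
        hPD M₁ hM₁, add_zero, ← hx₁]
      exact inv_apply_self h _
    have hlk : line (a := a) k = line w := line_eq_of_mem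
      (hk ▸ ⟨_, ⟨x₁, rfl⟩, hfix⟩) ⟨x₁, rfl⟩ (fun h0 => hM₁0 (by
        rw [← hx₁, h0, map_zero]))
    have hzero : ∀ M ∈ U, con q v M = 0 := by
      rintro _ ⟨_, ⟨x, rfl⟩, rfl⟩
      show con q v (h (colMap w x)) = 0
      have h1 : (h⁻¹ * g * h) (colMap w x) ∈ line w := by
        rw [← hlk, ← hk]; exact Submodule.mem_map_of_mem ⟨x, rfl⟩
      obtain ⟨x', hx'⟩ := h1
      rw [LinearEquiv.mul_apply, LinearEquiv.mul_apply, hgx] at hx'
      have h2 : P (h (colMap w x)) ∈ U := ⟨colMap w (x' - x), ⟨_, rfl⟩, by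
        rw [LinearEquiv.coe_coe, map_sub, map_sub, hx', self_inv_apply, add_sub_cancel_left]⟩
      have h3 : P (h (colMap w x)) ∈ D := by
        rw [← hDker]; exact ⟨h2, hPv _⟩
      obtain ⟨z, hz⟩ := h3.2
      have h4 := congrArg (con q f₀) hz
      rw [show P = planeMap q v y s 0 1 from rfl, planeMap_apply, map_add, con_colMap, con_colMap,
        con_colMap, hp.2.2, hy2, one_smul, one_smul, zero_smul, add_zero] at h4
      rw [h4, show P = planeMap q v y s 0 1 from rfl, planeMap_apply, left_eq_add] at hz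
      have h5 := eq_zero_of_colMap hy0 hz
      simpa using h5
    have h6 : U ≤ D := fun M hM => hDker ▸ ⟨hM, hzero M hM⟩
    have := Submodule.finrank_mono h6
    omega
  · set M₀ := ∑ i, c i • Ms i with hM₀
    have hM₀U : M₀ ∈ U := Submodule.sum_mem _ fun i _ => U.smul_mem _ (hMsU i)
    have hM₀D : M₀ ∉ D := fun hm => hc0 (hMsind c hm)
    have hrad0 : ∀ M ∈ U, bf q (P M₀) M = 0 := by
      intro M hM
      obtain ⟨dd, hdd, cc, rfl⟩ := hMsdec M hM
      let P₀ : Submodule F (Matrix (Fin a) (Fin b) F) :=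
        { carrier := {N | bf q (P M₀) N = 0}
          add_mem' := fun {x y} hx hy => by
            simp only [Set.mem_ofPred_eq, bf_add_right hF] at hx hy ⊢
            rw [hx, hy, add_zero]
          zero_mem' := bf_zero_right hF _
          smul_mem' := fun r x hx => by
            simp only [Set.mem_ofPred_eq, bf_smul_right] at hx ⊢
            rw [hx, mul_zero] }
      refine P₀.add_mem ?_ (P₀.sum_mem fun i _ => P₀.smul_mem _ (hc i))
      obtain ⟨x, rfl⟩ := hdd.2
      show bf q (P M₀) (colMap v x) = 0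
      rw [← bf_symm hF, bf_colMap_left v x _ hF, hPv, hF.herm_zero_right, zero_pow hF.q_ne_zero]
    have hlt : d < finrank F (D ⊔ F ∙ M₀ : Submodule F _) := by
      rw [← hDd]
      refine Submodule.finrank_lt_finrank_of_lt (lt_of_le_of_ne le_sup_left fun heq => hM₀D ?_)
      rw [heq]
      exact Submodule.mem_sup_right (Submodule.mem_span_singleton_self M₀)
    have := hmax _ (meets_of_radical hF hG hno ha hab hb hh hg hgx ht hw0 hw (K := D ⊔ F ∙ M₀)
      (sup_le inf_le_left ((Submodule.span_singleton_le_iff_mem _ _).2 hM₀U))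
      (fun M hM M' hM' => by
        obtain ⟨d', hd', e', he', rfl⟩ := Submodule.mem_sup.1 hM
        obtain ⟨r, rfl⟩ := Submodule.mem_span_singleton.1 he'
        rw [map_add, hPD d' hd', zero_add, map_smul, bf_smul_left, hrad0 M' hM', mul_zero]))
    omega

end Cfsg.Agent.MaxSub.TensorU
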