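import Cfsg.Agent.MaxSub.TensorU.Forms
import Cfsg.Agent.MaxSub.TensorMax.Basic

/-!
`F^a ⊗ F^b` as matrices with the product of the standard hermitian forms.
-/

set_option autoImplicit false
set_option linter.style.haveILetI false
set_option linter.unusedSectionVars false
set_option linter.unusedSimpArgs false

namespace Cfsg.Agent.MaxSub.TensorU

open Module Matrix Cfsg.Agent.Classical.U Cfsg.Agent.MaxSub.TensorMax
open Cfsg.Agent.MaxSub.ExtField (Mem mem_zero inv_apply_self self_inv_apply rk1)

universe u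

variable {F : Type u} [Field F] {a b q : ℕ}

/-- Entrywise `q`-th power. -/
def cj (q : ℕ) (v : Fin b → F) : Fin b → F := fun j => v j ^ q

/-- Contraction with a vector of the second factor. -/
abbrev con (q : ℕ) (v : Fin b → F) : Matrix (Fin a) (Fin b) F →ₗ[F] (Fin a → F) :=
  rowMap (cj q v)

lemma dot_cj (x v : Fin b → F) : x ⬝ᵥ cj q v = herm q x v := rfl

lemma con_apply (v : Fin b → F) (M : Matrix (Fin a) (Fin b) F) (i : Fin a) :
    con q v M i = herm q (M i) v := rfl

lemma con_colMap (v y : Fin b → F) (x : Fin a → F) :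
    con q v (colMap y x) = herm q y v • x := by
  rw [rowMap_colMap, dot_cj]

/-- The product of the two forms. -/
def bf (q : ℕ) (M M' : Matrix (Fin a) (Fin b) F) : F := ∑ i, herm q (M i) (M' i)

lemma colMap_row (v : Fin b → F) (x : Fin a → F) (i : Fin a) : colMap v x i = x i • v := rfl

lemma bf_colMap_left (v : Fin b → F) (x : Fin a → F) (M : Matrix (Fin a) (Fin b) F) (hF : SqField F q) :
    bf q (colMap v x) M = herm q x (con q v M) := by
  unfold bf
  rw [herm_def (q := q) x]
  refine Finset.sum_congr rfl fun i _ => ?_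
  rw [colMap_row, herm_smul_left, con_apply, hF.herm_symm]

lemma bf_colMap_colMap (hF : SqField F q) (v w : Fin b → F) (x y : Fin a → F) :
    bf q (colMap v x) (colMap w y) = herm q x y * herm q v w := by
  rw [bf_colMap_left v x _ hF, con_colMap, herm_smul_right, hF.herm_symm, mul_comm]

lemma bf_add_left (M M' N : Matrix (Fin a) (Fin b) F) :
    bf q (M + M') N = bf q M N + bf q M' N := by
  unfold bf
  rw [← Finset.sum_add_distrib]
  exact Finset.sum_congr rfl fun i _ => herm_add_left _ _ _

lemma bf_smul_left (c : F) (M N : Matrix (Fin a) (Fin b) F) :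
    bf q (c • M) N = c * bf q M N := by
  unfold bf
  rw [Finset.mul_sum]
  exact Finset.sum_congr rfl fun i _ => herm_smul_left _ _ _

lemma bf_zero_left (N : Matrix (Fin a) (Fin b) F) : bf q 0 N = 0 := by
  unfold bf
  exact Finset.sum_eq_zero fun i _ => herm_zero_left _

lemma bf_sub_left (M M' N : Matrix (Fin a) (Fin b) F) :
    bf q (M - M') N = bf q M N - bf q M' N := by
  have := bf_add_left (q := q) (M - M') M' N
  rw [sub_add_cancel] at this
  linear_combination -this

lemma bf_smul_right (c : F) (M N : Matrix (Fin a) (Fin b) F) :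
    bf q M (c • N) = c ^ q * bf q M N := by
  unfold bf
  rw [Finset.mul_sum]
  exact Finset.sum_congr rfl fun i _ => herm_smul_right _ _ _

lemma bf_symm (hF : SqField F q) (M N : Matrix (Fin a) (Fin b) F) :
    bf q M N ^ q = bf q N M := by
  unfold bf
  rw [hF.sum_pow]
  exact Finset.sum_congr rfl fun i _ => hF.herm_symm _ _

lemma bf_add_right (hF : SqField F q) (M N N' : Matrix (Fin a) (Fin b) F) :
    bf q M (N + N') = bf q M N + bf q M N' := by
  unfold bf
  rw [← Finset.sum_add_distrib]
  exact Finset.sum_congr rfl fun i _ => hF.herm_add_right _ _ _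

lemma bf_zero_right (hF : SqField F q) (M : Matrix (Fin a) (Fin b) F) : bf q M 0 = 0 := by
  rw [← bf_symm hF, bf_zero_left, zero_pow hF.q_ne_zero]

/-- The product of two maps. -/
def act (f : (Fin a → F) →ₗ[F] (Fin a → F)) (g : (Fin b → F) →ₗ[F] (Fin b → F)) :
    Matrix (Fin a) (Fin b) F →ₗ[F] Matrix (Fin a) (Fin b) F where
  toFun X := LinearMap.toMatrix' f * X * (LinearMap.toMatrix' g)ᵀ
  map_add' X Y := by rw [Matrix.mul_add, Matrix.add_mul]
  map_smul' c X := by rw [Matrix.mul_smul, Matrix.smul_mul, RingHom.id_apply]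

lemma act_colMap (f : (Fin a → F) →ₗ[F] (Fin a → F)) (g : (Fin b → F) →ₗ[F] (Fin b → F))
    (v : Fin b → F) (x : Fin a → F) : act f g (colMap v x) = colMap (g v) (f x) := by
  show LinearMap.toMatrix' f * vecMulVec x v * (LinearMap.toMatrix' g)ᵀ = vecMulVec (f x) (g v)
  rw [mul_vecMulVec, LinearMap.toMatrix'_mulVec, vecMulVec_mul, vecMul_transpose,
    LinearMap.toMatrix'_mulVec]

/-- Linear maps agreeing on the lines are equal. -/
lemma ext_colMap {W : Type u} [AddCommGroup W] [Module F W]
    {f g : Matrix (Fin a) (Fin b) F →ₗ[F] W}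
    (h : ∀ (v : Fin b → F) (x : Fin a → F), f (colMap v x) = g (colMap v x)) : f = g := by
  refine LinearMap.ext fun X => ?_
  rw [Matrix.matrix_eq_sum_single X, map_sum, map_sum]
  refine Finset.sum_congr rfl fun i _ => ?_
  rw [map_sum, map_sum]
  refine Finset.sum_congr rfl fun j _ => ?_
  rw [show Matrix.single i j (X i j) = colMap (Pi.single j (1 : F)) (Pi.single i (X i j)) by
    ext k l
    rcases eq_or_ne i k with rfl | h1 <;> rcases eq_or_ne j l with rfl | h2 <;>
      simp [colMap_apply, vecMulVec_apply, Matrix.single_apply, Pi.single_apply, *, Ne.symm]]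
  exact h _ _

lemma colMap_add_right (v v' : Fin b → F) (x : Fin a → F) :
    colMap (v + v') x = colMap v x + colMap v' x := vecMulVec_add x v v'

lemma colMap_sub_right (v v' : Fin b → F) (x : Fin a → F) :
    colMap (v - v') x = colMap v x - colMap v' x := by
  rw [eq_sub_iff_add_eq, ← colMap_add_right, sub_add_cancel]

lemma colMap_zero_right (x : Fin a → F) : colMap (0 : Fin b → F) x = 0 := by
  ext i j; simp [colMap_apply, vecMulVec_apply]

lemma act_hr1 (f : (Fin a → F) →ₗ[F] (Fin a → F)) (e v : Fin b → F)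
    (X : Matrix (Fin a) (Fin b) F) : act f (hr1 q e v) X = colMap e (f (con q v X)) := by
  refine LinearMap.congr_fun (g := colMap e ∘ₗ f ∘ₗ con q v) (ext_colMap fun w x => ?_) X
  rw [act_colMap, LinearMap.comp_apply, LinearMap.comp_apply, con_colMap, hr1_apply,
    colMap_smul_right, map_smul, map_smul]

lemma act_comp (f f' : (Fin a → F) →ₗ[F] (Fin a → F)) (g g' : (Fin b → F) →ₗ[F] (Fin b → F))
    (X : Matrix (Fin a) (Fin b) F) : act f g (act f' g' X) = act (f ∘ₗ f') (g ∘ₗ g') X :=
  LinearMap.congr_fun (f := act f g ∘ₗ act f' g') (ext_colMap fun w x => by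
    simp [act_colMap]) X

lemma act_add_left (f f' : (Fin a → F) →ₗ[F] (Fin a → F)) (g : (Fin b → F) →ₗ[F] (Fin b → F)) :
    act (f + f') g = act f g + act f' g := ext_colMap fun w x => by
  simp [act_colMap, map_add]

lemma act_sub_left (f f' : (Fin a → F) →ₗ[F] (Fin a → F)) (g : (Fin b → F) →ₗ[F] (Fin b → F)) :
    act (f - f') g = act f g - act f' g := ext_colMap fun w x => by
  simp [act_colMap, map_sub]

lemma act_add_right (f : (Fin a → F) →ₗ[F] (Fin a → F)) (g g' : (Fin b → F) →ₗ[F] (Fin b → F)) :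
    act f (g + g') = act f g + act f g' := ext_colMap fun w x => by
  simp [act_colMap, colMap_add_right]

lemma act_sub_right (f : (Fin a → F) →ₗ[F] (Fin a → F)) (g g' : (Fin b → F) →ₗ[F] (Fin b → F)) :
    act f (g - g') = act f g - act f g' := ext_colMap fun w x => by
  simp [act_colMap, colMap_sub_right]

lemma act_smul_left (c : F) (f : (Fin a → F) →ₗ[F] (Fin a → F))
    (g : (Fin b → F) →ₗ[F] (Fin b → F)) : act (c • f) g = c • act f g := ext_colMap fun w x => by
  simp [act_colMap]

lemma act_smul_right (c : F) (f : (Fin a → F) →ₗ[F] (Fin a → F))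
    (g : (Fin b → F) →ₗ[F] (Fin b → F)) : act f (c • g) = c • act f g := ext_colMap fun w x => by
  simp [act_colMap, colMap_smul_right]

lemma act_zero_left (g : (Fin b → F) →ₗ[F] (Fin b → F)) :
    act (0 : (Fin a → F) →ₗ[F] (Fin a → F)) g = 0 := ext_colMap fun w x => by
  simp [act_colMap]

lemma act_zero_right (f : (Fin a → F) →ₗ[F] (Fin a → F)) :
    act f (0 : (Fin b → F) →ₗ[F] (Fin b → F)) = 0 := ext_colMap fun w x => by
  simp [act_colMap, colMap_zero_right]

/-- `G` preserves the product form and contains the two special unitary groups. -/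
structure UFactors (q : ℕ)
    (G : Subgroup (Matrix (Fin a) (Fin b) F ≃ₗ[F] Matrix (Fin a) (Fin b) F)) : Prop where
  iso : ∀ g ∈ G, ∀ X Y, bf q (g X) (g Y) = bf q X Y
  left : ∀ g ∈ SUG a F q, ∃ k ∈ G, ∀ X, k X = act g.1.toLinearMap LinearMap.id X
  right : ∀ g ∈ SUG b F q, ∃ k ∈ G, ∀ X, k X = act LinearMap.id g.1.toLinearMap X

variable {G : Subgroup (Matrix (Fin a) (Fin b) F ≃ₗ[F] Matrix (Fin a) (Fin b) F)}
  (hF : SqField F q) (hG : UFactors q G)
include hF hG

/-- A root element of the right factor at an isotropic vector. -/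
lemma mem_right_hr1 {v : Fin b → F} {c : F} (hv : herm q v v = 0) (hc : c ^ q = -c) :
    Mem G (act (LinearMap.id : (Fin a → F) →ₗ[F] _) (c • hr1 q v v)) := by
  have ht : TrvCond q v c := ⟨hv, hc⟩
  obtain ⟨k, hk, hkx⟩ := hG.right _ (TG_le_SUG hF (trv_mem hF ht))
  refine ⟨k, hk, fun X => ?_⟩
  rw [hkx]
  refine LinearMap.congr_fun (g := LinearMap.id + act LinearMap.id (c • hr1 q v v))
    (ext_colMap fun w x => ?_) X
  rw [LinearMap.add_apply, act_colMap, act_colMap, LinearEquiv.coe_coe, trv_apply, colMap_add_right,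
    LinearMap.smul_apply, hr1_apply, smul_smul]
  rfl

/-- A root element of the left factor at an isotropic vector. -/
lemma mem_left_hr1 {u : Fin a → F} {c : F} (hu : herm q u u = 0) (hc : c ^ q = -c) :
    Mem G (act (c • hr1 q u u) (LinearMap.id : (Fin b → F) →ₗ[F] _)) := by
  have ht : TrvCond q u c := ⟨hu, hc⟩
  obtain ⟨k, hk, hkx⟩ := hG.left _ (TG_le_SUG hF (trv_mem hF ht))
  refine ⟨k, hk, fun X => ?_⟩
  rw [hkx]
  refine LinearMap.congr_fun (g := LinearMap.id + act (c • hr1 q u u) LinearMap.id)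
    (ext_colMap fun w x => ?_) X
  rw [LinearMap.add_apply, act_colMap, act_colMap, LinearEquiv.coe_coe, trv_apply, map_add,
    LinearMap.smul_apply, hr1_apply, smul_smul]
  rfl

/-- A Siegel element of the right factor. -/
lemma mem_right_pair {e f : Fin b → F} (he : herm q e e = 0) (hf : herm q f f = 0)
    (hef : herm q e f = 0) (t : F) :
    Mem G (act (LinearMap.id : (Fin a → F) →ₗ[F] _)
      (t • hr1 q e f - t ^ q • hr1 q f e)) := by
  have hfe := herm_eq_zero_symm hF hef
  have hc : UniCond q e (-(t ^ q) • f) 0 := ⟨he, by rw [herm_smul_left, hfe, mul_zero],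
    by rw [herm_smul_left, herm_smul_right, hf, zero_pow hF.q_ne_zero]; ring⟩
  obtain ⟨k, hk, hkx⟩ := hG.right _ (det_uni hF hc)
  refine ⟨k, hk, fun X => ?_⟩
  rw [hkx]
  refine LinearMap.congr_fun (g := LinearMap.id + act LinearMap.id
    (t • hr1 q e f - t ^ q • hr1 q f e)) (ext_colMap fun w x => ?_) X
  rw [LinearMap.add_apply, act_colMap, act_colMap, LinearEquiv.coe_coe, uni_apply,
    LinearMap.id_apply, LinearMap.id_apply, ← colMap_add_right]
  refine congrArg (fun v => colMap v x) ?_
  simp only [LinearMap.sub_apply, LinearMap.smul_apply, hr1_apply, herm_smul_right, hF.neg_pow,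
    hF.pow_pow]
  module

end Cfsg.Agent.MaxSub.TensorU
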