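import Cfsg.Agent.MaxSub.TensorU.Params

/-!
Without non-scalar root parameters, an element mapping one isotropic line to a line is a tensor
product.
-/

set_option autoImplicit false
set_option linter.style.haveILetI false
set_option linter.unusedSectionVars false

namespace Cfsg.Agent.MaxSub.TensorU

open Module Matrix Cfsg.Agent.Classical.U Cfsg.Agent.MaxSub.TensorMax
open Cfsg.Agent.MaxSub.ExtField (Mem mem_zero inv_apply_self self_inv_apply rk1)

universe u

variable {F : Type u} [Field F] {a b q : ℕ}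

/-- The element maps every line to a line, with the same map on the first factor. -/
def IsTens (h : Matrix (Fin a) (Fin b) F ≃ₗ[F] Matrix (Fin a) (Fin b) F) : Prop :=
  ∃ β : (Fin a → F) →ₗ[F] (Fin a → F), Function.Bijective β ∧
    ∀ w : Fin b → F, ∃ k : Fin b → F, ∀ x, h (colMap w x) = colMap k (β x)

lemma eq_zero_of_colMap {v : Fin b → F} (hv : v ≠ 0) {x : Fin a → F} (h : colMap v x = 0) :
    x = 0 :=
  colMap_injective hv (h.trans (map_zero (colMap v)).symm)

/-- A matrix is the sum of its rows. -/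
lemma sum_colMap_rows (Y : Matrix (Fin a) (Fin b) F) :
    Y = ∑ i, colMap (Y i) (Pi.single i (1 : F)) := by
  ext l j
  rw [Matrix.sum_apply, Finset.sum_eq_single l]
  · simp [colMap_apply, vecMulVec_apply]
  · intro i _ hi
    simp [colMap_apply, vecMulVec_apply, hi.symm]
  · simp

variable {G : Subgroup (Matrix (Fin a) (Fin b) F ≃ₗ[F] Matrix (Fin a) (Fin b) F)}
  (hF : SqField F q) (hG : UFactors q G)
include hF

/-- A vector orthogonal to the isotropic vectors orthogonal to `v` is a multiple of `v`. -/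
lemma eq_smul_of_orth (hb : 4 ≤ b) {v f r : Fin b → F} (hp : IsUPair q v f)
    (hr : ∀ w, herm q w w = 0 → herm q w v = 0 → herm q r w = 0) :
    r = herm q r f • v := by
  obtain ⟨hv, hf, hvf⟩ := id hp
  have hfv : herm q f v = 1 := by rw [← hF.herm_symm, hvf, one_pow]
  set r' := r - herm q r f • v
  have h1 : ∀ w, herm q w v = 0 → herm q w r' = 0 := fun w hw =>
    mem_of_perp_isotropic hF hb hp.ne_zero hv (LinearMap.ker (dualF q r')) (fun y hy hyv => by
      rw [LinearMap.mem_ker, dualF_apply]
      refine herm_eq_zero_symm hF ?_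
      rw [herm_sub_left, herm_smul_left, hr y hy hyv, herm_eq_zero_symm hF hyv, mul_zero,
        sub_zero]) hw
  have h2 : herm q f r' = 0 := herm_eq_zero_symm hF (by
    rw [herm_sub_left, herm_smul_left, hvf, mul_one, sub_self])
  refine sub_eq_zero.1 (hF.eq_zero_of_herm r' fun y => herm_eq_zero_symm hF ?_)
  have h3 := h1 (y - herm q y v • f) (by
    rw [herm_sub_left, herm_smul_left, hfv, mul_one, sub_self])
  rw [herm_sub_left, herm_smul_left, h2, mul_zero, sub_zero] at h3
  exact h3

include hG

section Scalar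

variable (hno : ¬ HasNSParam q G)
include hno

lemma scalar_of_mem {v : Fin b → F} (hv0 : v ≠ 0) (hv : herm q v v = 0)
    {S : (Fin a → F) →ₗ[F] (Fin a → F)} (hS : IsSkewU q S) (h : Mem G (act S (hr1 q v v))) :
    ∃ c : F, S = c • LinearMap.id := by
  by_contra hcon
  push Not at hcon
  exact hno ⟨v, S, hv0, hv, hS, hcon, h⟩

/-- An element trivial on the three layers at a line is given by a functional on the middle one. -/
lemma radical_scalar (hb : 4 ≤ b) {v : Fin b → F} (hv0 : v ≠ 0) (hv : herm q v v = 0)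
    {Z : Matrix (Fin a) (Fin b) F →ₗ[F] Matrix (Fin a) (Fin b) F} (hZ : Mem G Z)
    (hker : ∀ x, Z (colMap v x) = 0) (hrange : ∀ X, con q v (Z X) = 0)
    (hperp : ∀ X, con q v X = 0 → Z X ∈ line v) {s : Fin b → F} (hs : herm q s v = 0) :
    ∃ c : F, ∀ x, Z (colMap s x) = colMap v (c • x) := by
  obtain ⟨η, hη⟩ := exists_dot_eq_one hv0
  obtain ⟨f, hp⟩ := exists_partner hF hv0 hv
  have hfv : herm q f v = 1 := (hp.symm hF).2.2
  let p : Submodule F (Fin b → F) :=
    { carrier := {s | ∃ c : F, ∀ x, Z (colMap s x) = colMap v (c • x)}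
      add_mem' := by
        rintro s s' ⟨c, hc⟩ ⟨c', hc'⟩
        exact ⟨c + c', fun x => by rw [colMap_add_right, map_add, hc, hc', ← map_add, add_smul]⟩
      zero_mem' := ⟨0, fun x => by rw [colMap_zero_right, map_zero, zero_smul, map_zero]⟩
      smul_mem' := by
        rintro k s ⟨c, hc⟩
        exact ⟨k * c, fun x => by
          rw [colMap_smul_right, map_smul, hc, ← map_smul (colMap v), smul_smul]⟩ }
  refine mem_of_perp_isotropic hF hb hv0 hv p (fun s hss hsv => ?_) hs
  have hvs := herm_eq_zero_symm hF hsv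
  set θ : (Fin a → F) →ₗ[F] (Fin a → F) := rowMap η ∘ₗ Z ∘ₗ colMap s
  set θ' : (Fin a → F) →ₗ[F] (Fin a → F) := -(con q s ∘ₗ Z ∘ₗ colMap f)
  have hθ : ∀ x, Z (colMap s x) = colMap v (θ x) := fun x => by
    obtain ⟨y, hy⟩ := hperp (colMap s x) (by rw [con_colMap, hsv, zero_smul])
    show _ = colMap v (rowMap η (Z (colMap s x)))
    rw [← hy, rowMap_colMap, hη, one_smul]
  have hθ' : ∀ X, con q s (Z X) = -θ' (con q v X) := fun X => by
    obtain ⟨y, hy⟩ := hperp (X - colMap f (con q v X)) (by
      rw [map_sub, con_colMap, hfv, one_smul, sub_self])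
    have h1 : con q s (Z (X - colMap f (con q v X))) = 0 := by
      rw [← hy, con_colMap, hvs, zero_smul]
    rw [map_sub, map_sub, sub_eq_zero] at h1
    simp [θ', h1]
  have hadj : IsAdj q θ θ' := fun x y => by
    obtain ⟨g, hg, hgx⟩ := id hZ
    have h1 := hG.iso g hg (colMap s x) (colMap f y)
    rw [hgx, hgx, hθ, bf_add_left, bf_add_right hF, bf_add_right hF, bf_colMap_left s x (Z _) hF,
      bf_colMap_left v (θ x) (Z _) hF, hθ', hrange, bf_colMap_colMap hF v f (θ x) y, hp.2.2,
      con_colMap, hfv, one_smul, hF.herm_zero_right, hF.herm_neg_right] at h1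
    linear_combination h1
  have key : ∀ t : F, ∃ c : F, t ^ q • θ - t • θ' = c • LinearMap.id := by
    intro t
    refine scalar_of_mem hF hG hno hv0 hv (fun x y => ?_) ?_
    · simp only [LinearMap.sub_apply, LinearMap.smul_apply, herm_sub_left, hF.herm_sub_right,
        herm_smul_left, herm_smul_right, hF.pow_pow, hadj x y, (hadj.symm hF) x y]
      ring
    set E : Matrix (Fin a) (Fin b) F →ₗ[F] Matrix (Fin a) (Fin b) F :=
      act LinearMap.id (t • hr1 q v s - t ^ q • hr1 q s v) with hEdef
    have hE : ∀ X, E X = colMap v (t • con q s X) - colMap s (t ^ q • con q v X) := fun X => by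
      rw [hEdef, act_sub_right, LinearMap.sub_apply, act_smul_right, act_smul_right,
        LinearMap.smul_apply, LinearMap.smul_apply, act_hr1, act_hr1, LinearMap.id_apply,
        LinearMap.id_apply, map_smul, map_smul]
    have hEv : ∀ x, E (colMap v x) = 0 := fun x => by
      rw [hE, con_colMap, con_colMap, hvs, hv]
      simp
    have hEm : Mem G E := mem_right_pair hF hG hv hss hvs t
    have hconj := mem_conj hZ hEm fun X => by
      rw [hE X, map_sub, hEv, hE, con_colMap, con_colMap, hss, hsv]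
      simp
    obtain ⟨k, hk, hkx⟩ := hconj
    obtain ⟨g, hg, hgx⟩ := id hZ
    refine ⟨k * g⁻¹, G.mul_mem hk (G.inv_mem hg), fun Y => ?_⟩
    obtain ⟨X, rfl⟩ : ∃ X, g X = Y := ⟨g⁻¹ Y, self_inv_apply g Y⟩
    rw [LinearEquiv.mul_apply, inv_apply_self, hkx, act_hr1]
    have hc : con q v (g X) = con q v X := by rw [hgx, map_add, hrange, add_zero]
    simp only [LinearMap.comp_apply, LinearMap.add_apply, LinearMap.sub_apply, LinearMap.id_apply,
      map_sub, hc, hgx]
    have h2 : Z (E X) = -colMap v (t ^ q • θ (con q v X)) := by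
      rw [hE, map_sub, hker, hθ, map_smul]
      simp
    have h3 : E (Z X) = -colMap v (t • θ' (con q v X)) := by
      rw [hE, hrange, hθ']
      simp
    rw [h2, h3, map_neg, hEv, LinearMap.smul_apply, LinearMap.smul_apply]
    simp only [map_smul, map_add, hrange, map_zero, smul_zero, add_zero]
    module
  obtain ⟨c₁, h1⟩ := key 1
  obtain ⟨d, hd⟩ := exists_ne_pow hF
  obtain ⟨c₂, h2⟩ := key d
  refine ⟨(c₂ - d * c₁) / (d ^ q - d), fun x => ?_⟩
  rw [hθ]
  congr 1
  have e1 := LinearMap.congr_fun h1 x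
  have e2 := LinearMap.congr_fun h2 x
  simp only [one_pow, one_smul, LinearMap.sub_apply, LinearMap.smul_apply, LinearMap.id_apply]
    at e1 e2
  have e3 : (d ^ q - d) • θ x = (c₂ - d * c₁) • x := by
    rw [sub_smul, sub_smul, ← e2, mul_smul, ← e1, smul_sub]
    abel
  rw [div_eq_inv_mul, mul_smul, ← e3, inv_smul_smul₀ (sub_ne_zero.2 hd)]

/-- An element fixing a line acts by tensor products on its orthogonal space. -/
lemma exists_image_of_fix (ha : 0 < a) (hb : 4 ≤ b) {v : Fin b → F} (hv0 : v ≠ 0)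
    (hv : herm q v v = 0) {h : Matrix (Fin a) (Fin b) F ≃ₗ[F] Matrix (Fin a) (Fin b) F}
    (hh : h ∈ G) {β : (Fin a → F) →ₗ[F] (Fin a → F)} (hfix : ∀ x, h (colMap v x) = colMap v (β x))
    {z : Fin b → F} (hz : herm q z v = 0) :
    ∃ k : Fin b → F, ∀ x, h (colMap z x) = colMap k (β x) := by
  obtain ⟨f, hp⟩ := exists_partner hF hv0 hv
  have hfv : herm q f v = 1 := (hp.symm hF).2.2
  have hinj : Function.Injective β := (injective_iff_map_eq_zero β).2 fun x h0 => by
    have h1 : h (colMap v x) = h 0 := by rw [hfix, h0, map_zero, map_zero]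
    exact eq_zero_of_colMap hv0 (h.injective h1)
  have hsurj : Function.Surjective β := LinearMap.injective_iff_surjective.1 hinj
  have hfix' : ∀ x, h⁻¹ (colMap v (β x)) = colMap v x := fun x => by
    rw [← hfix, inv_apply_self]
  have hperp : ∀ X, con q v X = 0 → con q v (h X) = 0 := fun X hX => by
    refine hF.eq_zero_of_herm _ fun y => herm_eq_zero_symm hF ?_
    obtain ⟨x, rfl⟩ := hsurj y
    rw [← bf_colMap_left v (β x) (h X) hF, ← hfix, hG.iso h hh, bf_colMap_left _ _ _ hF, hX,
      hF.herm_zero_right]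
  have hperp' : ∀ X, con q v X = 0 → con q v (h⁻¹ X) = 0 := fun X hX => by
    refine hF.eq_zero_of_herm _ fun y => herm_eq_zero_symm hF ?_
    rw [← bf_colMap_left v y (h⁻¹ X) hF, ← hG.iso h hh, hfix, self_inv_apply,
      bf_colMap_left _ _ _ hF, hX, hF.herm_zero_right]
  -- the middle layer
  have stepb : ∀ w z, herm q w w = 0 → herm q w v = 0 → herm q z v = 0 →
      ∃ c : F, ∀ x, con q w (h (colMap z x)) = c • β x := by
    intro w z hww hwv hzv
    have hvw := herm_eq_zero_symm hF hwv
    set E : Matrix (Fin a) (Fin b) F →ₗ[F] Matrix (Fin a) (Fin b) F :=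
      act LinearMap.id ((1 : F) • hr1 q v w - (1 : F) ^ q • hr1 q w v) with hEdef
    have hE : ∀ X, E X = colMap v (con q w X) - colMap w (con q v X) := fun X => by
      rw [hEdef, one_pow, one_smul, one_smul, act_sub_right, LinearMap.sub_apply, act_hr1, act_hr1,
        LinearMap.id_apply, LinearMap.id_apply]
    have hEm : Mem G E := mem_right_pair hF hG hv hww hvw 1
    obtain ⟨c, hc⟩ := radical_scalar hF hG hno hb hv0 hv
      (Z := (h⁻¹ : _ ≃ₗ[F] _).toLinearMap ∘ₗ E ∘ₗ h.toLinearMap)
      ((hEm.conj (G.inv_mem hh)).congr fun X => by rw [inv_inv]) (fun x => by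
        simp only [LinearMap.comp_apply, LinearEquiv.coe_coe]
        rw [hfix, hE, con_colMap, con_colMap, hvw, hv]
        simp) (fun X => by
        simp only [LinearMap.comp_apply, LinearEquiv.coe_coe]
        refine hperp' _ ?_
        rw [hE, map_sub, con_colMap, con_colMap, hv, hwv]
        simp) (fun X hX => by
        simp only [LinearMap.comp_apply, LinearEquiv.coe_coe]
        rw [hE, hperp X hX, map_zero, sub_zero]
        obtain ⟨y, hy⟩ := hsurj (con q w (h X))
        exact ⟨y, by rw [← hy, hfix']⟩) hzv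
    refine ⟨c, fun x => colMap_injective hv0 ?_⟩
    have h1 := congrArg h (hc x)
    simp only [LinearMap.comp_apply, LinearEquiv.coe_coe] at h1
    rw [self_inv_apply, hfix, map_smul β, hE,
      hperp (colMap z x) (by rw [con_colMap, hzv, zero_smul]), map_zero, sub_zero] at h1
    exact h1
  -- the images modulo the line
  obtain ⟨x₀, hx₀⟩ := hsurj (Pi.single ⟨0, ha⟩ 1)
  set K : (Fin b → F) → (Fin b → F) := fun z => h (colMap z x₀) ⟨0, ha⟩
  set R : (Fin b → F) → (Fin a → F) → (Fin a → F) :=
    fun z x => con q f (h (colMap z x) - colMap (K z) (β x))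
  have hK : ∀ z, herm q z v = 0 → herm q (K z) v = 0 ∧
      ∀ x, h (colMap z x) = colMap (K z) (β x) + colMap v (R z x) := by
    intro z hzv
    have hKv : herm q (K z) v = 0 := by
      have := congrFun (hperp (colMap z x₀) (by rw [con_colMap, hzv, zero_smul])) ⟨0, ha⟩
      rw [con_apply] at this
      exact this
    refine ⟨hKv, fun x => ?_⟩
    set D := h (colMap z x) - colMap (K z) (β x) with hD
    have hrow : ∀ i, D i = herm q (D i) f • v := fun i => by
      refine eq_smul_of_orth hF hb hp fun w hww hwv => ?_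
      obtain ⟨c, hc⟩ := stepb w z hww hwv hzv
      have hKc : herm q (K z) w = c := by
        have := congrFun (hc x₀) ⟨0, ha⟩
        rw [con_apply, hx₀] at this
        simpa using this
      rw [← con_apply, hD, map_sub, con_colMap, hc, hKc, sub_self]
      rfl
    rw [eq_comm, ← eq_sub_iff_add_eq', eq_comm]
    show D = _
    ext i j
    rw [hrow i]
    rfl
  -- the isotropic vectors
  have iso_case : ∀ z, herm q z z = 0 → herm q z v = 0 →
      ∃ k : Fin b → F, ∀ x, h (colMap z x) = colMap k (β x) := by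
    intro z hzz hzv
    by_cases hzl : z - herm q z f • v = 0
    · exact ⟨herm q z f • v, fun x => by
        conv_lhs => rw [sub_eq_zero.1 hzl, colMap_smul_right, map_smul, hfix, ← colMap_smul_right]⟩
    have hmem : z - herm q z f • v ∈ perpTwo q v f := by
      rw [mem_perpTwo]
      exact ⟨by simp [herm_sub_left, herm_smul_left, hzv, hv],
        by simp [herm_sub_left, herm_smul_left, hp.2.2]⟩
    obtain ⟨s, hs, hsp⟩ := GeoClasses.exists_pair_mem hF hmem (by
      simp [herm_sub_left, hF.herm_sub_right, herm_smul_left, herm_smul_right, hzz, hzv, hv,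
        herm_eq_zero_symm hF hzv]) (nondeg_perpTwo hF hp hmem hzl)
    rw [mem_perpTwo] at hs
    have hss : herm q s s = 0 := hsp.2.1
    have hsz : herm q s z = 1 := by
      have h1 := (hsp.symm hF).2.2
      rwa [hF.herm_sub_right, herm_smul_right, hs.1, mul_zero, sub_zero] at h1
    obtain ⟨hkv, hkz⟩ := hK z hzv
    set k := K z with hkdef
    have hvk := herm_eq_zero_symm hF hkv
    -- the similitude relation
    have hform : ∀ t, herm q t v = 0 → ∀ x y,
        herm q x y * herm q t z = herm q (β x) (β y) * herm q (K t) k := by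
      intro t htv x y
      obtain ⟨h1, h2⟩ := hK t htv
      have h3 := hG.iso h hh (colMap t x) (colMap z y)
      rw [h2, hkz, bf_add_left, bf_add_right hF, bf_add_right hF, bf_colMap_colMap hF,
        bf_colMap_colMap hF, bf_colMap_colMap hF, bf_colMap_colMap hF, bf_colMap_colMap hF, hvk, h1,
        hv] at h3
      linear_combination -h3
    have hee : herm q (β x₀) (β x₀) = 1 := by
      rw [hx₀, herm_single_one _ hF.q_ne_zero]; simp
    set μ := herm q x₀ x₀
    have hμ : ∀ t, herm q t v = 0 → herm q (K t) k = μ * herm q t z := fun t ht => by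
      have := hform t ht x₀ x₀
      rw [hee, one_mul] at this
      exact this.symm
    have hμ0 : μ ≠ 0 := fun h0 => by
      have h1 : ∀ x y : Fin a → F, herm q x y = 0 := fun x y => by
        have := hform s hs.1 x y
        rwa [hsz, mul_one, hμ s hs.1, h0, zero_mul, mul_zero] at this
      obtain ⟨x, y, hxy⟩ : ∃ x y : Fin a → F, herm q x y ≠ 0 :=
        ⟨β x₀, β x₀, by rw [hee]; exact one_ne_zero⟩
      exact hxy (h1 x y)
    have hkk : herm q k k = 0 := by rw [hμ z hzv, hzz, mul_zero]
    obtain ⟨δ, hδ0, hδ⟩ := hF.exists_skew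
    set A' : Matrix (Fin a) (Fin b) F →ₗ[F] Matrix (Fin a) (Fin b) F :=
      h.toLinearMap ∘ₗ act LinearMap.id (δ • hr1 q z z) ∘ₗ (h⁻¹ : _ ≃ₗ[F] _).toLinearMap
      with hA'def
    have hA' : ∀ X, A' (h X) = δ • h (colMap z (con q z X)) := fun X => by
      rw [hA'def, LinearMap.comp_apply, LinearMap.comp_apply, LinearEquiv.coe_coe,
        LinearEquiv.coe_coe, inv_apply_self, act_smul_right, LinearMap.smul_apply, act_hr1,
        LinearMap.id_apply, map_smul]
    set B : Matrix (Fin a) (Fin b) F →ₗ[F] Matrix (Fin a) (Fin b) F :=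
      act LinearMap.id ((δ / μ) • hr1 q k k) with hBdef
    have hB : ∀ X, B X = (δ / μ) • colMap k (con q k X) := fun X => by
      rw [hBdef, act_smul_right, LinearMap.smul_apply, act_hr1, LinearMap.id_apply]
    have hvz := herm_eq_zero_symm hF hzv
    have hA'v : ∀ x, A' (colMap v x) = 0 := fun x => by
      obtain ⟨y, rfl⟩ := hsurj x
      rw [← hfix, hA', con_colMap, hvz]
      simp
    have hμq : μ ^ q = μ := hF.herm_symm x₀ x₀
    have hAm : Mem G A' := (mem_right_hr1 hF hG hzz hδ).conj hh
    have hBm : Mem G B := mem_right_hr1 hF hG hkk (by rw [div_pow, hδ, hμq, neg_div])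
    have hsum := hAm.add (hBm.neg fun X => by
      rw [hB X, map_smul, hB, con_colMap, hkk]; simp) fun X => by
      obtain ⟨x, hx⟩ := hsurj (con q k X)
      rw [LinearMap.neg_apply, map_neg, hB, map_smul, ← hx,
        eq_sub_of_add_eq (hkz x).symm, map_sub, hA', hA'v, con_colMap, hzz]
      simp
    obtain ⟨c, hc⟩ := radical_scalar hF hG hno hb hv0 hv hsum (fun x => by
        rw [LinearMap.add_apply, LinearMap.neg_apply, hA'v, hB, con_colMap, hvk]
        simp) (fun X => by
        obtain ⟨Y, rfl⟩ : ∃ Y, h Y = X := ⟨h⁻¹ X, self_inv_apply h X⟩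
        rw [LinearMap.add_apply, LinearMap.neg_apply, hA', hB, map_add, map_neg, map_smul, map_smul,
          hperp _ (by rw [con_colMap, hzv, zero_smul]), con_colMap, hkv]
        simp) (fun X hX => by
        obtain ⟨Y, rfl⟩ : ∃ Y, h Y = X := ⟨h⁻¹ X, self_inv_apply h X⟩
        have hY : con q v Y = 0 := by
          rw [← inv_apply_self h Y]; exact hperp' _ hX
        rw [sum_colMap_rows Y, map_sum, map_sum]
        refine Submodule.sum_mem _ fun i _ => ?_
        have hti : herm q (Y i) v = 0 := congrFun hY i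
        obtain ⟨-, h2⟩ := hK (Y i) hti
        rw [LinearMap.add_apply, LinearMap.neg_apply, hA', hB, con_colMap, map_smul, map_smul, hkz,
          h2, map_add, con_colMap, con_colMap, hvk, hμ _ hti, zero_smul, add_zero, map_smul,
          smul_smul (δ / μ), ← mul_assoc (δ / μ), div_mul_cancel₀ _ hμ0, smul_add, smul_add, smul_smul δ, smul_smul δ, ← sub_eq_add_neg,
          add_sub_cancel_left]
        exact Submodule.smul_mem _ _ ⟨_, rfl⟩) (hK s hs.1).1
    refine ⟨k + (c / δ) • v, fun x => ?_⟩
    obtain ⟨-, h2⟩ := hK s hs.1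
    have h3 : A' (h (colMap s x)) + (-B) (h (colMap s x)) = colMap v (c • β x) := by
      conv_lhs => rw [h2]
      rw [← LinearMap.add_apply, map_add, hc, LinearMap.add_apply (A') (-B), hA'v,
        LinearMap.neg_apply, hB, con_colMap, hvk]
      simp
    rw [LinearMap.neg_apply, hA', hB, con_colMap, hsz, one_smul, hkz, h2, map_add, con_colMap,
      con_colMap, hvk, hμ s hs.1, hsz, mul_one, zero_smul, add_zero, map_smul, smul_smul,
      div_mul_cancel₀ _ hμ0, smul_add, ← sub_eq_add_neg, add_sub_cancel_left, ← map_smul] at h3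
    have h4 := colMap_injective hv0 h3
    have h5 : R z x = (c / δ) • β x := by
      rw [div_eq_inv_mul, mul_smul, ← h4, inv_smul_smul₀ hδ0]
    rw [hkz, h5, colMap_add_right, colMap_smul_right, map_smul]
  let p : Submodule F (Fin b → F) :=
    { carrier := {z | ∃ k : Fin b → F, ∀ x, h (colMap z x) = colMap k (β x)}
      add_mem' := by
        rintro s s' ⟨k, hk⟩ ⟨k', hk'⟩
        exact ⟨k + k', fun x => by
          rw [colMap_add_right, map_add, hk, hk', ← colMap_add_right]⟩
      zero_mem' := ⟨0, fun x => by rw [colMap_zero_right, map_zero, colMap_zero_right]⟩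
      smul_mem' := by
        rintro c s ⟨k, hk⟩
        exact ⟨c • k, fun x => by
          rw [colMap_smul_right, map_smul, hk, ← colMap_smul_right]⟩ }
  exact mem_of_perp_isotropic hF hb hv0 hv p iso_case hz

/-- An element mapping one isotropic line to a line is a tensor product. -/
theorem isTens_of_line (ha : 0 < a) (hb : 4 ≤ b)
    {h : Matrix (Fin a) (Fin b) F ≃ₗ[F] Matrix (Fin a) (Fin b) F} (hh : h ∈ G)
    {v z : Fin b → F} (hv0 : v ≠ 0) (hv : herm q v v = 0)
    (hmap : (line (a := a) v).map h.toLinearMap = line z) : IsTens h := by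
  have hx : ∀ x, ∃ y, colMap z y = h (colMap v x) := fun x => by
    have : h (colMap v x) ∈ (line (a := a) v).map h.toLinearMap :=
      Submodule.mem_map_of_mem (show colMap v x ∈ line v from ⟨x, rfl⟩)
    rwa [hmap] at this
  have hz0 : z ≠ 0 := by
    rintro rfl
    obtain ⟨y, hy⟩ := hx (Pi.single ⟨0, ha⟩ 1)
    rw [colMap_zero_right] at hy
    have := eq_zero_of_colMap hv0 (h.injective (hy.symm.trans (map_zero h).symm))
    simpa using congrFun this ⟨0, ha⟩
  obtain ⟨η, hη⟩ := exists_dot_eq_one hz0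
  set β : (Fin a → F) →ₗ[F] (Fin a → F) := rowMap η ∘ₗ h.toLinearMap ∘ₗ colMap v
  have hβ : ∀ x, h (colMap v x) = colMap z (β x) := fun x => by
    obtain ⟨y, hy⟩ := hx x
    show _ = colMap z (rowMap η (h (colMap v x)))
    rw [← hy, rowMap_colMap, hη, one_smul]
  have hinj : Function.Injective β := (injective_iff_map_eq_zero β).2 fun x h0 => by
    have h1 : h (colMap v x) = h 0 := by rw [hβ, h0, map_zero, map_zero]
    exact eq_zero_of_colMap hv0 (h.injective h1)
  have hsurj : Function.Surjective β := LinearMap.injective_iff_surjective.1 hinj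
  refine ⟨β, ⟨hinj, hsurj⟩, ?_⟩
  have hzz : herm q z z = 0 := by
    obtain ⟨x, hx'⟩ := hsurj (Pi.single ⟨0, ha⟩ 1)
    have := hG.iso h hh (colMap v x) (colMap v x)
    rw [hβ, bf_colMap_colMap hF, bf_colMap_colMap hF, hv, mul_zero, hx',
      herm_single_one _ hF.q_ne_zero] at this
    simpa using this
  -- move the line back
  have moved : ∀ {h' : Matrix (Fin a) (Fin b) F ≃ₗ[F] Matrix (Fin a) (Fin b) F}, h' ∈ G →
      ∀ {v z : Fin b → F}, v ≠ 0 → herm q v v = 0 → z ≠ 0 → herm q z z = 0 →
      (∀ x, h' (colMap v x) = colMap z (β x)) → ∀ w, herm q w v = 0 →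
      ∃ k : Fin b → F, ∀ x, h' (colMap w x) = colMap k (β x) := by
    intro h' hh' v z hv0 hv hz0 hz hmap w hw
    obtain ⟨g, hg, hgz⟩ := TG_transitive_vectors hF (by omega) (hasUni hF (by omega) (by omega))
      hz0 hz hv0 hv
    obtain ⟨n, hn, hnx⟩ := hG.right g (TG_le_SUG hF hg)
    obtain ⟨k, hk⟩ := exists_image_of_fix hF hG hno ha hb hv0 hv (G.mul_mem hn hh') (β := β)
      (fun x => by
        rw [LinearEquiv.mul_apply, hmap, hnx, act_colMap, LinearEquiv.coe_coe, hgz,
          LinearMap.id_apply]) hw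
    refine ⟨g.1.symm k, fun x => n.injective ?_⟩
    rw [← LinearEquiv.mul_apply, hk, hnx, act_colMap, LinearEquiv.coe_coe,
      LinearEquiv.apply_symm_apply, LinearMap.id_apply]
  let p : Submodule F (Fin b → F) :=
    { carrier := {s | ∃ k : Fin b → F, ∀ x, h (colMap s x) = colMap k (β x)}
      add_mem' := by
        rintro s s' ⟨k, hk⟩ ⟨k', hk'⟩
        exact ⟨k + k', fun x => by
          rw [colMap_add_right, map_add, hk, hk', ← colMap_add_right]⟩
      zero_mem' := ⟨0, fun x => by rw [colMap_zero_right, map_zero, colMap_zero_right]⟩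
      smul_mem' := by
        rintro c s ⟨k, hk⟩
        exact ⟨c • k, fun x => by
          rw [colMap_smul_right, map_smul, hk, ← colMap_smul_right]⟩ }
  refine fun w => mem_of_isotropic hF (by omega) p (fun s hs => ?_) w
  by_cases hsv : herm q s v = 0
  · exact moved hh hv0 hv hz0 hzz hβ s hsv
  have hvs : herm q v s ≠ 0 := fun h0 => hsv (herm_eq_zero_symm hF h0)
  have hd0 : ((herm q v s)⁻¹) ^ q ≠ 0 := pow_ne_zero _ (inv_ne_zero hvs)
  have hp : IsUPair q v (((herm q v s)⁻¹) ^ q • s) := ⟨hv, by
    simp [herm_smul_left, herm_smul_right, hs], by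
    rw [herm_smul_right, hF.pow_pow, inv_mul_cancel₀ hvs]⟩
  obtain ⟨y, y', hyy, h1, h2, -, -⟩ := exists_second_pair hF hb hp
  obtain ⟨k, hk⟩ := moved hh hv0 hv hz0 hzz hβ y h1
  have hk0 : k ≠ 0 := fun h0 => by
    obtain ⟨x, hx'⟩ := hsurj (Pi.single ⟨0, ha⟩ 1)
    have h3 := hk x
    rw [h0, colMap_zero_right] at h3
    have := eq_zero_of_colMap hyy.ne_zero (h.injective (h3.trans (map_zero h).symm))
    rw [this, map_zero] at hx'
    simpa using congrFun hx'.symm ⟨0, ha⟩
  have hkk : herm q k k = 0 := by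
    obtain ⟨x, hx'⟩ := hsurj (Pi.single ⟨0, ha⟩ 1)
    have h3 := hG.iso h hh (colMap y x) (colMap y x)
    rw [hk, bf_colMap_colMap hF, bf_colMap_colMap hF, hyy.1, mul_zero, hx',
      herm_single_one _ hF.q_ne_zero] at h3
    simpa using h3
  have hsy : herm q s y = 0 := herm_eq_zero_symm hF (by
    rw [herm_smul_right, hF.pow_pow] at h2
    exact (mul_eq_zero.1 h2).resolve_left (inv_ne_zero hvs))
  exact moved hh hyy.ne_zero hyy.1 hk0 hkk hk s hsy

end Scalar

end Cfsg.Agent.MaxSub.TensorU
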