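import Cfsg.Agent.MaxSub.TensorU.Params

/-!
A non-scalar root parameter gives all transvections of the tensor product.
-/

set_option autoImplicit false
set_option linter.style.haveILetI false
set_option linter.unusedSectionVars false

namespace Cfsg.Agent.MaxSub.TensorU

open Module Matrix Cfsg.Agent.Classical.U Cfsg.Agent.MaxSub.TensorMax
open Cfsg.Agent.MaxSub.ExtField (Mem mem_zero inv_apply_self self_inv_apply rk1)

universe u

variable {F : Type u} [Field F] {a b q : ℕ}

/-- `X ↦ B(X, M)`. -/
def bfDual (q : ℕ) (M : Matrix (Fin a) (Fin b) F) : Matrix (Fin a) (Fin b) F →ₗ[F] F where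
  toFun X := bf q X M
  map_add' X Y := bf_add_left X Y M
  map_smul' c X := bf_smul_left c X M

/-- All transvections with centre `M` lie in `G`. -/
def IsCentre (q : ℕ) (G : Subgroup (Matrix (Fin a) (Fin b) F ≃ₗ[F] Matrix (Fin a) (Fin b) F))
    (M : Matrix (Fin a) (Fin b) F) : Prop :=
  ∀ c : F, c ^ q = -c → Mem G (rk1 (c • bfDual q M) M)

variable {G : Subgroup (Matrix (Fin a) (Fin b) F ≃ₗ[F] Matrix (Fin a) (Fin b) F)}
  (hF : SqField F q) (hG : UFactors q G)
include hF hG

lemma IsCentre.map {M : Matrix (Fin a) (Fin b) F} (h : IsCentre q G M)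
    {g : Matrix (Fin a) (Fin b) F ≃ₗ[F] Matrix (Fin a) (Fin b) F} (hg : g ∈ G) :
    IsCentre q G (g M) := fun c hc => ((h c hc).conj hg).congr fun X => by
  simp only [LinearMap.comp_apply, LinearEquiv.coe_coe, LinearMap.smulRight_apply, map_smul,
    LinearMap.smul_apply]
  congr 2
  show bf q (g⁻¹ X) M = bf q X (g M)
  rw [← hG.iso g hg (g⁻¹ X) M, self_inv_apply]

/-- The pure vectors are centres. -/
lemma isCentre_colMap (ha : 2 ≤ a) (hb : 4 ≤ b) (hbig : 3 ≤ q ∨ 3 ≤ a) (h : HasNSParam q G)
    {v : Fin b → F} (hv : herm q v v = 0) (x : Fin a → F) : IsCentre q G (colMap v x) := by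
  intro c hc
  refine (isParam_hr1 hF hG ha hb hbig h hc x v hv).congr fun X => ?_
  rw [act_hr1, LinearMap.smul_apply, hr1_apply, LinearMap.smulRight_apply, LinearMap.smul_apply,
    smul_smul, map_smul]
  congr 1
  show c * _ = c * bf q X (colMap v x)
  rw [← bf_symm hF (colMap v x) X, bf_colMap_left v x X hF, hF.herm_symm]

/-- The special unitary group of a row. -/
lemma exists_rowElt (ha : 2 ≤ a) (hb : 4 ≤ b) (hbig : 3 ≤ q ∨ 3 ≤ a) (h : HasNSParam q G)
    (i : Fin a) {g : UG b F q} (hg : g ∈ SUG b F q) :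
    ∃ k ∈ G, ∀ X : Matrix (Fin a) (Fin b) F, k X = X.updateRow i (g.1 (X i)) := by
  classical
  let H : Subgroup (UG b F q) :=
    { carrier := {g | ∃ k ∈ G, ∀ X : Matrix (Fin a) (Fin b) F, k X = X.updateRow i (g.1 (X i))}
      one_mem' := ⟨1, G.one_mem, fun X => by
        rw [OneMemClass.coe_one]
        exact (Matrix.updateRow_eq_self X i).symm⟩
      mul_mem' := by
        rintro g g' ⟨k, hk, hkx⟩ ⟨k', hk', hkx'⟩
        refine ⟨k * k', G.mul_mem hk hk', fun X => ?_⟩
        rw [LinearEquiv.mul_apply, hkx', hkx, Matrix.updateRow_self, Matrix.updateRow_idem]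
        rfl
      inv_mem' := by
        rintro g ⟨k, hk, hkx⟩
        refine ⟨k⁻¹, G.inv_mem hk, fun X => k.injective ?_⟩
        rw [self_inv_apply, hkx, Matrix.updateRow_self, Matrix.updateRow_idem]
        simp }
  suffices TG b F q ≤ H by
    rw [SUG_eq_TG hF (by omega) (by omega)] at hg
    exact this hg
  rw [TG, Subgroup.closure_le]
  rintro g' ⟨e, c, hec, hg'⟩
  obtain ⟨k, hk, hkx⟩ := isCentre_colMap hF hG ha hb hbig h hec.1 (Pi.single i 1) c hec.2
  refine ⟨k, hk, fun X => ?_⟩
  rw [hkx, hg', LinearMap.smulRight_apply]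
  have h1 : (c • bfDual q (colMap e (Pi.single i 1))) X = c * herm q (X i) e := by
    show c * bf q X (colMap e (Pi.single i 1)) = _
    rw [← bf_symm hF (colMap e (Pi.single i 1)) X, bf_colMap_left _ _ _ hF, hF.herm_symm,
      herm_single_one _ hF.q_ne_zero, con_apply]
  rw [h1]
  ext l j
  by_cases hl : l = i
  · subst hl
    rw [Matrix.updateRow_self]
    simp [colMap_apply, vecMulVec_apply]
  · rw [Matrix.updateRow_ne hl]
    simp [colMap_apply, vecMulVec_apply, Ne.symm hl, hl]

/-- Centres depend only on the norms and the supports of the rows. -/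
lemma IsCentre.of_rows (ha : 2 ≤ a) (hb : 4 ≤ b) (hbig : 3 ≤ q ∨ 3 ≤ a) (hP : HasNSParam q G)
    {M M' : Matrix (Fin a) (Fin b) F} (h : IsCentre q G M)
    (hrow : ∀ i, herm q (M i) (M i) = herm q (M' i) (M' i) ∧ (M i = 0 ↔ M' i = 0)) :
    IsCentre q G M' := by
  classical
  suffices ∀ s : Finset (Fin a), IsCentre q G (Matrix.of fun i => if i ∈ s then M' i else M i) by
    convert this Finset.univ using 1
    ext i j
    simp
  intro s
  induction s using Finset.induction with
  | empty =>
    convert h using 1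
    ext i j
    simp
  | @insert i s hi ih =>
    obtain ⟨hn, hz⟩ := hrow i
    obtain ⟨g, hg, hgi⟩ : ∃ g ∈ SUG b F q, g.1 (M i) = M' i := by
      by_cases h0 : M i = 0
      · exact ⟨1, one_mem _, by rw [h0, hz.1 h0, map_zero]⟩
      by_cases hμ : herm q (M i) (M i) = 0
      · obtain ⟨g, hg, hgi⟩ := TG_transitive_vectors hF (by omega)
          (hasUni hF (by omega) (by omega)) h0 hμ (fun h => h0 (hz.2 h)) (hn ▸ hμ)
        exact ⟨g, TG_le_SUG hF hg, hgi⟩
      · exact SUG_transitive_norm hF (by omega) hn hμ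
    obtain ⟨k, hk, hkx⟩ := exists_rowElt hF hG ha hb hbig hP i hg
    convert IsCentre.map hF hG ih hk using 1
    rw [hkx]
    ext l j
    by_cases hl : l = i
    · subst hl
      rw [Matrix.updateRow_self,
        show Matrix.of (fun i => if i ∈ s then M' i else M i) l = M l from if_neg hi, hgi]
      simp
    · rw [Matrix.updateRow_ne hl]
      simp [hl]

/-- All transvections. -/
theorem isCentre_of_hasNSParam (ha : 2 ≤ a) (hb : 4 ≤ b) (hbig : 3 ≤ q ∨ 3 ≤ a)
    (h : HasNSParam q G) {M : Matrix (Fin a) (Fin b) F} (hM : bf q M M = 0) : IsCentre q G M := by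
  classical
  suffices ∀ N, ∀ M : Matrix (Fin a) (Fin b) F, bf q M M = 0 →
      ({i | herm q (M i) (M i) ≠ 0} : Finset (Fin a)).card ≤ N → IsCentre q G M from
    this _ M hM le_rfl
  intro N
  induction N with
  | zero =>
    intro M hM hcard
    have hiso : ∀ i, herm q (M i) (M i) = 0 := fun i => by
      by_contra hne
      have h0 : i ∈ ({i | herm q (M i) (M i) ≠ 0} : Finset (Fin a)) := by simpa using hne
      rw [Finset.card_eq_zero.1 (Nat.le_zero.1 hcard)] at h0
      exact Finset.notMem_empty i h0
    obtain ⟨e, he0, he⟩ := exists_isotropic hF (n := b) (by omega)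
    refine IsCentre.of_rows hF hG ha hb hbig h
      (isCentre_colMap hF hG ha hb hbig h he (fun i => if M i = 0 then (0 : F) else 1)) fun i => ?_
    rw [colMap_row, hiso]
    by_cases h0 : M i = 0
    · simp [h0]
    · simp [h0, he, he0]
  | succ N ih =>
    intro M hM hcard
    by_cases hle : ({i | herm q (M i) (M i) ≠ 0} : Finset (Fin a)).card ≤ N
    · exact ih M hM hle
    obtain ⟨i, hi⟩ := Finset.card_pos.1 (by omega : 0 < ({i | herm q (M i) (M i) ≠ 0} :
      Finset (Fin a)).card)
    rw [Finset.mem_filter] at hi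
    obtain ⟨j, hji, hj⟩ : ∃ j, j ≠ i ∧ herm q (M j) (M j) ≠ 0 := by
      by_contra hcon
      push Not at hcon
      exact hi.2 (by
        rw [← hM, bf, Finset.sum_eq_single i (fun l _ hl => hcon l hl) (by simp)])
    obtain ⟨e, he0, he⟩ := exists_isotropic hF (n := b) (by omega)
    obtain ⟨f, -, hf, hef⟩ := exists_partner hF he0 he
    have hfe : herm q f e = 1 := by rw [← hF.herm_symm, hef, one_pow]
    have hfne : f ≠ 0 := fun h => by rw [h, herm_zero_left] at hfe; exact zero_ne_one hfe
    have hstd : ∀ μ : F, μ ^ q = μ → ∃ t : F, herm q (f + t • e) (f + t • e) = μ := fun μ hμ => by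
      obtain ⟨t, ht⟩ := hF.exists_trace hμ
      refine ⟨t, ?_⟩
      simp only [herm_add_left, hF.herm_add_right, herm_smul_left, herm_smul_right, he, hf, hef, hfe]
      linear_combination ht
    obtain ⟨ti, hti⟩ := hstd _ (hF.herm_symm (M i) (M i))
    obtain ⟨tj, htj⟩ := hstd _ (hF.herm_symm (M j) (M j))
    have hne : ∀ t : F, f + t • e ≠ 0 := fun t h0 => by
      have := congrArg (fun w => herm q w e) h0
      simp [herm_add_left, herm_smul_left, hfe, he] at this
    set M₁ : Matrix (Fin a) (Fin b) F :=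
      (M.updateRow i (f + ti • e)).updateRow j (f + tj • e) with hM₁
    have hrows : ∀ l, herm q (M₁ l) (M₁ l) = herm q (M l) (M l) ∧ (M₁ l = 0 ↔ M l = 0) := by
      intro l
      by_cases hlj : l = j
      · subst hlj
        rw [hM₁, Matrix.updateRow_self]
        exact ⟨htj, iff_of_false (hne tj) fun h0 => hj (by rw [h0, herm_zero_left])⟩
      rw [hM₁, Matrix.updateRow_ne hlj]
      by_cases hli : l = i
      · subst hli
        rw [Matrix.updateRow_self]
        exact ⟨hti, iff_of_false (hne ti) fun h0 => hi.2 (by rw [h0, herm_zero_left])⟩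
      rw [Matrix.updateRow_ne hli]
      exact ⟨rfl, Iff.rfl⟩
    obtain ⟨c, hc0, hc⟩ := hF.exists_skew
    set x : Fin a → F := Pi.single i (-ti / c) + Pi.single j 1 with hx
    obtain ⟨k, hk, hkx⟩ := isCentre_colMap hF hG ha hb hbig h he x c hc
    have hx1 : herm q (con q e M₁) x = (-ti / c) ^ q + 1 := by
      have hMi : con q e M₁ i = 1 := by
        rw [con_apply, hM₁, Matrix.updateRow_ne (Ne.symm hji), Matrix.updateRow_self, herm_add_left,
          herm_smul_left, hfe, he]
        ring
      have hMj : con q e M₁ j = 1 := by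
        rw [con_apply, hM₁, Matrix.updateRow_self, herm_add_left, herm_smul_left, hfe, he]
        ring
      rw [hx, hF.herm_add_right,
        show (Pi.single i (-ti / c) : Fin a → F) = (-ti / c) • Pi.single i 1 by
          ext l; simp [Pi.single_apply],
        herm_smul_right, herm_single_one _ hF.q_ne_zero, herm_single_one _ hF.q_ne_zero, hMi, hMj]
      ring
    have hval : bfDual q (colMap e x) M₁ = (-ti / c) ^ q + 1 := by
      show bf q M₁ (colMap e x) = _
      rw [← bf_symm hF (colMap e x) M₁, bf_colMap_left _ _ _ hF, hF.herm_symm, hx1]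
    have hrow : ∀ l, k M₁ l = M₁ l + (c * ((-ti / c) ^ q + 1) * x l) • e := fun l => by
      rw [hkx, LinearMap.smulRight_apply, LinearMap.smul_apply, hval, smul_eq_mul]
      show M₁ l + (c * _) • colMap e x l = _
      rw [colMap_row, smul_smul]
    have hnew : IsCentre q G (k M₁) := by
      refine ih _ (by rw [hG.iso k hk, bf, ← hM, bf]; exact Finset.sum_congr rfl fun l _ => (hrows l).1)
        ?_
      refine Nat.le_of_lt_succ (lt_of_lt_of_le (Finset.card_lt_card ?_) hcard)
      refine Finset.ssubset_iff_of_subset (fun l hl => ?_) |>.2 ⟨i, by simpa using hi.2, ?_⟩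
      · rw [Finset.mem_filter] at hl ⊢
        refine ⟨Finset.mem_univ _, ?_⟩
        by_cases hlj : l = j
        · subst hlj; exact hj
        by_cases hli : l = i
        · subst hli; exact hi.2
        have hxl : x l = 0 := by simp [hx, hli, hlj]
        rw [hrow, hxl, mul_zero, zero_smul, add_zero, (hrows l).1] at hl
        exact hl.2
      · rw [Finset.mem_filter, not_and, not_not]
        intro _
        rw [hrow, show x i = -ti / c by simp [hx, hji.symm],
          hM₁, Matrix.updateRow_ne (Ne.symm hji), Matrix.updateRow_self, add_assoc, ← add_smul]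
        set α := -ti / c with hα
        have hcα : c * α = -ti := mul_div_cancel₀ _ hc0
        have hcα' : (c * α) ^ q = -(ti ^ q) := by rw [hcα, hF.neg_pow]
        rw [mul_pow, hc] at hcα'
        simp only [herm_add_left, hF.herm_add_right, herm_smul_left, herm_smul_right, he, hf, hef,
          hfe, hF.add_pow, mul_pow, hF.pow_pow, one_pow, hc]
        linear_combination hcα + hcα'
    have hback := IsCentre.map hF hG hnew (G.inv_mem hk)
    rw [inv_apply_self] at hback
    exact IsCentre.of_rows hF hG ha hb hbig h hback hrows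

end Cfsg.Agent.MaxSub.TensorU
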