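import Cfsg.Agent.MaxSub.TensorU.Gen
import Cfsg.Agent.MaxSub.TensorU.Ascent
import Cfsg.Agent.MaxSub.TensorMax.Main
import Cfsg.Agent.GeoClasses.FormDecomp
import Cfsg.Agent.ClassicalMax.UnitaryProper

/-!
Stabilisers of unitary tensor decompositions are maximal in the special unitary groups.
-/

set_option autoImplicit false
set_option linter.style.haveILetI false
set_option linter.unusedSectionVars false

namespace Cfsg.Agent.MaxSub.TensorU

open Module Matrix Cfsg.Geo Cfsg.Agent.GeoClasses Cfsg.Agent.Classical.U Cfsg.Agent.ClassicalMax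
  Cfsg.Agent.MaxSub.TensorMax
open Cfsg.Agent.MaxSub.ExtField (Mem mem_zero inv_apply_self self_inv_apply rk1)
open scoped Kronecker MatrixGroups

universe u

variable {F : Type u} [Field F] {n a b q : ℕ}

lemma formOf_one (hF : SqField F q) {κ : Type} [Fintype κ] [DecidableEq κ] (x y : κ → F) :
    formOf (qConj hF) (1 : Matrix κ κ F) x y = ∑ k, x k * y k ^ q := by
  simp [formOf, dotProduct, qConj_apply]

/-- A unitary form has a unit hermitian Gram matrix congruent to the identity. -/
lemma exists_congr_of_form (hF : SqField F q) {k : ℕ} {f : (Fin k → F) → (Fin k → F) → F}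
    (hf : IsUnitaryFormPow q f) :
    ∃ D : GL (Fin k) F, adjForm (qConj hF) (gramMatrix f) (D : Matrix (Fin k) (Fin k) F) = 1 := by
  haveI : Finite F := hF.1
  set σ := qConj hF with hσ
  have hadd : ∀ u v w, f u (v + w) = f u v + f u w := fun u v w => by
    rw [hf.herm, hf.add_left, hF.add_pow, ← hf.herm, ← hf.herm]
  have hsmul : ∀ (c : F) u v, f u (c • v) = c ^ q * f u v := fun c u v => by
    rw [hf.herm, hf.smul_left, mul_pow, ← hf.herm]
  have hsum : ∀ (s : Finset (Fin k)) (g : Fin k → (Fin k → F)) u,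
      f (∑ i ∈ s, g i) u = ∑ i ∈ s, f (g i) u := by
    intro s g u
    induction s using Finset.induction with
    | empty => simpa using hf.smul_left 0 0 u
    | @insert i s hi ih => rw [Finset.sum_insert hi, Finset.sum_insert hi, hf.add_left, ih]
  have hsum' : ∀ (s : Finset (Fin k)) (g : Fin k → (Fin k → F)) u,
      f u (∑ i ∈ s, g i) = ∑ i ∈ s, f u (g i) := by
    intro s g u
    rw [hf.herm, hsum, hF.sum_pow]
    exact Finset.sum_congr rfl fun i _ => (hf.herm _ _).symm
  have heq : ∀ u v, f u v = formOf σ (gramMatrix f) u v := fun u v => by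
    conv_lhs => rw [pi_eq_sum_univ' u, pi_eq_sum_univ' v, hsum]
    simp only [formOf, dotProduct, Matrix.mulVec]
    refine Finset.sum_congr rfl fun i _ => ?_
    rw [hf.smul_left, hsum', Finset.mul_sum, Finset.mul_sum]
    refine Finset.sum_congr rfl fun j _ => ?_
    rw [hsmul]
    simp [gramMatrix, hσ, qConj_apply, mul_comm]
  have hJ : IsUnit (gramMatrix f) := by
    rw [Matrix.isUnit_iff_isUnit_det, isUnit_iff_ne_zero]
    intro h0
    obtain ⟨x, hx, hJx⟩ := Matrix.exists_mulVec_eq_zero_iff.2 h0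
    set v : Fin k → F := fun i => σ (x i) with hv
    obtain ⟨⟨u, hu⟩, -⟩ := hf.nondegenerate v fun h => hx (funext fun i => by
      have := congrFun h i
      simpa [hv] using this)
    apply hu
    rw [heq, formOf]
    simp [hv, hσ, qConj_invol, hJx]
  refine exists_congr_one (qConj_invol hF) (qConj_ne hF) hJ ?_
  ext i j
  simp only [starMat, Matrix.transpose_apply, Matrix.map_apply, hσ, qConj_apply, gramMatrix]
  exact (hf.herm _ _).symm

/-- Change of basis inside the two factors. -/
lemma exists_std (hF : SqField F q) (e : Fin n ≃ Fin a × Fin b) (P : GL (Fin n) F)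
    {f₁ : (Fin a → F) → (Fin a → F) → F} {f₂ : (Fin b → F) → (Fin b → F) → F}
    (hf₁ : IsUnitaryFormPow q f₁) (hf₂ : IsUnitaryFormPow q f₂)
    (hT : IsTensorFormStructure (fun x : F => x ^ q) (Cfsg.hermForm n F q) f₁ f₂ e P) :
    ∃ (P' : GL (Fin n) F) (c : F), c ≠ 0 ∧
      tensorProductSubgroup a b e P' = tensorProductSubgroup a b e P ∧
      ∀ X Y : Matrix (Fin a) (Fin b) F,
        herm q ((toMat e P').symm X) ((toMat e P').symm Y) = c * bf q X Y := by
  obtain ⟨c, hc, hT⟩ := hT
  obtain ⟨D₁, hD₁⟩ := exists_congr_of_form hF hf₁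
  obtain ⟨D₂, hD₂⟩ := exists_congr_of_form hF hf₂
  set K := GeoClasses.glKron D₁ D₂
  set R : GL (Fin n) F := glReindex e.symm K with hR
  refine ⟨P * R, c, hc, ?_, fun X Y => ?_⟩
  · have hKm : K ∈ kroneckerSubgroup a b F := ⟨D₁, D₂, rfl⟩
    ext g
    constructor
    · rintro ⟨_, ⟨k, hk, rfl⟩, rfl⟩
      refine ⟨glReindex e.symm (K * k * K⁻¹), ⟨_, mul_mem (mul_mem hKm hk) (inv_mem hKm), rfl⟩, ?_⟩
      simp [MulAut.conj_apply, hR, mul_assoc]
    · rintro ⟨_, ⟨k, hk, rfl⟩, rfl⟩
      refine ⟨glReindex e.symm (K⁻¹ * k * K), ⟨_, mul_mem (mul_mem (inv_mem hKm) hk) hKm, rfl⟩, ?_⟩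
      simp [MulAut.conj_apply, hR, mul_assoc]
  · have hval : ∀ Z : Matrix (Fin a) (Fin b) F, (toMat e (P * R)).symm Z =
        (P : Matrix (Fin n) (Fin n) F) *ᵥ
          ((((K : GL (Fin a × Fin b) F) : Matrix _ _ F) *ᵥ (fun p : Fin a × Fin b => Z p.1 p.2)) ∘ e) := fun Z => by
      show ((P * R : GL (Fin n) F) : Matrix (Fin n) (Fin n) F) *ᵥ (fun k => Z (e k).1 (e k).2) = _
      rw [Units.val_mul, ← Matrix.mulVec_mulVec, hR, glReindex_apply]
      congr 1
      funext k
      simp only [Matrix.mulVec, dotProduct, Matrix.reindexAlgEquiv_apply, Matrix.reindex_apply,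
        Matrix.submatrix_apply, Equiv.symm_symm, Function.comp_apply]
      exact Equiv.sum_comp e (fun p => ((K : GL (Fin a × Fin b) F) : Matrix _ _ F) (e k) p * Z p.1 p.2)
    rw [hval, hval]
    show Cfsg.hermForm n F q _ _ = _
    rw [hT, show (fun x : F => x ^ q) = (fun x => qConj hF x) from rfl, formOfGram_eq,
      formOf_mulVec]
    congr 1
    rw [show ((K : GL (Fin a × Fin b) F) : Matrix _ _ F) =
      (D₁ : Matrix (Fin a) (Fin a) F) ⊗ₖ (D₂ : Matrix (Fin b) (Fin b) F) from rfl,
      adjForm_kronecker, hD₁, hD₂, Matrix.one_kronecker_one, formOf_one, Fintype.sum_prod_type]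
    rfl

lemma bf_act_left (hF : SqField F q) {g : UG a F q} (X Y : Matrix (Fin a) (Fin b) F) :
    bf q (LinearMap.toMatrix' g.1.toLinearMap * X) (LinearMap.toMatrix' g.1.toLinearMap * Y)
      = bf q X Y := by
  have hcol : ∀ Z Z' : Matrix (Fin a) (Fin b) F,
      bf q Z Z' = ∑ j, herm q (fun i => Z i j) (fun i => Z' i j) := fun Z Z' => by
    simp only [bf, herm_def]
    exact Finset.sum_comm
  have hmul : ∀ (Z : Matrix (Fin a) (Fin b) F) j,
      (fun i => (LinearMap.toMatrix' g.1.toLinearMap * Z) i j) = g.1 fun i => Z i j := fun Z j => by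
    have := LinearMap.toMatrix'_mulVec g.1.toLinearMap (fun i => Z i j)
    exact this
  rw [hcol, hcol]
  simp only [hmul, UG_app]

lemma bf_act_right {g : UG b F q} (X Y : Matrix (Fin a) (Fin b) F) :
    bf q (X * (LinearMap.toMatrix' g.1.toLinearMap)ᵀ) (Y * (LinearMap.toMatrix' g.1.toLinearMap)ᵀ)
      = bf q X Y := by
  have hmul : ∀ (Z : Matrix (Fin a) (Fin b) F) i,
      (Z * (LinearMap.toMatrix' g.1.toLinearMap)ᵀ) i = g.1 (Z i) := fun Z i => by
    rw [Matrix.mul_apply_eq_vecMul, Matrix.vecMul_transpose, LinearMap.toMatrix'_mulVec]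
    rfl
  simp only [bf, hmul, UG_app]

/-- The matrix of an element of `SUG`. -/
lemma exists_gl_of_SUG {m : ℕ} {g : UG m F q} (hg : g ∈ SUG m F q) :
    ∃ A : GL (Fin m) F, A ∈ specialLinear (Fin m) F ∧
      (A : Matrix (Fin m) (Fin m) F) = LinearMap.toMatrix' g.1.toLinearMap := by
  have h1 : (LinearMap.toMatrix' g.1.toLinearMap).det = 1 := by
    rw [LinearMap.det_toMatrix', ← LinearEquiv.coe_det, mem_SUG.1 hg, Units.val_one]
  refine ⟨Matrix.GeneralLinearGroup.mkOfDetNeZero _ (by rw [h1]; exact one_ne_zero), ?_, rfl⟩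
  rw [mem_specialLinear_iff]
  exact h1

/-- The stabiliser of a unitary tensor decomposition with factors of dimensions `2 ≤ a < b`,
`4 ≤ b`, is maximal in the special unitary group. -/
theorem suGL_tensor_maximal (hF : SqField F q) (ha : 2 ≤ a) (hab : a < b) (hb : 4 ≤ b)
    (hex : ¬ (a = 2 ∧ q = 2)) (e : Fin n ≃ Fin a × Fin b) (P : GL (Fin n) F)
    {f₁ : (Fin a → F) → (Fin a → F) → F} {f₂ : (Fin b → F) → (Fin b → F) → F}
    (hf₁ : IsUnitaryFormPow q f₁) (hf₂ : IsUnitaryFormPow q f₂)
    (hT : IsTensorFormStructure (fun x : F => x ^ q) (Cfsg.hermForm n F q) f₁ f₂ e P) :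
    IsMaximalIn (suGL n F q) (tensorProductSubgroup a b e P ⊓ suGL n F q) := by
  classical
  haveI : Finite F := hF.1
  have hn : n = a * b := by simpa using Fintype.card_congr e
  have hn4 : 4 ≤ n := by rw [hn]; nlinarith
  obtain ⟨P', c, hc, hsub, hform⟩ := exists_std hF e P hf₁ hf₂ hT
  rw [← hsub]
  have hcq : c ^ q = c := by
    set X : Matrix (Fin a) (Fin b) F :=
      colMap (Pi.single ⟨0, by omega⟩ 1) (Pi.single ⟨0, by omega⟩ 1)
    have h1 : bf q X X = 1 := by
      rw [bf_colMap_colMap hF, herm_single_one _ hF.q_ne_zero, herm_single_one _ hF.q_ne_zero]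
      simp
    have h2 := hform X X
    rw [h1, mul_one] at h2
    rw [← h2, hF.herm_symm]
  refine ⟨lt_of_le_not_ge inf_le_right fun hle => suGL_not_le_tensorProductSubgroup hF (by omega)
    ha (by omega) e P' (hle.trans inf_le_left), fun M hM hMS => ?_⟩
  set G := M.map (toAct e P') with hGdef
  have hherm : ∀ (g : GL (Fin n) F) (X : Matrix (Fin a) (Fin b) F),
      (toMat e P').symm (toAct e P' g X) = (g : Matrix (Fin n) (Fin n) F) *ᵥ (toMat e P').symm X :=
    fun g X => by rw [toAct_apply, LinearEquiv.symm_apply_apply]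
  have hfac : UFactors q G := by
    have hin : ∀ (A : GL (Fin a) F) (B : GL (Fin b) F), A ∈ specialLinear (Fin a) F →
        B ∈ specialLinear (Fin b) F →
        (∀ X Y : Matrix (Fin a) (Fin b) F, bf q ((A : Matrix (Fin a) (Fin a) F) * X * (B : Matrix (Fin b) (Fin b) F)ᵀ)
          ((A : Matrix (Fin a) (Fin a) F) * Y * (B : Matrix (Fin b) (Fin b) F)ᵀ) = bf q X Y) →
        toAct e P' (tensorElt e P' A B) ∈ G := fun A B hA hB hAB => by
      refine ⟨_, hM ⟨tensorElt_mem e P' A B, fun x y => ?_, ?_⟩, rfl⟩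
      · obtain ⟨X, rfl⟩ := (toMat e P').symm.surjective x
        obtain ⟨Y, rfl⟩ := (toMat e P').symm.surjective y
        show herm q (((tensorElt e P' A B : GL (Fin n) F) : Matrix (Fin n) (Fin n) F) *ᵥ _)
          (((tensorElt e P' A B : GL (Fin n) F) : Matrix (Fin n) (Fin n) F) *ᵥ _) = _
        rw [← hherm, ← hherm, hform, toAct_tensorElt, toAct_tensorElt, hAB]
        exact (hform X Y).symm
      · show tensorElt e P' A B ∈ specialLinear (Fin n) F
        rw [mem_specialLinear_iff, det_tensorElt, mem_specialLinear_iff.1 hA,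
          mem_specialLinear_iff.1 hB, one_pow, one_pow, mul_one]
    refine ⟨?_, fun g hg => ?_, fun g hg => ?_⟩
    · rintro _ ⟨m, hm, rfl⟩ X Y
      have h1 := (hMS hm).1 ((toMat e P').symm X) ((toMat e P').symm Y)
      simp only [Units.coeHom_apply] at h1
      rw [← hherm, ← hherm] at h1
      have h2 := (hform (toAct e P' m X) (toAct e P' m Y)).symm.trans (h1.trans (hform X Y))
      exact mul_left_cancel₀ hc h2
    · obtain ⟨A, hA, hAv⟩ := exists_gl_of_SUG hg
      refine ⟨_, hin A 1 hA (one_mem _) (fun X Y => ?_), fun X => ?_⟩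
      · rw [Units.val_one, Matrix.transpose_one, Matrix.mul_one, Matrix.mul_one, hAv,
          bf_act_left hF]
      · rw [toAct_tensorElt, hAv, Units.val_one]
        simp [act]
    · obtain ⟨B, hB, hBv⟩ := exists_gl_of_SUG hg
      refine ⟨_, hin 1 B (one_mem _) hB (fun X Y => ?_), fun X => ?_⟩
      · rw [Units.val_one, Matrix.one_mul, Matrix.one_mul, hBv, bf_act_right]
      · rw [toAct_tensorElt, hBv, Units.val_one]
        simp [act]
  by_cases hns : HasNSParam q G
  · right
    refine le_antisymm hMS ?_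
    set M' := M.comap (ugToGL n F q) with hM'
    suffices hS : SUG n F q ≤ M' by
      intro g hg
      obtain ⟨k, hk, rfl⟩ := exists_ugToGL_eq hg
      exact hS hk
    rw [SUG_eq_TG hF (by omega) (by omega), TG, Subgroup.closure_le]
    rintro k ⟨v, t, hvt, hk⟩
    have hbig : 3 ≤ q ∨ 3 ≤ a := by have := hF.one_lt; omega
    have hMv : bf q (toMat e P' v) (toMat e P' v) = 0 := by
      have := hform (toMat e P' v) (toMat e P' v)
      rw [LinearEquiv.symm_apply_apply, hvt.1] at this
      exact (mul_eq_zero.1 this.symm).resolve_left hc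
    obtain ⟨_, ⟨m, hm, rfl⟩, hmx⟩ := isCentre_of_hasNSParam hF hfac ha hb hbig hns hMv (t * c)
      (by rw [mul_pow, hvt.2, hcq, neg_mul])
    show ugToGL n F q k ∈ M
    suffices heq : ugToGL n F q k = m by rw [heq]; exact hm
    refine gl_ext_mulVec fun x => (toMat e P').injective ?_
    have h1 := hmx (toMat e P' x)
    rw [toAct_apply, LinearEquiv.symm_apply_apply] at h1
    rw [h1, ugToGL_mulVec, hk, map_add, map_smul, LinearMap.smulRight_apply]
    congr 2
    show t * _ = t * c * bf q _ _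
    rw [mul_assoc, ← hform, LinearEquiv.symm_apply_apply, LinearEquiv.symm_apply_apply]
  · left
    refine le_antisymm (le_inf (fun g hg => ?_) hMS) hM
    have ht := isTens_of_noParam hF hfac hns ha hab hb (h₀ := toAct e P' g) ⟨g, hg, rfl⟩
    obtain ⟨A, B, hAB⟩ := tensor_of_lines (by omega) (by omega) (toAct e P' g) fun w hw => by
      obtain ⟨k, -, hk⟩ := ht.map_line (by omega) hw
      exact ⟨k, hk⟩
    have hdA : A.det ≠ 0 := fun h0 => by
      obtain ⟨u, hu, hAu⟩ := Matrix.exists_mulVec_eq_zero_iff.2 h0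
      obtain ⟨i, hi⟩ := Function.ne_iff.1 hu
      have h1 : toAct e P' g (vecMulVec u (Pi.single ⟨0, by omega⟩ 1)) = toAct e P' g 0 := by
        rw [hAB, hAB, Matrix.mul_vecMulVec, hAu]
        simp [Matrix.zero_vecMulVec]
      have h2 := congrFun (congrFun ((toAct e P' g).injective h1) i) ⟨0, by omega⟩
      exact hi (by simpa [vecMulVec_apply] using h2)
    have hdB : B.det ≠ 0 := fun h0 => by
      obtain ⟨u, hu, hBu⟩ := Matrix.exists_vecMul_eq_zero_iff.2 h0
      obtain ⟨i, hi⟩ := Function.ne_iff.1 hu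
      have h1 : toAct e P' g (vecMulVec (Pi.single ⟨0, by omega⟩ 1) u) = toAct e P' g 0 := by
        rw [hAB, hAB, Matrix.mul_assoc, Matrix.vecMulVec_mul, hBu]
        ext i j
        simp [Matrix.mul_apply, vecMulVec_apply]
      have h2 := congrFun (congrFun ((toAct e P' g).injective h1) ⟨0, by omega⟩) i
      exact hi (by simpa [vecMulVec_apply] using h2)
    have hge : g = tensorElt e P' (Matrix.GeneralLinearGroup.mkOfDetNeZero A hdA)
        (Matrix.GeneralLinearGroup.mkOfDetNeZero Bᵀ (by rwa [Matrix.det_transpose])) :=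
      toAct_injective e P' (LinearEquiv.ext fun X => by
        rw [toAct_tensorElt, hAB]
        exact congrArg (A * X * ·) (Matrix.transpose_transpose B).symm)
    rw [hge]
    exact tensorElt_mem e P' _ _

end Cfsg.Agent.MaxSub.TensorU
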