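import Cfsg.Agent.MaxSub.TensorU.Basic

/-!
A non-scalar root parameter gives all of them.
-/

set_option autoImplicit false
set_option linter.style.haveILetI false
set_option linter.unusedSectionVars false
set_option linter.unusedSimpArgs false

namespace Cfsg.Agent.MaxSub.TensorU

open Module Matrix Cfsg.Agent.Classical.U Cfsg.Agent.MaxSub.TensorMax
open Cfsg.Agent.MaxSub.ExtField (Mem mem_zero inv_apply_self self_inv_apply rk1)

universe u

variable {F : Type u} [Field F] {a b n q : ℕ}

/-- Adjoint maps. -/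
def IsAdj (q : ℕ) (N N' : (Fin n → F) →ₗ[F] (Fin n → F)) : Prop :=
  ∀ x y, herm q (N x) y = herm q x (N' y)

/-- Skew-adjoint maps. -/
def IsSkewU (q : ℕ) (S : (Fin n → F) →ₗ[F] (Fin n → F)) : Prop :=
  ∀ x y, herm q (S x) y = -herm q x (S y)

section Adj

variable (hF : SqField F q)
include hF

lemma IsAdj.symm {N N' : (Fin n → F) →ₗ[F] (Fin n → F)} (h : IsAdj q N N') : IsAdj q N' N :=
  fun x y => by rw [← hF.herm_symm, ← h, hF.herm_symm]

lemma IsAdj.unique {N N' N'' : (Fin n → F) →ₗ[F] (Fin n → F)} (h : IsAdj q N N')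
    (h' : IsAdj q N N'') : N' = N'' := by
  refine LinearMap.ext fun y => sub_eq_zero.1 (hF.eq_zero_of_herm _ fun x => ?_)
  rw [herm_sub_left, sub_eq_zero, ← hF.herm_symm x (N' y), ← hF.herm_symm x (N'' y), ← h, ← h']

lemma IsAdj.add {N N' M M' : (Fin n → F) →ₗ[F] (Fin n → F)} (h : IsAdj q N N')
    (h' : IsAdj q M M') : IsAdj q (N + M) (N' + M') := fun x y => by
  simp [herm_add_left, hF.herm_add_right, h x y, h' x y]

lemma IsAdj.smul {N N' : (Fin n → F) →ₗ[F] (Fin n → F)} (h : IsAdj q N N') (c : F) :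
    IsAdj q (c • N) (c ^ q • N') := fun x y => by
  simp [herm_smul_left, herm_smul_right, hF.pow_pow, h x y]

omit hF in
lemma IsAdj.comp {N N' M M' : (Fin n → F) →ₗ[F] (Fin n → F)} (h : IsAdj q N N')
    (h' : IsAdj q M M') : IsAdj q (N ∘ₗ M) (M' ∘ₗ N') := fun x y => by
  simp [h _ _, h' _ _]

omit hF in
lemma isAdj_id : IsAdj q (LinearMap.id : (Fin n → F) →ₗ[F] _) LinearMap.id := fun _ _ => rfl

lemma IsSkewU.isAdj {S : (Fin n → F) →ₗ[F] (Fin n → F)} (h : IsSkewU q S) : IsAdj q S (-S) :=
  fun x y => by rw [h, LinearMap.neg_apply, hF.herm_neg_right]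

lemma isSkewU_of_isAdj {S : (Fin n → F) →ₗ[F] (Fin n → F)} (h : IsAdj q S (-S)) : IsSkewU q S :=
  fun x y => by rw [h, LinearMap.neg_apply, hF.herm_neg_right]

lemma isAdj_hr1 (x y : Fin n → F) : IsAdj q (hr1 q x y) (hr1 q y x) := fun v w => by
  simp only [hr1_apply, herm_smul_left, herm_smul_right, hF.herm_symm]
  ring

end Adj

/-- Root elements at a pair of orthogonal isotropic vectors of the second factor. -/
def pairMap (q : ℕ) (N N' : (Fin a → F) →ₗ[F] (Fin a → F)) (v y : Fin b → F) :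
    Matrix (Fin a) (Fin b) F →ₗ[F] Matrix (Fin a) (Fin b) F :=
  act N (hr1 q v y) - act N' (hr1 q y v)

variable {G : Subgroup (Matrix (Fin a) (Fin b) F ≃ₗ[F] Matrix (Fin a) (Fin b) F)}

/-- The first-factor parts of the root elements at the isotropic vectors. -/
def IsParam (q : ℕ) (G : Subgroup (Matrix (Fin a) (Fin b) F ≃ₗ[F] Matrix (Fin a) (Fin b) F))
    (S : (Fin a → F) →ₗ[F] (Fin a → F)) : Prop :=
  ∀ v : Fin b → F, herm q v v = 0 → Mem G (act S (hr1 q v v))

/-- The first-factor parts of the root elements at orthogonal pairs. -/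
def InAlg (q : ℕ) (G : Subgroup (Matrix (Fin a) (Fin b) F ≃ₗ[F] Matrix (Fin a) (Fin b) F))
    (N : (Fin a → F) →ₗ[F] (Fin a → F)) : Prop :=
  ∃ N', IsAdj q N N' ∧ ∀ (c : F) (v y : Fin b → F), herm q v v = 0 → herm q y y = 0 →
    herm q v y = 0 → Mem G (pairMap q (c • N) (c ^ q • N') v y)

/-- A non-scalar root element at some line. -/
def HasNSParam (q : ℕ) (G : Subgroup (Matrix (Fin a) (Fin b) F ≃ₗ[F] Matrix (Fin a) (Fin b) F)) :
    Prop :=
  ∃ (v : Fin b → F) (S : (Fin a → F) →ₗ[F] (Fin a → F)), v ≠ 0 ∧ herm q v v = 0 ∧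
    IsSkewU q S ∧ (∀ c : F, S ≠ c • LinearMap.id) ∧ Mem G (act S (hr1 q v v))

lemma act_hr1_sq (S S' : (Fin a → F) →ₗ[F] (Fin a → F)) {v x w y : Fin b → F}
    (h : herm q w x = 0) (X : Matrix (Fin a) (Fin b) F) :
    act S (hr1 q v x) (act S' (hr1 q w y) X) = 0 := by
  rw [act_comp, hr1_comp_hr1, h, zero_smul, act_zero_right, LinearMap.zero_apply]

lemma act_hr1_comp (S S' : (Fin a → F) →ₗ[F] (Fin a → F)) (v x w y : Fin b → F)
    (X : Matrix (Fin a) (Fin b) F) :
    act S (hr1 q v x) (act S' (hr1 q w y) X) = herm q w x • act (S ∘ₗ S') (hr1 q v y) X := by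
  rw [act_comp, hr1_comp_hr1, act_smul_right, LinearMap.smul_apply]

variable (hF : SqField F q)
include hF

lemma pairMap_sq (N N' M M' : (Fin a → F) →ₗ[F] (Fin a → F)) {v y : Fin b → F}
    (hv : herm q v v = 0) (hy : herm q y y = 0) (hvy : herm q v y = 0)
    (X : Matrix (Fin a) (Fin b) F) : pairMap q N N' v y (pairMap q M M' v y X) = 0 := by
  simp [pairMap, map_sub, act_hr1_sq, hv, hy, hvy, herm_eq_zero_symm hF hvy]

variable (hG : UFactors q G)
include hG

/-- Conjugation by the right factor. -/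
lemma mem_conj_right {f : (Fin a → F) →ₗ[F] (Fin a → F)} {g' : (Fin b → F) →ₗ[F] (Fin b → F)}
    (h : Mem G (act f g')) {g : UG b F q} (hg : g ∈ SUG b F q) :
    Mem G (act f (g.1.toLinearMap ∘ₗ g' ∘ₗ g.1.symm.toLinearMap)) := by
  obtain ⟨k, hk, hkx⟩ := hG.right g hg
  have hinv : ∀ X, k⁻¹ X = act LinearMap.id g.1.symm.toLinearMap X := fun X => k.injective (by
    rw [self_inv_apply, hkx, act_comp, LinearMap.id_comp]
    refine LinearMap.congr_fun (f := LinearMap.id) (ext_colMap fun w x => ?_) X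
    simp [act_colMap])
  refine (h.conj hk).congr fun X => ?_
  simp only [LinearMap.comp_apply, LinearEquiv.coe_coe, hinv, hkx, act_comp, LinearMap.id_comp,
    LinearMap.comp_id]

/-- Conjugation by the left factor. -/
lemma mem_conj_left {f : Matrix (Fin a) (Fin b) F →ₗ[F] Matrix (Fin a) (Fin b) F}
    (h : Mem G f) {g : UG a F q} (hg : g ∈ SUG a F q) :
    Mem G (act g.1.toLinearMap LinearMap.id ∘ₗ f ∘ₗ act g.1.symm.toLinearMap LinearMap.id) := by
  obtain ⟨k, hk, hkx⟩ := hG.left g hg
  have hinv : ∀ X, k⁻¹ X = act g.1.symm.toLinearMap LinearMap.id X := fun X => k.injective (by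
    rw [self_inv_apply, hkx, act_comp, LinearMap.id_comp]
    refine LinearMap.congr_fun (f := LinearMap.id) (ext_colMap fun w x => ?_) X
    simp [act_colMap])
  refine (h.conj hk).congr fun X => ?_
  simp only [LinearMap.comp_apply, LinearEquiv.coe_coe, hinv, hkx]

lemma isParam_of_one (hb : 4 ≤ b) {v : Fin b → F} (hv0 : v ≠ 0) (hv : herm q v v = 0)
    {S : (Fin a → F) →ₗ[F] (Fin a → F)} (h : Mem G (act S (hr1 q v v))) : IsParam q G S := by
  intro w hw
  rcases eq_or_ne w 0 with rfl | hw0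
  · rw [hr1_zero_left, act_zero_right]; exact mem_zero
  obtain ⟨g, hg, hgv⟩ := TG_transitive_vectors hF (by omega) (hasUni hF (by omega) (by omega))
    hv0 hv hw0 hw
  refine (mem_conj_right hF hG h (TG_le_SUG hF hg)).congr fun X => ?_
  congr 2
  refine LinearMap.ext fun z => ?_
  simp only [LinearMap.comp_apply, LinearEquiv.coe_coe, hr1_apply, map_smul, hgv]
  rw [← UG_app g, LinearEquiv.apply_symm_apply, hgv]

lemma IsParam.inAlg {S : (Fin a → F) →ₗ[F] (Fin a → F)} (h : IsParam q G S)
    (hS : IsSkewU q S) : InAlg q G S := by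
  refine ⟨-S, hS.isAdj hF, fun c v y hv hy hvy => ?_⟩
  have hyv := herm_eq_zero_symm hF hvy
  set t := c ^ q with ht
  have htt : t ^ q = c := hF.pow_pow c
  have h0 : herm q (v + t • y) (v + t • y) = 0 := by
    simp [herm_add_left, hF.herm_add_right, herm_smul_left, herm_smul_right, hv, hy, hvy, hyv]
  have h1 := h _ h0
  have h2 := (h v hv).neg fun X => act_hr1_sq _ _ hv X
  have h3 := (h (t • y) (by simp [herm_smul_left, herm_smul_right, hy])).neg
    fun X => act_hr1_sq _ _ (by simp [herm_smul_left, herm_smul_right, hy]) X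
  refine ((h1.add h2 fun X => ?_).add h3 fun X => ?_).congr fun X => ?_
  · rw [LinearMap.neg_apply, map_neg, act_hr1_sq _ _ (by
      simp [hF.herm_add_right, herm_smul_right, hv, hvy]), neg_zero]
  · rw [LinearMap.neg_apply, map_neg, LinearMap.add_apply, LinearMap.neg_apply,
      act_hr1_sq _ _ (by
        simp [hF.herm_add_right, herm_smul_left, herm_smul_right, hyv, hy]),
      act_hr1_sq _ _ (by simp [herm_smul_left, hyv])]
    simp
  · simp only [pairMap, hr1_add_left, hr1_add_right hF, hr1_smul_left, hr1_smul_right, htt,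
      act_add_right, act_smul_right, act_smul_left, LinearMap.add_apply, LinearMap.neg_apply,
      LinearMap.sub_apply, LinearMap.smul_apply, smul_add, smul_smul, ← ht]
    rw [show act (-S) (hr1 q y v) X = -(act S (hr1 q y v) X) by
      rw [← neg_one_smul F S, act_smul_left]; simp]
    module

lemma inAlg_id : InAlg q G (LinearMap.id : (Fin a → F) →ₗ[F] _) := by
  refine ⟨LinearMap.id, isAdj_id, fun c v y hv hy hvy => ?_⟩
  refine (mem_right_pair hF hG hv hy hvy c).congr fun X => ?_
  simp [pairMap, act_sub_right, act_smul_right, act_smul_left]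

lemma InAlg.add {N M : (Fin a → F) →ₗ[F] (Fin a → F)} (h : InAlg q G N) (h' : InAlg q G M) :
    InAlg q G (N + M) := by
  obtain ⟨N', hN, h⟩ := h
  obtain ⟨M', hM, h'⟩ := h'
  refine ⟨N' + M', hN.add hF hM, fun c v y hv hy hvy => ?_⟩
  refine ((h c v y hv hy hvy).add (h' c v y hv hy hvy) fun X =>
    pairMap_sq hF _ _ _ _ hv hy hvy X).congr fun X => ?_
  simp only [pairMap, smul_add, act_add_left, LinearMap.sub_apply, LinearMap.add_apply]
  abel

lemma InAlg.smul {N : (Fin a → F) →ₗ[F] (Fin a → F)} (h : InAlg q G N) (k : F) :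
    InAlg q G (k • N) := by
  obtain ⟨N', hN, h⟩ := h
  refine ⟨k ^ q • N', hN.smul hF k, fun c v y hv hy hvy => ?_⟩
  rw [smul_smul, smul_smul, ← mul_pow]
  exact h _ v y hv hy hvy

lemma InAlg.sub {N M : (Fin a → F) →ₗ[F] (Fin a → F)} (h : InAlg q G N) (h' : InAlg q G M) :
    InAlg q G (N - M) := by
  rw [sub_eq_add_neg, ← neg_one_smul F M]
  exact h.add hF hG (h'.smul hF hG _)

lemma InAlg.of_smul {N : (Fin a → F) →ₗ[F] (Fin a → F)} {k : F} (hk : k ≠ 0)
    (h : InAlg q G (k • N)) : InAlg q G N := by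
  have := h.smul hF hG k⁻¹
  rwa [inv_smul_smul₀ hk] at this

/-- The skew parts of products are parameters. -/
lemma isParam_prod (hb : 4 ≤ b) {N N' M M' : (Fin a → F) →ₗ[F] (Fin a → F)} (hN : InAlg q G N)
    (hNN : IsAdj q N N') (hM : InAlg q G M) (hMM : IsAdj q M M') (c : F) :
    IsParam q G (c • (N ∘ₗ M) - c ^ q • (M' ∘ₗ N')) := by
  obtain ⟨N₁, hN₁, hNm⟩ := hN
  obtain ⟨M₁, hM₁, hMm⟩ := hM
  obtain rfl := hN₁.unique hF hNN
  obtain rfl := hM₁.unique hF hMM
  intro v hv
  rcases eq_or_ne v 0 with rfl | hv0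
  · rw [hr1_zero_left, act_zero_right]; exact mem_zero
  obtain ⟨v', hp⟩ := exists_partner hF hv0 hv
  obtain ⟨y, y', ⟨hy, hy', hyy⟩, h1, -, h3, -⟩ := exists_second_pair hF hb hp
  have hvy := herm_eq_zero_symm hF h1
  have hvy' := herm_eq_zero_symm hF h3
  have hyy' : herm q y' y = 1 := by rw [← hF.herm_symm, hyy, one_pow]
  have hE1 := hNm c v y hv hy hvy
  have hE2 := hMm 1 y' v hy' hv h3
  have sq1 := fun X => pairMap_sq hF (c • N) (c ^ q • N₁) (c • N) (c ^ q • N₁) hv hy hvy X
  have sq2 := fun X => pairMap_sq hF ((1 : F) • M) ((1 : F) ^ q • M₁) ((1 : F) • M)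
    ((1 : F) ^ q • M₁) hy' hv h3 X
  have hconj := mem_conj hE2 hE1 sq1
  refine (hconj.add (hE2.neg sq2) fun X => ?_).congr fun X => ?_
  · simp [pairMap, map_sub, map_add, map_neg, act_hr1_comp, hv, hy, hy', hvy, hvy', h1, h3, hyy,
      hyy']
  · simp only [pairMap, LinearMap.comp_apply, LinearMap.add_apply, LinearMap.sub_apply,
      LinearMap.neg_apply, LinearMap.id_apply, map_sub, map_add, act_hr1_comp, hv, hy, hy', hvy,
      hvy', h1, h3, hyy, hyy', zero_smul, one_smul, one_pow, sub_zero, zero_sub, add_zero,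
      zero_add, map_neg, map_smul, map_zero, sub_neg_eq_add, neg_zero, neg_neg, act_sub_left,
      act_smul_left, LinearMap.smul_comp, LinearMap.comp_smul, LinearMap.smul_apply]
    module

lemma InAlg.comp (hb : 4 ≤ b) {N M : (Fin a → F) →ₗ[F] (Fin a → F)} (hN : InAlg q G N)
    (hM : InAlg q G M) : InAlg q G (N ∘ₗ M) := by
  obtain ⟨N', hN', -⟩ := id hN
  obtain ⟨M', hM', -⟩ := id hM
  have hD : ∀ c : F, InAlg q G (c • (N ∘ₗ M) - c ^ q • (M' ∘ₗ N')) := fun c => by
    refine (isParam_prod hF hG hb hN hN' hM hM' c).inAlg hF hG (isSkewU_of_isAdj hF ?_)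
    have h1 := (hN'.comp hM').smul hF c
    have h2 := ((hN'.comp hM').symm hF).smul hF (c ^ q)
    intro x y
    rw [LinearMap.neg_apply, hF.herm_neg_right]
    simp only [LinearMap.sub_apply, herm_sub_left, hF.herm_sub_right, h1 x y, h2 x y, hF.pow_pow]
    ring
  obtain ⟨c, hc⟩ := exists_ne_pow hF
  refine InAlg.of_smul hF hG (sub_ne_zero.2 (Ne.symm hc)) (N := N ∘ₗ M) ?_
  convert (hD c).sub hF hG ((hD 1).smul hF hG (c ^ q)) using 1
  rw [one_pow, one_smul, one_smul]
  module

lemma InAlg.conj {N : (Fin a → F) →ₗ[F] (Fin a → F)} (h : InAlg q G N) {g : UG a F q}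
    (hg : g ∈ SUG a F q) :
    InAlg q G (g.1.toLinearMap ∘ₗ N ∘ₗ g.1.symm.toLinearMap) := by
  obtain ⟨N', hN, h⟩ := h
  refine ⟨g.1.toLinearMap ∘ₗ N' ∘ₗ g.1.symm.toLinearMap, fun x y => ?_, fun c v y hv hy hvy => ?_⟩
  · simp only [LinearMap.comp_apply, LinearEquiv.coe_coe]
    calc herm q (g.1 (N (g.1.symm x))) y
        = herm q (g.1 (N (g.1.symm x))) (g.1 (g.1.symm y)) := by rw [LinearEquiv.apply_symm_apply]
      _ = herm q (g.1 (g.1.symm x)) (g.1 (N' (g.1.symm y))) := by rw [UG_app, UG_app, hN]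
      _ = _ := by rw [LinearEquiv.apply_symm_apply]
  · refine (mem_conj_left hF hG (h c v y hv hy hvy) hg).congr fun X => ?_
    simp [pairMap, map_sub, act_comp, act_smul_left, LinearMap.comp_assoc]

section Seed

/-- The difference made by a transvection. -/
lemma InAlg.diff {X : (Fin a → F) →ₗ[F] (Fin a → F)} (h : InAlg q G X) {u : Fin a → F} {t : F}
    (hu : herm q u u = 0) (ht : t ^ q = -t) :
    InAlg q G (t • (hr1 q u u ∘ₗ X) - t • (X ∘ₗ hr1 q u u)
      - (t * t * herm q (X u) u) • hr1 q u u) := by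
  have hc : TrvCond q u t := ⟨hu, ht⟩
  have hinv : ∀ w, (trv hF hc).1.symm w = w - (t * herm q w u) • u := fun w => by
    rw [LinearEquiv.symm_apply_eq, trv_apply, herm_sub_left, herm_smul_left, hu]
    module
  convert (h.conj hF hG (TG_le_SUG hF (trv_mem hF hc))).sub hF hG h using 1
  refine LinearMap.ext fun w => ?_
  simp only [LinearMap.comp_apply, LinearMap.sub_apply, LinearMap.smul_apply, LinearEquiv.coe_coe,
    hinv, trv_apply, map_sub, map_smul, hr1_apply, herm_sub_left, herm_smul_left]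
  module

lemma inAlg_hr1_sub (hb : 4 ≤ b) {e e' : Fin a → F} (he : InAlg q G (hr1 q e e))
    (he' : InAlg q G (hr1 q e' e')) (hne : herm q e e' ≠ 0) :
    InAlg q G (hr1 q (e' - e) (e' - e)) := by
  have h1 := he'.comp hF hG hb he
  rw [hr1_comp_hr1] at h1
  have h1' := InAlg.of_smul hF hG hne h1
  have h2 := he.comp hF hG hb he'
  rw [hr1_comp_hr1] at h2
  have h2' := InAlg.of_smul hF hG (fun h => hne (herm_eq_zero_symm hF h)) h2
  convert ((he.add hF hG he').sub hF hG h1').sub hF hG h2' using 1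
  refine LinearMap.ext fun w => ?_
  simp only [hr1_apply, LinearMap.sub_apply, LinearMap.add_apply, hF.herm_sub_right]
  module

lemma exists_seed_big (hb : 4 ≤ b) (hq : 3 ≤ q) {X : (Fin a → F) →ₗ[F] (Fin a → F)}
    (ha : 2 ≤ a) (hX : InAlg q G X) (hns : ∀ c : F, X ≠ c • LinearMap.id) :
    ∃ u : Fin a → F, u ≠ 0 ∧ herm q u u = 0 ∧ InAlg q G (hr1 q u u) := by
  obtain ⟨u, hu, hσ⟩ : ∃ u, herm q u u = 0 ∧ herm q (X u) u ≠ 0 := by
    by_contra hc
    push Not at hc
    obtain ⟨k, hk⟩ := eq_smul_of_isotropic hF ha X hc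
    exact hns k hk
  obtain ⟨k, hk0, hk, hk1⟩ : ∃ k : F, k ≠ 0 ∧ k ^ q = k ∧ k ≠ 1 := by
    by_contra hcon
    push Not at hcon
    haveI : Finite F := hF.1
    have h3 : Nat.card {c : F // c ^ (q - 1) = 1} = 1 := Nat.card_eq_one_iff_exists.2
      ⟨⟨1, one_pow _⟩, fun y => Subtype.ext (by
        have hy0 : y.1 ≠ 0 := fun h0 => by
          have := y.2
          rw [h0, zero_pow (by omega)] at this
          exact zero_ne_one this
        exact hcon y.1 hy0 ((hF.fixed_iff hy0).2 y.2))⟩
    have := hF.card_fixed_units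
    omega
  obtain ⟨t, ht0, ht⟩ := hF.exists_skew
  refine ⟨u, fun h => hσ (by rw [h, hF.herm_zero_right]), hu, InAlg.of_smul hF hG
    (k := (k - k * k) * (t * t * herm q (X u) u)) (mul_ne_zero (fun h0 => hk1 ?_)
      (mul_ne_zero (mul_ne_zero ht0 ht0) hσ)) ?_⟩
  · have h1 : k * (1 - k) = 0 := by linear_combination h0
    exact (sub_eq_zero.1 ((mul_eq_zero.1 h1).resolve_left hk0)).symm
  convert (hX.diff hF hG hu (t := k * t) (by rw [mul_pow, hk, ht]; ring)).sub hF hG
    ((hX.diff hF hG hu ht).smul hF hG k) using 1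
  module

lemma exists_seed_two (hb : 4 ≤ b) (hq : q = 2) (ha : 4 ≤ a)
    {X : (Fin a → F) →ₗ[F] (Fin a → F)} (hXs : IsSkewU q X) (hX : InAlg q G X)
    (hns : ∀ c : F, X ≠ c • LinearMap.id) :
    ∃ u : Fin a → F, u ≠ 0 ∧ herm q u u = 0 ∧ InAlg q G (hr1 q u u) := by
  obtain ⟨v, hv, w₀, hw₀, hw₀v, hσ₀⟩ : ∃ v, herm q v v = 0 ∧ ∃ w, herm q w w = 0 ∧
      herm q w v = 0 ∧ herm q w (X v) ≠ 0 := by
    by_contra hc
    push Not at hc
    obtain ⟨k, hk⟩ := eq_smul_of_isotropic hF (by omega) X fun u hu => by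
      rcases eq_or_ne u 0 with rfl | hu0
      · simp
      exact herm_eq_zero_symm hF (mem_of_perp_isotropic hF ha hu0 hu
        (LinearMap.ker (dualF q (X u))) (fun w h1 h2 => hc u hu w h1 h2) hu)
    exact hns k hk
  have hv0 : v ≠ 0 := fun h => hσ₀ (by rw [h, map_zero, hF.herm_zero_right])
  obtain ⟨f, hp⟩ := exists_partner hF hv0 hv
  -- a second vector independent of `v`
  obtain ⟨u, hu, huv, hind, hσ⟩ : ∃ u, herm q u u = 0 ∧ herm q u v = 0 ∧
      u - herm q u f • v ≠ 0 ∧ herm q u (X v) ≠ 0 := by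
    by_cases hind : w₀ - herm q w₀ f • v = 0
    · obtain ⟨y, y', hyy, h1, h2, -, -⟩ := exists_second_pair hF ha hp
      have hy0 := hyy.ne_zero
      by_cases hy : herm q y (X v) = 0
      · refine ⟨w₀ + y, ?_, ?_, ?_, ?_⟩
        · rw [sub_eq_zero.1 hind]
          simp [herm_add_left, hF.herm_add_right, herm_smul_left, herm_smul_right, hv, hyy.1, h1,
            herm_eq_zero_symm hF h1]
        · simp [herm_add_left, hw₀v, h1]
        · rw [herm_add_left, h2, add_zero, add_sub_right_comm, hind, zero_add]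
          exact hy0
        · rw [herm_add_left, hy, add_zero]; exact hσ₀
      · exact ⟨y, hyy.1, h1, by rw [h2, zero_smul, sub_zero]; exact hy0, hy⟩
    · exact ⟨w₀, hw₀, hw₀v, hind, hσ₀⟩
  have hvu := herm_eq_zero_symm hF huv
  -- a vector meeting `u` and orthogonal to `v`
  obtain ⟨w, hw, hwv, hwu⟩ : ∃ w, herm q w w = 0 ∧ herm q w v = 0 ∧ herm q w u ≠ 0 := by
    have hmem : u - herm q u f • v ∈ perpTwo q v f := by
      rw [mem_perpTwo]
      exact ⟨by simp [herm_sub_left, herm_smul_left, huv, hv],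
        by simp [herm_sub_left, herm_smul_left, hp.2.2]⟩
    obtain ⟨y, hy, hyu⟩ := nondeg_perpTwo hF hp hmem hind
    rw [mem_perpTwo] at hy
    have hyu' : herm q y u ≠ 0 := by
      rwa [hF.herm_sub_right, herm_smul_right, hy.1, mul_zero, sub_zero] at hyu
    have huy : herm q u y ≠ 0 := fun h => hyu' (herm_eq_zero_symm hF h)
    obtain ⟨t, ht⟩ := hF.exists_trace (c := -herm q y y) (by rw [hF.neg_pow, hF.herm_symm])
    refine ⟨y + (t / herm q u y) • u, ?_, ?_, ?_⟩
    · have e1 : t / herm q u y * herm q u y = t := div_mul_cancel₀ _ huy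
      have e2 : (t / herm q u y) ^ q * herm q u y ^ q = t ^ q := by rw [← mul_pow, e1]
      simp only [herm_add_left, hF.herm_add_right, herm_smul_left, herm_smul_right, hu,
        ← hF.herm_symm u y]
      linear_combination ht + e1 + e2
    · simp [herm_add_left, herm_smul_left, hy.1, huv]
    · simpa [herm_add_left, herm_smul_left, hu] using hyu'
  have htwo : (2 : F) = 0 := by
    obtain ⟨p, k, hp', hch, hqp⟩ := hF.exists_char
    obtain rfl : p = 2 := by
      have h1 : p ∣ q := by
        rw [hqp]; exact dvd_pow_self p (fun h => by rw [h] at hqp; simp at hqp; omega)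
      rw [hq] at h1
      exact (Nat.prime_dvd_prime_iff_eq hp' Nat.prime_two).1 h1
    exact_mod_cast CharP.cast_eq_zero F 2
  have hm1 : ((1 : F)) ^ q = -1 := by
    rw [one_pow]; linear_combination htwo
  -- the cross term of two orthogonal transvections
  set s := herm q (X v) u
  set s' := herm q (X u) v
  have hs : s ≠ 0 := fun h => hσ (herm_eq_zero_symm hF h)
  have hs' : s' ≠ 0 := fun h => hσ (by
    have := hXs u v
    rw [show herm q (X u) v = 0 from h] at this
    exact neg_eq_zero.1 this.symm)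
  set Z := s • hr1 q u v + s' • hr1 q v u with hZ
  have hcu : TrvCond q u (1 : F) := ⟨hu, hm1⟩
  have hcv : TrvCond q v (1 : F) := ⟨hv, hm1⟩
  have hZmem : InAlg q G Z := by
    set g := trv hF hcu * trv hF hcv
    have hg : g ∈ SUG a F q := mul_mem (TG_le_SUG hF (trv_mem hF hcu)) (TG_le_SUG hF (trv_mem hF hcv))
    have hinv : ∀ x, (trv hF hcu * trv hF hcv).1.symm x = x - herm q x u • u - herm q x v • v := fun x => by
      rw [LinearEquiv.symm_apply_eq]
      simp only [g, Subgroup.coe_mul, LinearEquiv.mul_apply, trv_apply, map_add, map_sub, map_smul,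
        herm_sub_left, herm_smul_left, herm_add_left, hu, hv, huv, hvu, one_mul]
      module
    convert ((((hX.diff hF hG hu hm1).add hF hG (hX.diff hF hG hv hm1)).sub hF hG
      ((hX.conj hF hG hg).sub hF hG hX))) using 1
    refine LinearMap.ext fun x => ?_
    simp only [LinearMap.comp_apply, LinearMap.sub_apply, LinearMap.add_apply,
      LinearMap.smul_apply, LinearEquiv.coe_coe, hinv, g]
    simp only [hZ, LinearMap.comp_apply, LinearMap.sub_apply, LinearMap.add_apply,
      LinearMap.smul_apply, Subgroup.coe_mul, LinearEquiv.mul_apply,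
      trv_apply, map_sub, map_add, map_smul, hr1_apply, herm_sub_left, herm_add_left,
      herm_smul_left, hu, hv, huv, hvu, one_mul, s, s']
    module
  -- its difference at `w`
  refine ⟨v, hv0, hv, InAlg.of_smul hF hG
    (k := -(s' * s * (herm q u w * herm q w u))) ?_ ?_⟩
  · exact neg_ne_zero.2 (mul_ne_zero (mul_ne_zero hs' hs)
      (mul_ne_zero (fun h => hwu (herm_eq_zero_symm hF h)) hwu))
  convert (hZmem.diff hF hG hw hm1).comp hF hG hb hZmem using 1
  refine LinearMap.ext fun x => ?_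
  simp only [hZ, LinearMap.comp_apply, LinearMap.sub_apply, LinearMap.add_apply,
    LinearMap.smul_apply, map_sub, map_add, map_smul, hr1_apply, herm_sub_left, herm_add_left,
    herm_smul_left, hu, hv, huv, hvu, hwv, herm_eq_zero_symm hF hwv, one_mul]
  module

lemma exists_seed_three (hb : 4 ≤ b) (hq : q = 2) (ha : a = 3)
    {X : (Fin a → F) →ₗ[F] (Fin a → F)} (hXs : IsSkewU q X) (hX : InAlg q G X)
    (hns : ∀ c : F, X ≠ c • LinearMap.id) :
    ∃ u : Fin a → F, u ≠ 0 ∧ herm q u u = 0 ∧ InAlg q G (hr1 q u u) := by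
  haveI : Finite F := hF.1
  have htwo : (2 : F) = 0 := by
    obtain ⟨p, k, hp', hch, hqp⟩ := hF.exists_char
    obtain rfl : p = 2 := by
      have h1 : p ∣ q := by
        rw [hqp]; exact dvd_pow_self p (fun h => by rw [h] at hqp; simp at hqp; omega)
      rw [hq] at h1
      exact (Nat.prime_dvd_prime_iff_eq hp' Nat.prime_two).1 h1
    exact_mod_cast CharP.cast_eq_zero F 2
  have hm1 : ((1 : F)) ^ q = -1 := by
    rw [one_pow]; linear_combination htwo
  have hneg : ∀ x : F, -x = x := fun x => by linear_combination -x * htwo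
  have hXh : ∀ x y, herm q (X x) y = herm q x (X y) := fun x y => by rw [hXs, hneg]
  by_cases hmain : ∃ u, herm q u u = 0 ∧ herm q (X u) u ^ 2 + herm q (X (X u)) u ≠ 0
  · obtain ⟨u, hu, hne⟩ := hmain
    refine ⟨u, fun h => hne ?_, hu, InAlg.of_smul hF hG hne ?_⟩
    · rw [h]; simp
    set σ := herm q (X u) u with hσ
    have hD := hX.diff hF hG hu hm1
    convert (hD.comp hF hG hb hD).sub hF hG (hD.smul hF hG σ) using 1
    refine LinearMap.ext fun x => ?_
    simp only [LinearMap.comp_apply, LinearMap.sub_apply, LinearMap.smul_apply, map_sub, map_smul,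
      hr1_apply, herm_sub_left, herm_smul_left, hu, ← hσ, one_mul, one_smul,
      hXh x u, hXh (X x) u, hXh x (X u)]
    match_scalars <;> (try ring_nf) <;> (try simp [htwo])
    linear_combination (herm q (X (X u)) u * herm q x u) * htwo
  push Not at hmain
  -- `X² + X` is scalar
  have hsc : ∀ u, herm q u u = 0 → herm q ((X ∘ₗ X + X) u) u = 0 := fun u hu => by
    have h1 := hmain u hu
    have h2 : herm q (X u) u ^ 2 = herm q (X u) u := by
      conv_lhs => rw [← hq, hF.herm_symm, ← hXh]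
    rw [LinearMap.add_apply, LinearMap.comp_apply, herm_add_left]
    linear_combination h1 - h2
  obtain ⟨d, hd⟩ := eq_smul_of_isotropic hF (by omega) _ hsc
  obtain ⟨i₀, -⟩ : ∃ i : Fin a, True := ⟨⟨0, by omega⟩, trivial⟩
  have hdiag : ∀ i, herm q (X (Pi.single i 1)) (Pi.single i 1) ^ q
      = herm q (X (Pi.single i 1)) (Pi.single i 1) := fun i => by rw [hF.herm_symm, ← hXh]
  have hd01 : d = 0 ∨ d = 1 := by
    have hdq : d ^ 2 = d := by
      have h1 := congrArg (fun g : (Fin a → F) →ₗ[F] _ =>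
        herm q (g (Pi.single i₀ 1)) (Pi.single i₀ 1)) hd
      simp only [LinearMap.add_apply, LinearMap.comp_apply, LinearMap.smul_apply,
        LinearMap.id_apply, herm_add_left, herm_smul_left] at h1
      rw [show herm q (Pi.single i₀ 1 : Fin a → F) (Pi.single i₀ 1) = 1 by
        simp [herm_single_one _ hF.q_ne_zero], mul_one] at h1
      rw [← h1, ← hq, hF.add_pow, hdiag, hF.herm_symm, ← hXh, ← hXh]
    have : d * (d - 1) = 0 := by linear_combination hdq
    exact (mul_eq_zero.1 this).imp id sub_eq_zero.1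
  have hXX : ∀ x, X (X x) = d • x + X x := fun x => by
    have h1 := LinearMap.congr_fun hd x
    simp only [LinearMap.add_apply, LinearMap.comp_apply, LinearMap.smul_apply,
      LinearMap.id_apply] at h1
    rw [← h1, add_assoc, ← two_smul F (X x), htwo, zero_smul, add_zero]
  rcases hd01 with rfl | rfl
  swap
  · -- no solution: the trace of an idempotent
    exfalso
    obtain ⟨ω, hω⟩ := hF.exists_trace (c := (1 : F)) (one_pow q)
    rw [hq] at hω
    set Y := X + ω • LinearMap.id
    have hYY : ∀ x, Y (Y x) = Y x := fun x => by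
      simp only [Y, LinearMap.add_apply, LinearMap.smul_apply, LinearMap.id_apply, map_add,
        map_smul, hXX]
      match_scalars <;> first | linear_combination ω * htwo | linear_combination hω + (1 - ω) * htwo | linear_combination htwo
    have hproj : LinearMap.IsProj (LinearMap.range Y) Y :=
      ⟨fun x => LinearMap.mem_range_self Y x, fun x ⟨z, hz⟩ => by rw [← hz, hYY]⟩
    have htr := hproj.trace
    have htrX : (LinearMap.trace F (Fin a → F) X) ^ q = LinearMap.trace F (Fin a → F) X := by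
      rw [LinearMap.trace_eq_matrix_trace F (Pi.basisFun F (Fin a)), Matrix.trace, hF.sum_pow]
      refine Finset.sum_congr rfl fun i _ => ?_
      have := hdiag i
      rw [herm_single_one _ hF.q_ne_zero] at this
      simpa [LinearMap.toMatrix_eq_toMatrix', LinearMap.toMatrix'_apply] using this
    have hfix : ∀ k : ℕ, ((k : F)) ^ q = k := fun k => by
      induction k with
      | zero => simp [hF.q_ne_zero]
      | succ k ih => rw [Nat.cast_succ, hF.add_pow, ih, one_pow]
    have h3 := hfix (finrank F (LinearMap.range Y))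
    rw [← htr, map_add, map_smul, LinearMap.trace_id, finrank_fin_fun, smul_eq_mul,
      hF.add_pow, htrX, mul_pow, hfix, hq, show (a : F) = 3 by rw [ha]; norm_num] at h3
    have h4 : ω ^ 2 = ω := by
      push_cast at h3
      linear_combination h3 + (ω - ω ^ 2) * htwo
    rw [h4] at hω
    exact one_ne_zero (by linear_combination -hω + ω * htwo : (1 : F) = 0)
  -- a rank one idempotent in the algebra
  obtain ⟨e, he1, hE⟩ : ∃ e, herm q e e = 1 ∧ InAlg q G (hr1 q e e) := by
    have hone : ∀ (Y : (Fin a → F) →ₗ[F] (Fin a → F)), (∀ x, Y (Y x) = Y x) →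
        (∀ x y, herm q (Y x) y = herm q x (Y y)) → InAlg q G Y →
        finrank F (LinearMap.range Y) = 1 → ∃ e, herm q e e = 1 ∧ InAlg q G (hr1 q e e) := by
      intro Y hYY hYh hY hr
      obtain ⟨e, he0, he⟩ := finrank_eq_one_iff'.1 hr
      have hee : Y e.1 = e.1 := by obtain ⟨z, hz⟩ := e.2; rw [← hz, hYY]
      have hform : ∀ x, herm q e.1 e.1 • Y x = herm q x e.1 • e.1 := fun x => by
        obtain ⟨c, hc⟩ := he ⟨Y x, LinearMap.mem_range_self Y x⟩
        have hc' : c • e.1 = Y x := congrArg Subtype.val hc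
        have h1 : herm q (Y x) e.1 = herm q x e.1 := by rw [hYh, hee]
        rw [← hc', herm_smul_left] at h1
        rw [← hc', smul_smul, ← h1, mul_comm]
      have hne : herm q e.1 e.1 ≠ 0 := fun h0 => he0 (Subtype.ext (by
        refine hF.eq_zero_of_herm e.1 fun v => herm_eq_zero_symm hF ?_
        have h2 := hform v
        rw [h0, zero_smul, eq_comm, smul_eq_zero] at h2
        exact h2.resolve_right fun h => he0 (Subtype.ext h)))
      have h1 : herm q e.1 e.1 = 1 := by
        have h2 : herm q e.1 e.1 ^ 2 = herm q e.1 e.1 := by conv_lhs => rw [← hq, hF.herm_symm]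
        exact mul_left_cancel₀ hne (by linear_combination h2)
      refine ⟨e.1, h1, ?_⟩
      convert hY using 1
      refine LinearMap.ext fun x => ?_
      have := hform x
      rw [h1, one_smul] at this
      rw [this, hr1_apply]
    have hXX' : ∀ x, X (X x) = X x := fun x => by rw [hXX, zero_smul, zero_add]
    have hsum : finrank F (LinearMap.range X) + finrank F (LinearMap.ker X) = a := by
      rw [LinearMap.finrank_range_add_finrank_ker, finrank_fin_fun]
    have hker : LinearMap.ker X = LinearMap.range (LinearMap.id - X) := by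
      ext x
      refine ⟨fun hx => ⟨x, ?_⟩, ?_⟩
      · rw [LinearMap.sub_apply, LinearMap.id_apply, LinearMap.mem_ker.1 hx, sub_zero]
      · rintro ⟨z, rfl⟩
        simp [map_sub, hXX']
    have h1 : finrank F (LinearMap.range X) ≠ 0 := fun h => hns 0 (by
      rw [Submodule.finrank_eq_zero, LinearMap.range_eq_bot] at h
      rw [h, zero_smul])
    have h2 : finrank F (LinearMap.ker X) ≠ 0 := fun h => hns 1 (by
      rw [Submodule.finrank_eq_zero, hker, LinearMap.range_eq_bot, sub_eq_zero] at h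
      rw [one_smul, h])
    by_cases h3 : finrank F (LinearMap.range X) = 1
    · exact hone X hXX' hXh hX h3
    · refine hone (LinearMap.id - X) (fun x => ?_) (fun x y => ?_)
        ((inAlg_id hF hG).sub hF hG hX) (by rw [← hker]; omega)
      · simp [map_sub, hXX']
      · simp [herm_sub_left, hF.herm_sub_right, hXh]
  obtain ⟨z, hz, hz0, hzz⟩ := GeoClasses.exists_isotropic_mem hF
    (S := LinearMap.ker (dualF q e)) (by
      have h2 := LinearMap.finrank_range_add_finrank_ker (dualF q e)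
      have h3 := (LinearMap.range (dualF q e)).finrank_le
      rw [finrank_fin_fun] at h2
      rw [Module.finrank_self] at h3
      omega)
  rw [LinearMap.mem_ker, dualF_apply] at hz
  have hez := herm_eq_zero_symm hF hz
  have h1 : herm q (e + z) (e + z) = herm q e e := by
    simp [herm_add_left, hF.herm_add_right, hz, hez, hzz]
  obtain ⟨g, hg, hge⟩ := SUG_transitive_norm hF (by omega) h1.symm (by rw [he1]; exact one_ne_zero)
  have h2 : InAlg q G (hr1 q (e + z) (e + z)) := by
    convert hE.conj hF hG hg using 1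
    refine LinearMap.ext fun x => ?_
    simp only [LinearMap.comp_apply, LinearEquiv.coe_coe, hr1_apply, map_smul, hge]
    congr 1
    rw [← UG_app g (g.1.symm x) e, LinearEquiv.apply_symm_apply, hge]
  refine ⟨z, hz0, hzz, ?_⟩
  have := inAlg_hr1_sub hF hG hb hE h2 (by rw [hF.herm_add_right, he1, hez, add_zero]; exact one_ne_zero)
  rwa [add_sub_cancel_left] at this

end Seed

/-- All maps of rank one are in the algebra. -/
lemma inAlg_hr1 (ha : 2 ≤ a) (hb : 4 ≤ b) {u : Fin a → F} (hu0 : u ≠ 0) (hu : herm q u u = 0)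
    (h : InAlg q G (hr1 q u u)) (x y : Fin a → F) : InAlg q G (hr1 q x y) := by
  have hnext : ∀ {u : Fin a → F}, InAlg q G (hr1 q u u) → herm q u u = 0 → ∀ w, herm q w w = 0 →
      herm q u w ≠ 0 → InAlg q G (hr1 q w w) := by
    intro u h hu w hw huw
    obtain ⟨t, ht0, ht⟩ := hF.exists_skew
    have hc : TrvCond q w t := ⟨hw, ht⟩
    set g := trv hF hc
    set s := t * herm q u w with hs
    have hs0 : s ≠ 0 := mul_ne_zero ht0 huw
    have hgu : g.1 u = u + s • w := trv_apply hF hc u
    have h2 : InAlg q G (hr1 q (u + s • w) (u + s • w)) := by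
      convert h.conj hF hG (TG_le_SUG hF (trv_mem hF hc)) using 1
      refine LinearMap.ext fun x => ?_
      simp only [LinearMap.comp_apply, LinearEquiv.coe_coe, hr1_apply, map_smul]
      rw [show (trv hF hc).1 u = u + s • w from hgu]
      congr 1
      rw [← hgu, ← UG_app g (g.1.symm x) u, LinearEquiv.apply_symm_apply]
    have h3 := inAlg_hr1_sub hF hG hb h h2 (by
      rw [hF.herm_add_right, hu, zero_add, herm_smul_right]
      exact mul_ne_zero (pow_ne_zero _ hs0) huw)
    rw [add_sub_cancel_left, hr1_smul_left, hr1_smul_right, smul_smul] at h3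
    exact InAlg.of_smul hF hG (mul_ne_zero hs0 (pow_ne_zero _ hs0)) h3
  have hiso : ∀ w, herm q w w = 0 → InAlg q G (hr1 q w w) := by
    intro w hw
    by_cases huw : herm q u w = 0
    · rcases eq_or_ne w 0 with rfl | hw0
      · rw [hr1_zero_left, ← zero_smul F (LinearMap.id : (Fin a → F) →ₗ[F] _)]
        exact (inAlg_id hF hG).smul hF hG 0
      obtain ⟨z, hz, h1, h2⟩ := exists_isotropic_not_orth hF hu0 hu hw0 huw
      exact hnext (hnext h hu z hz h1) hz w hw fun h0 => h2 (herm_eq_zero_symm hF h0)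
    · exact hnext h hu w hw huw
  have hcross : ∀ v w, herm q v v = 0 → herm q w w = 0 → InAlg q G (hr1 q v w) := by
    intro v w hv hw
    by_cases hvw : herm q v w = 0
    · rcases eq_or_ne v 0 with rfl | hv0
      · rw [hr1_zero_left, ← zero_smul F (LinearMap.id : (Fin a → F) →ₗ[F] _)]
        exact (inAlg_id hF hG).smul hF hG 0
      rcases eq_or_ne w 0 with rfl | hw0
      · rw [← zero_smul F (0 : Fin a → F), hr1_smul_right, zero_pow hF.q_ne_zero]
        exact (hiso 0 hw).smul hF hG 0 |> fun h => by simpa using h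
      obtain ⟨z, hz, h1, h2⟩ := exists_isotropic_not_orth hF hv0 hv hw0 hvw
      have h3 := ((hiso v hv).comp hF hG hb (hiso z hz)).comp hF hG hb (hiso w hw)
      rw [hr1_comp_hr1, LinearMap.smul_comp, hr1_comp_hr1, smul_smul] at h3
      exact InAlg.of_smul hF hG (mul_ne_zero (fun h0 => h1 (herm_eq_zero_symm hF h0)) h2) h3
    · have h3 := (hiso v hv).comp hF hG hb (hiso w hw)
      rw [hr1_comp_hr1] at h3
      exact InAlg.of_smul hF hG (fun h0 => hvw (herm_eq_zero_symm hF h0)) h3
  let p₁ : Submodule F (Fin a → F) :=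
    { carrier := {y | ∀ v, herm q v v = 0 → InAlg q G (hr1 q v y)}
      add_mem' := fun hy hy' v hv => by
        rw [hr1_add_right hF]; exact (hy v hv).add hF hG (hy' v hv)
      zero_mem' := fun v hv => hcross v 0 hv (by simp)
      smul_mem' := fun c y hy v hv => by
        rw [hr1_smul_right]; exact (hy v hv).smul hF hG _ }
  have h1 := mem_of_isotropic hF ha p₁ (fun w hw v hv => hcross v w hv hw) y
  let p₂ : Submodule F (Fin a → F) :=
    { carrier := {x | InAlg q G (hr1 q x y)}
      add_mem' := fun hx hx' => by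
        show InAlg q G _
        rw [hr1_add_left]; exact InAlg.add hF hG hx hx'
      zero_mem' := h1 0 (by simp)
      smul_mem' := fun c x hx => by
        show InAlg q G _
        rw [hr1_smul_left]; exact InAlg.smul hF hG hx c }
  exact mem_of_isotropic hF ha p₂ (fun w hw => h1 w hw) x

/-- All root elements from a non-scalar parameter. -/
theorem isParam_hr1 (ha : 2 ≤ a) (hb : 4 ≤ b) (hbig : 3 ≤ q ∨ 3 ≤ a) (h : HasNSParam q G)
    {c : F} (hc : c ^ q = -c) (x : Fin a → F) : IsParam q G (c • hr1 q x x) := by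
  obtain ⟨v, S, hv0, hv, hS, hns, hmem⟩ := h
  have hSA := (isParam_of_one hF hG hb hv0 hv hmem).inAlg hF hG hS
  obtain ⟨u, hu0, hu, hu'⟩ : ∃ u : Fin a → F, u ≠ 0 ∧ herm q u u = 0 ∧
      InAlg q G (hr1 q u u) := by
    rcases Nat.lt_or_ge q 3 with hq | hq
    · have hq2 : q = 2 := by have := hF.one_lt; omega
      rcases Nat.lt_or_ge a 4 with ha4 | ha4
      · exact exists_seed_three hF hG hb hq2 (by omega) hS hSA hns
      · exact exists_seed_two hF hG hb hq2 ha4 hS hSA hns
    · exact exists_seed_big hF hG hb hq ha hSA hns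
  have hx := inAlg_hr1 hF hG ha hb hu0 hu hu' x x
  obtain ⟨θ, hθ⟩ := hF.exists_trace (c := (1 : F)) (one_pow q)
  have h1 := isParam_prod hF hG hb (hx.smul hF hG c) ((isAdj_hr1 hF x x).smul hF c)
    (inAlg_id hF hG) isAdj_id θ
  convert h1 using 1
  rw [LinearMap.comp_id, LinearMap.id_comp, smul_smul, smul_smul, ← sub_smul, hc]
  congr 1
  linear_combination -c * hθ

end Cfsg.Agent.MaxSub.TensorU
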