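import Cfsg.Agent.MaxSub.TensorU.TwoOpp

/-!
Without non-scalar upper root elements every element of `F^3 ⊗ F^2` is a tensor product.
-/

set_option autoImplicit false
set_option linter.style.haveILetI false
set_option linter.unusedSectionVars false
set_option maxHeartbeats 1000000

namespace Cfsg.Agent.MaxSub.TensorU

open Module Matrix Cfsg.Agent.Classical.U Cfsg.Agent.MaxSub.TensorMax
open Cfsg.Agent.MaxSub.ExtField (Mem mem_zero inv_apply_self self_inv_apply rk1)

universe u

variable {F : Type u} [Field F] {a q : ℕ}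

variable (hF : SqField F q)
include hF

/-- The orthogonal space of an isotropic vector in dimension three. -/
lemma iso_perp {y : Fin 3 → F} (hy0 : y ≠ 0) (hy : herm q y y = 0) :
    ∃ u : Fin 3 → F, herm q u y = 0 ∧ herm q u u ≠ 0 ∧
      ∀ z, herm q z y = 0 → ∃ α β : F, z = α • y + β • u := by
  obtain ⟨z₀, hp⟩ := exists_partner hF hy0 hy
  obtain ⟨-, hz₀, hyz⟩ := id hp
  have hzy := IsUPair.swap_val hF hp
  let Φ : (Fin 3 → F) →ₗ[F] F × F := (dualF q y).prod (dualF q z₀)
  have hsurj : LinearMap.range Φ = ⊤ := LinearMap.range_eq_top.2 fun r =>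
    ⟨r.1 • z₀ + r.2 • y, by
      simp [Φ, dualF_apply, herm_add_left, herm_smul_left, hy, hz₀, hyz, hzy]⟩
  have h1 : finrank F (perpTwo q y z₀) = 1 := by
    have h2 := LinearMap.finrank_range_add_finrank_ker Φ
    rw [hsurj, finrank_top, Module.finrank_prod, Module.finrank_self, finrank_fin_fun] at h2
    change finrank F (LinearMap.ker Φ) = 1
    omega
  obtain ⟨⟨u, hu⟩, hu0, huall⟩ := finrank_eq_one_iff'.1 h1
  have hu0' : u ≠ 0 := fun h0 => hu0 (Subtype.ext h0)
  have hspan : ∀ z ∈ perpTwo q y z₀, ∃ β : F, z = β • u := fun z hz => by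
    obtain ⟨β, hβ⟩ := huall ⟨z, hz⟩
    exact ⟨β, (congrArg Subtype.val hβ).symm⟩
  obtain ⟨w, hw, hwu⟩ := nondeg_perpTwo hF hp hu hu0'
  have huu : herm q u u ≠ 0 := fun h0 => by
    obtain ⟨β, rfl⟩ := hspan w hw
    exact hwu (by rw [herm_smul_left, h0, mul_zero])
  have hu' := mem_perpTwo.1 hu
  refine ⟨u, hu'.1, huu, fun z hz => ?_⟩
  obtain ⟨β, hβ⟩ := hspan (z - herm q z z₀ • y) (mem_perpTwo.2
    ⟨by simp [herm_sub_left, herm_smul_left, hz, hy],
      by simp [herm_sub_left, herm_smul_left, hyz]⟩)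
  exact ⟨herm q z z₀, β, by rw [← hβ]; abel⟩

/-- Orthogonal to an isotropic vector: proportional or anisotropic. -/
lemma perp_iso_cases {y z : Fin 3 → F} (hy0 : y ≠ 0) (hy : herm q y y = 0)
    (hz : herm q z y = 0) : (∃ γ : F, z = γ • y) ∨ herm q z z ≠ 0 := by
  obtain ⟨u, huy, huu, hall⟩ := iso_perp hF hy0 hy
  obtain ⟨α, β, rfl⟩ := hall z hz
  rcases eq_or_ne β 0 with rfl | hβ
  · exact Or.inl ⟨α, by simp⟩
  refine Or.inr ?_
  simp [herm_add_left, hF.herm_add_right, herm_smul_left, herm_smul_right, hy, huy,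
    herm_eq_zero_symm hF huy, hβ, huu, hF.q_ne_zero]

/-- No two orthogonal anisotropic vectors are orthogonal to an isotropic one. -/
lemma perp_iso_false {y z w : Fin 3 → F} (hy0 : y ≠ 0) (hy : herm q y y = 0)
    (hz : herm q z y = 0) (hw : herm q w y = 0) (hzw : herm q z w = 0) (hzz : herm q z z ≠ 0)
    (hww : herm q w w ≠ 0) : False := by
  obtain ⟨u, huy, huu, hall⟩ := iso_perp hF hy0 hy
  obtain ⟨α, β, rfl⟩ := hall z hz
  obtain ⟨α', β', rfl⟩ := hall w hw
  simp [herm_add_left, hF.herm_add_right, herm_smul_left, herm_smul_right, hy, huy,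
    herm_eq_zero_symm hF huy, huu, hF.q_ne_zero] at hzw hzz hww
  tauto

variable {e f : Fin 2 → F} (hp : IsUPair q e f)
  {G : Subgroup (Matrix (Fin a) (Fin 2) F ≃ₗ[F] Matrix (Fin a) (Fin 2) F)}
  (hG : UFactors q G)
include hp hG

/-- Moving a line to the line at `e` in coordinates. -/
lemma con_moved {v : Fin 2 → F} {n : Matrix (Fin a) (Fin 2) F ≃ₗ[F] Matrix (Fin a) (Fin 2) F}
    (hn : n ∈ G) {φ : (Fin 2 → F) →ₗ[F] (Fin 2 → F)}
    (hφ : ∀ w (x : Fin a → F), n (colMap w x) = colMap (φ w) x) {μ : F} (hμ : μ ≠ 0)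
    (hv : φ v = μ • e) (X : Matrix (Fin a) (Fin 2) F) :
    con q e (n X) = 0 ↔ con q v X = 0 := by
  have hkey : ∀ x, μ * herm q x (con q e (n X)) = herm q x (con q v X) := fun x => by
    rw [← bf_colMap_left v x X hF, ← hG.iso n hn (colMap v x) X, hφ, hv, colMap_smul_right,
      bf_smul_left, bf_colMap_left _ _ _ hF]
  constructor
  · intro h
    refine hF.eq_zero_of_herm _ fun x => herm_eq_zero_symm hF ?_
    rw [← hkey, h, hF.herm_zero_right, mul_zero]
  · intro h
    refine hF.eq_zero_of_herm _ fun x => herm_eq_zero_symm hF ?_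
    have h1 := hkey x
    rw [h, hF.herm_zero_right] at h1
    exact (mul_eq_zero.1 h1).resolve_left hμ

/-- The matrices orthogonal to a line lie in it. -/
lemma mem_line_of_con_zero {v : Fin 2 → F} (hv0 : v ≠ 0) (hv : herm q v v = 0)
    {X : Matrix (Fin a) (Fin 2) F} (hX : con q v X = 0) : ∃ y, X = colMap v y := by
  obtain ⟨n, hn, φ, ψ, hφ, -, μ, hμ, hv'⟩ := exists_to_e hF hp hG hv0 hv
  have h1 := (con_moved hF hp hG hn hφ hμ hv' X).2 hX
  refine ⟨μ⁻¹ • con q f (n X), n.injective ?_⟩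
  rw [hφ, hv', colMap_smul_right, map_smul, smul_smul, mul_inv_cancel₀ hμ, one_smul]
  conv_lhs => rw [← decomp hF hp (n X), h1, map_zero, add_zero]

/-- An image opposite to some line is a line. -/
lemma isTens_of_opp_line (hno : OnlyScalarUp q G e f) (hq : 3 ≤ q) (ha : a = 3)
    {h : Matrix (Fin a) (Fin 2) F ≃ₗ[F] Matrix (Fin a) (Fin 2) F} (hh : h ∈ G)
    {v : Fin 2 → F} (hv0 : v ≠ 0) (hv : herm q v v = 0)
    (hopp : ∀ y, con q v (h (colMap e y)) = 0 → y = 0) : IsTens h := by
  obtain ⟨n, hn, φ, ψ, hφ, hψ, μ, hμ, hv'⟩ := exists_to_e hF hp hG hv0 hv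
  have ht := isTens_of_opp hF hp hG hno hq ha (mul_mem hn hh)
    ((injective_iff_map_eq_zero _).2 fun y hy =>
      hopp y ((con_moved hF hp hG hn hφ hμ hv' _).1 hy))
  have := IsTens.right_mul hF hp (n := n⁻¹) hψ ht
  rwa [inv_mul_cancel_left] at this

/-- An image meeting the line at `e` in a plane is a line. -/
lemma isTens_of_big (hno : OnlyScalarUp q G e f) (hq : 3 ≤ q) (ha : a = 3)
    {h : Matrix (Fin a) (Fin 2) F ≃ₗ[F] Matrix (Fin a) (Fin 2) F} (hh : h ∈ G)
    {a₀ : Fin a → F} (hA : ∀ x, ∃ k : F, con q e (h (colMap e x)) = k • a₀) : IsTens h := by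
  classical
  haveI : Finite F := hF.1
  by_cases hA0 : ∀ x, con q e (h (colMap e x)) = 0
  · exact isTens_of_fixE hF hp hG hno (by omega) hh hA0
  push Not at hA0
  obtain ⟨x₁, hx₁⟩ := hA0
  have ha₀ : a₀ ≠ 0 := fun h0 => by
    obtain ⟨k, hk⟩ := hA x₁
    exact hx₁ (by rw [hk, h0, smul_zero])
  set A : Module.End F (Fin a → F) := con q e ∘ₗ h.toLinearMap ∘ₗ colMap e with hAdef
  set B : Module.End F (Fin a → F) := con q f ∘ₗ h.toLinearMap ∘ₗ colMap e with hBdef
  set T : Matrix (Fin a) (Fin 2) F →ₗ[F] (Fin a → F) :=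
    con q e ∘ₗ (h⁻¹ : Matrix (Fin a) (Fin 2) F ≃ₗ[F] Matrix (Fin a) (Fin 2) F).toLinearMap
  set T₁ : Module.End F (Fin a → F) := T ∘ₗ colMap e with hT₁
  set T₂ : Module.End F (Fin a → F) := T ∘ₗ colMap f with hT₂
  have hT₁x : ∀ x w, herm q x (T₁ w) = herm q (A x) w := fun x w => by
    show herm q x (con q e (h⁻¹ (colMap e w))) = _
    rw [← bf_colMap_left e x _ hF, ← hG.iso h hh (colMap e x) (h⁻¹ (colMap e w)), self_inv_apply,
      ← bf_symm hF (colMap e w) (h (colMap e x)), bf_colMap_left _ _ _ hF, hF.herm_symm]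
    rfl
  obtain ⟨w₁, hw₁⟩ : ∃ w, herm q w a₀ ≠ 0 := by
    by_contra hc
    push Not at hc
    exact ha₀ (hF.eq_zero_of_herm a₀ fun w => herm_eq_zero_symm hF (hc w))
  set w₀ := (herm q w₁ a₀)⁻¹ • w₁ with hw₀
  have hw₀a : herm q w₀ a₀ = 1 := by rw [hw₀, herm_smul_left, inv_mul_cancel₀ hw₁]
  have hperp : ∀ w, herm q w a₀ = 0 → T₁ w = 0 := fun w hw =>
    hF.eq_zero_of_herm _ fun x => herm_eq_zero_symm hF (by
      obtain ⟨k, hk⟩ := hA x
      rw [hT₁x, show A x = k • a₀ from hk, herm_smul_left, herm_eq_zero_symm hF hw, mul_zero])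
  set p := T₁ w₀ with hp'
  have hT₁w : ∀ w, T₁ w = herm q w a₀ • p := fun w => by
    have h1 := hperp (w - herm q w a₀ • w₀) (by
      rw [herm_sub_left, herm_smul_left, hw₀a, mul_one, sub_self])
    rwa [map_sub, map_smul, sub_eq_zero] at h1
  -- the conjugates of the scalar root elements
  have hx : ∀ c : F, c ^ q = -c → ∃ x ∈ G, ∀ X, x X = X + c • h (colMap e (T X)) := fun c hc => by
    obtain ⟨g, hg, hgx⟩ := blk_up_scalar hF hp hG (G := G) hc
    refine ⟨h * g * h⁻¹, mul_mem (mul_mem hh hg) (inv_mem hh), fun X => ?_⟩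
    have hgY : g (h⁻¹ X) = h⁻¹ X + c • colMap e (T X) := pair_ext hF hp
      (by rw [(hgx _).1, map_add, map_smul, con_colMap, hp.2.2]; simp [T])
      (by rw [(hgx _).2, map_add, map_smul, con_colMap, hp.1]; simp)
    rw [LinearEquiv.mul_apply, LinearEquiv.mul_apply, hgY, map_add, map_smul, self_inv_apply]
  obtain ⟨δ, hδ0, hδ⟩ := hF.exists_skew
  obtain ⟨r, hr, hr0, hr1⟩ := exists_fix_ne hF hq
  have hrδ : (r * δ) ^ q = -(r * δ) := by rw [mul_pow, hr, hδ, mul_neg]
  by_cases hAp : A p = 0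
  · -- all of them fix the line
    have hAT : A * T₁ = 0 := LinearMap.ext fun w => by
      rw [Module.End.mul_apply, hT₁w, map_smul, hAp, smul_zero]; rfl
    have hrel : ∀ c : F, c ^ q = -c → c ≠ 0 → ∃ k b : F,
        1 + c • (B * T₁) = k • (1 + c • (A * T₂)) ∧ c • (B * T₂) = b • (1 + c • (A * T₂)) := by
      intro c hc _
      obtain ⟨x, hxG, hxX⟩ := hx c hc
      have hb00 : blocks q e f x 0 0 = 1 + c • (B * T₁) := LinearMap.ext fun w => by
        show con q f (x (colMap e w)) = _
        rw [hxX, map_add, map_smul, con_colMap, hp.2.2, one_smul]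
        rfl
      have hb01 : blocks q e f x 0 1 = c • (B * T₂) := LinearMap.ext fun w => by
        show con q f (x (colMap f w)) = _
        rw [hxX, map_add, map_smul, con_colMap, hp.2.1, zero_smul, zero_add]
        rfl
      have hb11 : blocks q e f x 1 1 = 1 + c • (A * T₂) := LinearMap.ext fun w => by
        show con q e (x (colMap f w)) = _
        rw [hxX, map_add, map_smul, con_colMap, IsUPair.swap_val hF hp, one_smul]
        rfl
      have hb10 : blocks q e f x 1 0 = 0 := LinearMap.ext fun w => by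
        show con q e (x (colMap e w)) = _
        rw [hxX, map_add, map_smul, con_colMap, hp.1, zero_smul, zero_add]
        show c • (A * T₁) w = _
        rw [hAT]; simp
      obtain ⟨k, b, -, -, e00, e01, -⟩ := fixE hF hp hG hno (by omega) (M := blocks q e f x)
        (blk_of hF hp hxG) hb10
      exact ⟨k, b, by rw [← hb00, ← hb11]; exact e00, by rw [← hb01, ← hb11]; exact e01⟩
    obtain ⟨k₁, b₁, eP₁, eQ₁⟩ := hrel δ hδ hδ0
    obtain ⟨k₂, b₂, eP₂, eQ₂⟩ := hrel (r * δ) hrδ (mul_ne_zero hr0 hδ0)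
    haveI : Nontrivial (Fin a → F) := ⟨⟨a₀, 0, ha₀⟩⟩
    have hTE : ∀ x, T (h (colMap e x)) = 0 := fun x => by
      show con q e (h⁻¹ (h (colMap e x))) = 0
      rw [inv_apply_self, con_colMap, hp.1, zero_smul]
    have hTsurj : ∀ y, ∃ X, T X = y := fun y => ⟨h (colMap f y), by
      show con q e (h⁻¹ (h (colMap f y))) = y
      rw [inv_apply_self, con_colMap, IsUPair.swap_val hF hp, one_smul]⟩
    have hTdec : ∀ X, T X = T₁ (con q f X) + T₂ (con q e X) := fun X => by
      conv_lhs => rw [← decomp hF hp X]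
      rw [map_add]
      rfl
    exfalso
    by_cases hR : ∃ ρ : F, A * T₂ = ρ • 1
    · obtain ⟨ρ, hρ⟩ := hR
      have hπ : B * T₁ = ((k₁ - 1) / δ + k₁ * ρ) • 1 := LinearMap.ext fun w => by
        have h1 := LinearMap.congr_fun eP₁ w
        simp only [hρ, LinearMap.add_apply, LinearMap.smul_apply, Module.End.one_apply] at h1 ⊢
        have h2 : δ • (B * T₁) w = ((k₁ - 1) + δ * (k₁ * ρ)) • w := by
          linear_combination (norm := module) h1
        rw [← inv_smul_smul₀ hδ0 ((B * T₁) w), h2, smul_smul]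
        congr 1
        field_simp
      set π := (k₁ - 1) / δ + k₁ * ρ
      have hρ0 : ρ = 0 := by
        obtain ⟨w, hw⟩ := exists_ne (0 : Fin a → F)
        have h1 : A (T (h (colMap e (T₂ w)))) = 0 := by rw [hTE, map_zero]
        rw [hTdec] at h1
        change A (T₁ (B (T₂ w)) + T₂ (A (T₂ w))) = 0 at h1
        rw [map_add, ← Module.End.mul_apply A T₁, hAT, LinearMap.zero_apply, zero_add,
          ← Module.End.mul_apply A T₂ w, ← Module.End.mul_apply A T₂ ((A * T₂) w), hρ] at h1
        simpa [hw] using h1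
      have hπ0 : π = 0 := by
        obtain ⟨w, hw⟩ := exists_ne (0 : Fin a → F)
        have h1 : B (T (h (colMap e (T₁ w)))) = 0 := by rw [hTE, map_zero]
        rw [hTdec] at h1
        change B (T₁ (B (T₁ w)) + T₂ (A (T₁ w))) = 0 at h1
        rw [← Module.End.mul_apply A T₁ w, hAT, LinearMap.zero_apply, map_zero, add_zero,
          ← Module.End.mul_apply B T₁ w, ← Module.End.mul_apply B T₁ ((B * T₁) w), hπ] at h1
        simpa [hw] using h1
      refine hx₁ ?_
      obtain ⟨X, hX⟩ := hTsurj x₁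
      show A x₁ = 0
      rw [← hX, hTdec, map_add, ← Module.End.mul_apply A T₁, hAT, LinearMap.zero_apply, zero_add,
        ← Module.End.mul_apply A T₂, hρ, hρ0, zero_smul, LinearMap.zero_apply]
    push Not at hR
    have hP : ∀ c k : F, c ≠ 0 → 1 + c • (B * T₁) = k • (1 + c • (A * T₂)) →
        B * T₁ = k • (A * T₂) + ((k - 1) / c) • 1 := fun c k hc heq => LinearMap.ext fun w => by
      have h1 := LinearMap.congr_fun heq w
      simp only [LinearMap.add_apply, LinearMap.smul_apply, Module.End.one_apply] at h1 ⊢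
      have h2 : c • (B * T₁) w = (k * c) • (A * T₂) w + (k - 1) • w := by
        linear_combination (norm := module) h1
      rw [← inv_smul_smul₀ hc ((B * T₁) w), h2, smul_add, smul_smul, smul_smul]
      congr 2 <;> field_simp
    have hQ : ∀ c b : F, c ≠ 0 → c • (B * T₂) = b • (1 + c • (A * T₂)) →
        B * T₂ = b • (A * T₂) + (b / c) • 1 := fun c b hc heq => LinearMap.ext fun w => by
      have h1 := LinearMap.congr_fun heq w
      simp only [LinearMap.add_apply, LinearMap.smul_apply, Module.End.one_apply] at h1 ⊢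
      rw [← inv_smul_smul₀ hc ((B * T₂) w), h1, smul_add, smul_add, smul_smul, smul_smul,
        smul_smul, add_comm]
      congr 2 <;> field_simp
    obtain ⟨ek, ek'⟩ := lin_indep_one hR
      ((hP δ k₁ hδ0 eP₁).symm.trans (hP (r * δ) k₂ (mul_ne_zero hr0 hδ0) eP₂))
    obtain ⟨eb, eb'⟩ := lin_indep_one hR
      ((hQ δ b₁ hδ0 eQ₁).symm.trans (hQ (r * δ) b₂ (mul_ne_zero hr0 hδ0) eQ₂))
    have hk1 : k₁ = 1 := by
      rw [← ek] at ek'
      field_simp at ek'
      have h1 : (r - 1) * (k₁ - 1) = 0 := by linear_combination ek'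
      exact sub_eq_zero.1 ((mul_eq_zero.1 h1).resolve_left (sub_ne_zero.2 hr1))
    have hb1 : b₁ = 0 := by
      rw [← eb] at eb'
      field_simp at eb'
      have h1 : (r - 1) * b₁ = 0 := by linear_combination eb'
      exact (mul_eq_zero.1 h1).resolve_left (sub_ne_zero.2 hr1)
    set R := A * T₂ with hRdef
    have hBT₁ : B * T₁ = R := by rw [hP δ k₁ hδ0 eP₁, hk1]; simp
    have hBT₂ : B * T₂ = 0 := by rw [hQ δ b₁ hδ0 eQ₁, hb1]; simp
    -- the image is a product
    set U := LinearMap.range (h.toLinearMap ∘ₗ colMap e) with hU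
    have hUdim : finrank F U = a := by
      have he0 : e ≠ 0 := fun h0 => by
        have := hp.2.2
        rw [h0, herm_zero_left] at this
        exact zero_ne_one this
      rw [hU, LinearMap.finrank_range_of_inj, finrank_fin_fun]
      exact fun x y hxy => colMap_injective he0 (h.injective hxy)
    let j : (LinearMap.range R × LinearMap.range R) →ₗ[F] Matrix (Fin a) (Fin 2) F :=
      colMap e ∘ₗ (LinearMap.range R).subtype ∘ₗ LinearMap.fst F _ _ +
        colMap f ∘ₗ (LinearMap.range R).subtype ∘ₗ LinearMap.snd F _ _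
    have hj : Function.Injective j := fun x y hxy => by
      have h1 := congrArg (con q f) hxy
      have h2 := congrArg (con q e) hxy
      simp only [j, LinearMap.add_apply, LinearMap.comp_apply, LinearMap.fst_apply,
        LinearMap.snd_apply, Submodule.subtype_apply] at h1 h2
      rw [(con_pair hF hp _ _).1, (con_pair hF hp _ _).1] at h1
      rw [(con_pair hF hp _ _).2, (con_pair hF hp _ _).2] at h2
      exact Prod.ext (Subtype.ext h1) (Subtype.ext h2)
    have hval : ∀ X, h (colMap e (T X)) =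
        colMap e (R (con q f X)) + colMap f (R (con q e X)) := fun X => by
      refine pair_ext hF hp ?_ ?_
      · rw [(con_pair hF hp _ _).1]
        show B (T X) = _
        rw [hTdec, map_add, ← Module.End.mul_apply B T₁, ← Module.End.mul_apply B T₂, hBT₁, hBT₂,
          LinearMap.zero_apply, add_zero]
      · rw [(con_pair hF hp _ _).2]
        show A (T X) = _
        rw [hTdec, map_add, ← Module.End.mul_apply A T₁, ← Module.End.mul_apply A T₂, hAT,
          LinearMap.zero_apply, zero_add]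
    have hrange : LinearMap.range j = U := by
      refine le_antisymm ?_ ?_
      · rintro _ ⟨⟨⟨_, x, rfl⟩, ⟨_, y, rfl⟩⟩, rfl⟩
        refine ⟨T (colMap e x + colMap f y), ?_⟩
        show h (colMap e (T _)) = _
        rw [hval, (con_pair hF hp _ _).1, (con_pair hF hp _ _).2]
        rfl
      · rintro _ ⟨x, rfl⟩
        obtain ⟨X, rfl⟩ := hTsurj x
        exact ⟨⟨⟨_, con q f X, rfl⟩, ⟨_, con q e X, rfl⟩⟩, (hval X).symm⟩
    have h2 := LinearMap.finrank_range_of_inj hj
    rw [hrange, hUdim, Module.finrank_prod] at h2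
    omega
  -- one of them moves the line onto an opposite one
  obtain ⟨c, hc, hc0, hc1⟩ : ∃ c : F, c ^ q = -c ∧ c ≠ 0 ∧ 1 + c * herm q (B p) a₀ ≠ 0 := by
    by_cases h1 : 1 + δ * herm q (B p) a₀ = 0
    · refine ⟨r * δ, hrδ, mul_ne_zero hr0 hδ0, fun h2 => hr1 ?_⟩
      linear_combination r * h1 - h2
    · exact ⟨δ, hδ, hδ0, h1⟩
  obtain ⟨x, hxG, hxX⟩ := hx c hc
  have hxe : ∀ w, con q f (x (colMap e w)) = w + (c * herm q w a₀) • B p ∧
      con q e (x (colMap e w)) = (c * herm q w a₀) • A p := fun w => by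
    have hTw : T (colMap e w) = herm q w a₀ • p := hT₁w w
    rw [hxX, map_add, map_add, map_smul, map_smul, hTw, con_colMap, con_colMap, hp.1, hp.2.2,
      one_smul, zero_smul, zero_add]
    change w + c • B (herm q w a₀ • p) = _ ∧ c • A (herm q w a₀ • p) = _
    rw [map_smul, map_smul, smul_smul, smul_smul]
    exact ⟨rfl, rfl⟩
  have hf0 : f ≠ 0 := fun h0 => by
    have := IsUPair.swap_val hF hp
    rw [h0, herm_zero_left] at this
    exact zero_ne_one this
  have ht := isTens_of_opp_line hF hp hG hno hq ha hxG hf0 hp.2.1 fun w hw => by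
    rw [(hxe w).1] at hw
    have h1 := congrArg (fun z => herm q z a₀) hw
    simp only [herm_add_left, herm_smul_left, herm_zero_left] at h1
    have h2 : herm q w a₀ * (1 + c * herm q (B p) a₀) = 0 := by linear_combination h1
    rw [(mul_eq_zero.1 h2).resolve_right hc1, mul_zero, zero_smul, add_zero] at hw
    exact hw
  exfalso
  obtain ⟨β, ⟨hβ, -⟩, hk⟩ := ht
  obtain ⟨k, hk⟩ := hk e
  obtain ⟨w, hw, hw0⟩ : ∃ w, herm q w a₀ = 0 ∧ w ≠ 0 := by
    have h2 := LinearMap.finrank_range_add_finrank_ker (dualF q a₀)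
    have h3 := (LinearMap.range (dualF q a₀)).finrank_le
    rw [finrank_fin_fun] at h2
    rw [Module.finrank_self] at h3
    have hne : LinearMap.ker (dualF q a₀) ≠ ⊥ := fun h0 => by
      rw [h0, finrank_bot] at h2
      omega
    obtain ⟨w, hw, hw0⟩ := Submodule.exists_mem_ne_zero_of_ne_bot hne
    exact ⟨w, hw, hw0⟩
  have h1 := (hxe w).2
  rw [hk, con_colMap, hw, mul_zero, zero_smul, smul_eq_zero] at h1
  have hke : herm q k e = 0 := h1.resolve_right fun h0 => hw0 (hβ (h0.trans (map_zero β).symm))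
  have h3 := (hxe w₀).2
  rw [hk, con_colMap, hke, zero_smul, hw₀a, mul_one, eq_comm, smul_eq_zero] at h3
  exact hAp (h3.resolve_left hc0)

/-- Every element is a tensor product. -/
theorem isTens_two (hno : OnlyScalarUp q G e f) (hq : 3 ≤ q) (ha : a = 3)
    {h : Matrix (Fin a) (Fin 2) F ≃ₗ[F] Matrix (Fin a) (Fin 2) F} (hh : h ∈ G) : IsTens h := by
  classical
  subst ha
  haveI : Finite F := hF.1
  by_cases hopp : ∃ v : Fin 2 → F, v ≠ 0 ∧ herm q v v = 0 ∧
      ∀ y, con q v (h (colMap e y)) = 0 → y = 0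
  · obtain ⟨v, hv0, hv, hy⟩ := hopp
    exact isTens_of_opp_line hF hp hG hno hq rfl hh hv0 hv hy
  push Not at hopp
  set U := LinearMap.range (h.toLinearMap ∘ₗ colMap e) with hU
  have hUdim : finrank F U = 3 := by
    have he0 : e ≠ 0 := fun h0 => by
      have := hp.2.2
      rw [h0, herm_zero_left] at this
      exact zero_ne_one this
    rw [hU, LinearMap.finrank_range_of_inj, finrank_fin_fun]
    exact fun x y hxy => colMap_injective he0 (h.injective hxy)
  have hUts : ∀ M ∈ U, ∀ M' ∈ U, bf q M M' = 0 := by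
    rintro _ ⟨x, rfl⟩ _ ⟨y, rfl⟩
    show bf q (h (colMap e x)) (h (colMap e y)) = 0
    rw [hG.iso h hh, bf_colMap_colMap hF, hp.1, mul_zero]
  have horth : ∀ {v v' : Fin 2 → F} {y y' : Fin 3 → F}, herm q v v' ≠ 0 → colMap v y ∈ U →
      colMap v' y' ∈ U → herm q y y' = 0 := fun {v v' y y'} hvv hy hy' => by
    have h1 := hUts _ hy _ hy'
    rw [bf_colMap_colMap hF] at h1
    exact (mul_eq_zero.1 h1).resolve_right hvv
  have hmeet : ∀ v : Fin 2 → F, v ≠ 0 → herm q v v = 0 → ∃ y, y ≠ 0 ∧ colMap v y ∈ U := by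
    intro v hv0 hv
    obtain ⟨x, hx, hx0⟩ := hopp v hv0 hv
    obtain ⟨y, hy⟩ := mem_line_of_con_zero hF hp hG hv0 hv hx
    refine ⟨y, fun h0 => hx0 ?_, ⟨x, hy⟩⟩
    rw [h0, map_zero] at hy
    have he0 : e ≠ 0 := fun h0' => by
      have := hp.2.2
      rw [h0', herm_zero_left] at this
      exact zero_ne_one this
    exact colMap_injective he0 ((h.injective (hy.trans (map_zero h).symm)).trans (map_zero _).symm)
  -- a line met in a plane
  suffices hbig : ∃ v : Fin 2 → F, v ≠ 0 ∧ herm q v v = 0 ∧ ∃ y y' : Fin 3 → F,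
      LinearIndependent F ![y, y'] ∧ colMap v y ∈ U ∧ colMap v y' ∈ U by
    obtain ⟨v, hv0, hv, y, y', hli, ⟨x, hx⟩, ⟨x', hx'⟩⟩ := hbig
    obtain ⟨n, hn, φ, ψ, hφ, hψ, μ, hμ, hv'⟩ := exists_to_e hF hp hG hv0 hv
    set A : Module.End F (Fin 3 → F) := con q e ∘ₗ (n * h).toLinearMap ∘ₗ colMap e with hA
    have hker : ∀ (z : Fin 3 → F) (w : Fin 3 → F),
        h (colMap e z) = colMap v w → A z = 0 := fun z w hz => by
      show con q e ((n * h) (colMap e z)) = 0
      rw [LinearEquiv.mul_apply, hz, hφ, hv', con_colMap, herm_smul_left, hp.1, mul_zero,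
        zero_smul]
    have hli' : LinearIndependent F ![(⟨x, hker x y hx⟩ : LinearMap.ker A), ⟨x', hker x' y' hx'⟩] := by
      refine LinearIndependent.pair_iff.2 fun s t hst => ?_
      have h1 := congrArg Subtype.val hst
      simp only [Submodule.coe_add, Submodule.coe_smul, ZeroMemClass.coe_zero] at h1
      have h2 : colMap v (s • y + t • y') = 0 := by
        rw [map_add, map_smul, map_smul, ← hx, ← hx']
        show s • h (colMap e x) + t • h (colMap e x') = 0
        simp only [← map_smul, ← map_add, h1, map_zero]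
      exact LinearIndependent.pair_iff.1 hli s t (eq_zero_of_colMap hv0 h2)
    have h2 := hli'.fintype_card_le_finrank
    have h3 := LinearMap.finrank_range_add_finrank_ker A
    rw [Fintype.card_fin] at h2
    rw [finrank_fin_fun] at h3
    obtain ⟨⟨a₀, ha₀⟩, hgen⟩ := finrank_le_one_iff.1
      (show finrank F (LinearMap.range A) ≤ 1 by omega)
    have ht := isTens_of_big hF hp hG hno hq rfl (mul_mem hn hh) (a₀ := a₀) fun z => by
      obtain ⟨k, hk⟩ := hgen ⟨A z, z, rfl⟩
      exact ⟨k, (congrArg Subtype.val hk).symm⟩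
    have := IsTens.right_mul hF hp (n := n⁻¹) hψ ht
    rwa [inv_mul_cancel_left] at this
  by_contra hsmall
  push Not at hsmall
  have hone : ∀ {v : Fin 2 → F} {y y' : Fin 3 → F}, v ≠ 0 → herm q v v = 0 → y ≠ 0 →
      colMap v y ∈ U → colMap v y' ∈ U → ∃ γ : F, y' = γ • y := fun {v y y'} hv0 hv hy0 hy hy' => by
    by_contra hne
    push Not at hne
    exact hsmall v hv0 hv y y' ((LinearIndependent.pair_iff' hy0).2 fun γ h => hne γ h.symm) hy hy'
  -- four lines
  have hfe := IsUPair.swap_val hF hp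
  obtain ⟨δ, hδ0, hδ⟩ := hF.exists_skew
  obtain ⟨r, hr, hr0, hr1⟩ := exists_fix_ne hF hq
  have hrδ : (r * δ) ^ q = -(r * δ) := by rw [mul_pow, hr, hδ, mul_neg]
  let vs : Fin 4 → Fin 2 → F := ![e, f, δ • e + f, (r * δ) • e + f]
  have hiso : ∀ i, herm q (vs i) (vs i) = 0 := fun i => by
    fin_cases i <;>
      simp [vs, hp.1, hp.2.1, herm_add_left, hF.herm_add_right, herm_smul_left, herm_smul_right,
        hp.2.2, hfe, hδ, hrδ]
  have hnp : ∀ i j, i ≠ j → herm q (vs i) (vs j) ≠ 0 := fun i j hij => by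
    fin_cases i <;> fin_cases j <;>
      simp [vs, hp.1, hp.2.1, herm_add_left, hF.herm_add_right, herm_smul_left, herm_smul_right,
        hp.2.2, hfe, hδ, hrδ, hδ0, hr0, hF.q_ne_zero] at hij ⊢
    all_goals
      intro h0
      apply hr1
      have h1 : δ * (r - 1) = 0 := by first | linear_combination h0 | linear_combination -h0
      exact sub_eq_zero.1 ((mul_eq_zero.1 h1).resolve_left hδ0)
  have hv0 : ∀ i, vs i ≠ 0 := fun i h0 => by
    obtain ⟨j, hj⟩ := exists_ne i
    exact hnp i j hj.symm (by rw [h0, herm_zero_left])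
  choose ys hys0 hys using fun i => hmeet (vs i) (hv0 i) (hiso i)
  have hperp : ∀ i j, i ≠ j → herm q (ys i) (ys j) = 0 := fun i j hij =>
    horth (hnp i j hij) (hys i) (hys j)
  obtain ⟨i, hi⟩ : ∃ i, herm q (ys i) (ys i) = 0 := by
    by_contra hc
    push Not at hc
    have hli : LinearIndependent F ys := Fintype.linearIndependent_iff.2 fun g hg j => by
      have h1 := congrArg (fun z => herm q z (ys j)) hg
      simp only [herm_zero_left] at h1
      rw [show herm q (∑ i, g i • ys i) (ys j) = dualF q (ys j) (∑ i, g i • ys i) from rfl,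
        map_sum, Finset.sum_eq_single j (fun l _ hl => by
          rw [map_smul, dualF_apply, hperp l j hl, smul_zero]) (by simp),
        map_smul, dualF_apply, smul_eq_mul] at h1
      exact (mul_eq_zero.1 h1).resolve_right (hc j)
    have := hli.fintype_card_le_finrank
    simp at this
  obtain ⟨j, hji, γ, hγ⟩ : ∃ j, j ≠ i ∧ ∃ γ : F, ys j = γ • ys i := by
    by_contra hc
    push Not at hc
    have han : ∀ j, j ≠ i → herm q (ys j) (ys j) ≠ 0 := fun j hj =>
      (perp_iso_cases hF (hys0 i) hi (hperp j i hj)).resolve_left fun ⟨γ, hγ⟩ => hc j hj γ hγ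
    have h4 : ∀ i : Fin 4, ∃ j l : Fin 4, j ≠ i ∧ l ≠ i ∧ j ≠ l := by decide
    obtain ⟨j, l, hj, hl, hjl⟩ := h4 i
    exact perp_iso_false hF (hys0 i) hi (hperp j i hj) (hperp l i hl) (hperp j l hjl) (han j hj)
      (han l hl)
  set y := ys i with hy
  have hγ0 : γ ≠ 0 := fun h0 => hys0 j (by rw [hγ, h0, zero_smul])
  have hyj : colMap (vs j) y ∈ U := by
    have h1 := U.smul_mem γ⁻¹ (hys j)
    rwa [← map_smul, hγ, smul_smul, inv_mul_cancel₀ hγ0, one_smul] at h1
  -- the whole of `y ⊗ F²`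
  have hall : ∀ w, colMap w y ∈ U := fun w => by
    have hne := hnp i j hji.symm
    have hne' : herm q (vs j) (vs i) ≠ 0 := hnp j i hji
    have hexp : w = (herm q w (vs j) / herm q (vs i) (vs j)) • vs i
        + (herm q w (vs i) / herm q (vs j) (vs i)) • vs j := by
      set d := w - ((herm q w (vs j) / herm q (vs i) (vs j)) • vs i
        + (herm q w (vs i) / herm q (vs j) (vs i)) • vs j) with hd
      have h1 : herm q d (vs i) = 0 ∧ herm q d (vs j) = 0 := by
        constructor <;>
          simp [hd, herm_sub_left, herm_add_left, herm_smul_left, hiso, div_mul_cancel₀, hne, hne']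
      let Φ : (Fin 2 → F) →ₗ[F] (Fin 2 → F) := LinearMap.pi ![dualF q (vs j), dualF q (vs i)]
      have hΦ : ∀ u, Φ u = ![herm q u (vs j), herm q u (vs i)] := fun u => by
        ext l; fin_cases l <;> rfl
      have hsurj : Function.Surjective Φ := fun z =>
        ⟨(z 0 / herm q (vs i) (vs j)) • vs i + (z 1 / herm q (vs j) (vs i)) • vs j, by
          rw [hΦ]
          ext l
          fin_cases l <;>
            simp [herm_add_left, herm_smul_left, hiso, div_mul_cancel₀, hne, hne']⟩
      refine sub_eq_zero.1 (LinearMap.injective_iff_surjective.2 hsurj ?_)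
      rw [map_zero]
      show Φ d = 0
      rw [hΦ, h1.1, h1.2]
      ext l; fin_cases l <;> rfl
    rw [hexp, colMap_add_right, colMap_smul_right, colMap_smul_right]
    exact add_mem (U.smul_mem _ (hys i)) (U.smul_mem _ hyj)
  -- outside it
  let J : Submodule F (Matrix (Fin 3) (Fin 2) F) :=
    Submodule.span F {colMap e y, colMap f y}
  have hJ : ¬ U ≤ J := fun hle => by
    have h1 := Submodule.finrank_mono hle
    have h2 : finrank F J ≤ 2 := by
      refine le_trans (finrank_span_le_card _) ?_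
      simp only [Set.toFinset_insert, Set.toFinset_singleton]
      exact Finset.card_le_two
    omega
  obtain ⟨M, hM, hMJ⟩ := SetLike.not_le_iff_exists.1 hJ
  set x₁ := con q f M with hx₁
  set z₁ := con q e M with hz₁
  have hMe : M = colMap e x₁ + colMap f z₁ := (decomp hF hp M).symm
  have hx₁y : herm q x₁ y = 0 ∧ herm q z₁ y = 0 := by
    have h1 := hUts M hM _ (hall f)
    have h2 := hUts M hM _ (hall e)
    rw [hMe, bf_add_left, bf_colMap_colMap hF, bf_colMap_colMap hF, hp.2.1, hp.2.2, mul_zero,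
      add_zero, mul_one] at h1
    rw [hMe, bf_add_left, bf_colMap_colMap hF, bf_colMap_colMap hF, hp.1, hfe, mul_zero,
      zero_add, mul_one] at h2
    exact ⟨h1, h2⟩
  have hedist : e ≠ 0 ∧ f ≠ 0 := ⟨hv0 0, hv0 1⟩
  have hnotprop : ¬ ∃ α : F, x₁ = α • y := by
    rintro ⟨α, hα⟩
    have h1 : colMap f z₁ ∈ U := by
      have h2 : M - α • colMap e y ∈ U := sub_mem hM (U.smul_mem _ (hall e))
      rwa [hMe, hα, map_smul, add_sub_cancel_left] at h2
    obtain ⟨β, hβ⟩ := hone hedist.2 hp.2.1 (hys0 i) (hall f) h1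
    refine hMJ ?_
    rw [hMe, hα, hβ, map_smul, map_smul]
    exact add_mem (Submodule.smul_mem _ _ (Submodule.subset_span (by simp [hy])))
      (Submodule.smul_mem _ _ (Submodule.subset_span (by simp [hy])))
  have hxx : herm q x₁ x₁ ≠ 0 := (perp_iso_cases hF (hys0 i) hi hx₁y.1).resolve_left hnotprop
  set lam := herm q z₁ x₁ / herm q x₁ x₁ with hlam
  set z := z₁ - lam • x₁ with hz
  have hzy : herm q z y = 0 := by
    rw [hz, herm_sub_left, herm_smul_left, hx₁y.1, hx₁y.2, mul_zero, sub_zero]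
  have hzx : herm q z x₁ = 0 := by
    rw [hz, herm_sub_left, herm_smul_left, hlam, div_mul_cancel₀ _ hxx, sub_self]
  obtain ⟨β, hβ⟩ : ∃ β : F, z = β • y :=
    (perp_iso_cases hF (hys0 i) hi hzy).resolve_right fun hzz =>
      perp_iso_false hF (hys0 i) hi hx₁y.1 hzy (herm_eq_zero_symm hF hzx) hxx hzz
  have hlamq : lam ^ q = -lam := by
    have h1 := hUts M hM M hM
    rw [bf_pair hF hp, ← hx₁, ← hz₁] at h1
    rw [hlam, div_pow, hF.herm_symm, hF.herm_symm, ← neg_div]
    congr 1
    linear_combination h1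
  have hM' : colMap (e + lam • f) x₁ ∈ U := by
    have h2 : M - β • colMap f y ∈ U := sub_mem hM (U.smul_mem _ (hall f))
    have h3 : M - β • colMap f y = colMap (e + lam • f) x₁ := by
      rw [hMe, colMap_add_right, colMap_smul_right,
        show z₁ = β • y + lam • x₁ by rw [← hβ, hz]; abel, map_add, map_smul, map_smul]
      abel
    rwa [h3] at h2
  have hv'0 : e + lam • f ≠ 0 := fun h0 => by
    have h1 := congrArg (fun w => herm q w f) h0
    simp [herm_add_left, herm_smul_left, hp.2.1, hp.2.2] at h1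
  exact hnotprop (hone hv'0 (by
    simp [herm_add_left, hF.herm_add_right, herm_smul_left, herm_smul_right, hp.1, hp.2.1,
      hp.2.2, hfe, hlamq]) (hys0 i) (hall _) hM')

end Cfsg.Agent.MaxSub.TensorU
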