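import Cfsg.Agent.MaxSub.TensorU.Gen
import Cfsg.Agent.MaxSub.TensorU.Fix

/-!
`F^a ⊗ F^2` as pairs of vectors: elements of the group as two by two matrices of operators.
-/

set_option autoImplicit false
set_option linter.style.haveILetI false
set_option linter.unusedSectionVars false

namespace Cfsg.Agent.MaxSub.TensorU

open Module Matrix Cfsg.Agent.Classical.U Cfsg.Agent.MaxSub.TensorMax
open Cfsg.Agent.MaxSub.ExtField (Mem mem_zero inv_apply_self self_inv_apply rk1)

universe u

variable {F : Type u} [Field F] {a n q : ℕ}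

/-- An element of `G` with the given blocks relative to the pair `e`, `f`. -/
def Blk (q : ℕ) (G : Subgroup (Matrix (Fin a) (Fin 2) F ≃ₗ[F] Matrix (Fin a) (Fin 2) F))
    (e f : Fin 2 → F) (M : Matrix (Fin 2) (Fin 2) (Module.End F (Fin a → F))) : Prop :=
  ∃ g ∈ G, ∀ X, con q f (g X) = M 0 0 (con q f X) + M 0 1 (con q e X) ∧
    con q e (g X) = M 1 0 (con q f X) + M 1 1 (con q e X)

/-- An upper unipotent block matrix. -/
abbrev upB {R : Type*} [Ring R] (S : R) : Matrix (Fin 2) (Fin 2) R := !![1, S; 0, 1]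

/-- A lower unipotent block matrix. -/
abbrev loB {R : Type*} [Ring R] (S : R) : Matrix (Fin 2) (Fin 2) R := !![1, 0; S, 1]

/-- Fixed elements of the field other than zero and one. -/
lemma exists_fix_ne (hF : SqField F q) (hq : 3 ≤ q) :
    ∃ r : F, r ^ q = r ∧ r ≠ 0 ∧ r ≠ 1 := by
  haveI : Finite F := hF.1
  have hc := hF.card_fixed_units
  haveI : Nontrivial {c : F // c ^ (q - 1) = 1} := Finite.one_lt_card_iff_nontrivial.1 (by omega)
  obtain ⟨⟨r, hr⟩, hne⟩ := exists_ne (⟨1, one_pow _⟩ : {c : F // c ^ (q - 1) = 1})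
  refine ⟨r, ?_, fun h0 => ?_, fun h1 => hne (Subtype.ext h1)⟩
  · rw [show q = q - 1 + 1 by omega, pow_succ, hr, one_mul]
  · rw [h0, zero_pow (by omega)] at hr
    exact zero_ne_one hr

/-- Fixed elements of the field other than zero, one and minus one. -/
lemma exists_fix_ne' (hF : SqField F q) (hq : 4 ≤ q) :
    ∃ r : F, r ^ q = r ∧ r ≠ 0 ∧ r * r ≠ 1 := by
  classical
  haveI : Finite F := hF.1
  haveI := Fintype.ofFinite F
  by_contra hcon
  push Not at hcon
  have hc := hF.card_fixed_units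
  rw [Nat.card_eq_fintype_card, Fintype.card_subtype] at hc
  have hsub : ({c : F | c ^ (q - 1) = 1} : Finset F) ⊆ {1, -1} := by
    intro r hr
    rw [Finset.mem_filter] at hr
    have hrq : r ^ q = r := by rw [show q = q - 1 + 1 by omega, pow_succ, hr.2, one_mul]
    have hr0 : r ≠ 0 := fun h0 => by
      have h1 := hr.2
      rw [h0, zero_pow (by omega)] at h1
      exact zero_ne_one h1
    rcases mul_self_eq_one_iff.1 (hcon r hrq hr0) with h | h <;> simp [h]
  have := (Finset.card_le_card hsub).trans Finset.card_le_two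
  omega

lemma IsUPair.swap_val (hF : SqField F q) {e f : Fin n → F} (hp : IsUPair q e f) :
    herm q f e = 1 := by
  rw [← hF.herm_symm, hp.2.2, one_pow]

section

variable (hF : SqField F q) {e f : Fin 2 → F} (hp : IsUPair q e f)
include hF hp

/-- The coordinates with respect to the pair. -/
lemma pair_expand (w : Fin 2 → F) : w = herm q w f • e + herm q w e • f := by
  have hfe := IsUPair.swap_val hF hp
  let Φ : (Fin 2 → F) →ₗ[F] (Fin 2 → F) :=
    LinearMap.pi ![dualF q f, dualF q e]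
  have hΦ : ∀ u, Φ u = ![herm q u f, herm q u e] := fun u => by
    ext i; fin_cases i <;> rfl
  have hsurj : Function.Surjective Φ := fun y => ⟨y 0 • e + y 1 • f, by
    rw [hΦ]
    ext i
    fin_cases i <;> simp [herm_add_left, herm_smul_left, hp.1, hp.2.1, hp.2.2, hfe]⟩
  refine LinearMap.injective_iff_surjective.2 hsurj ?_
  rw [hΦ, hΦ]
  ext i
  fin_cases i <;> simp [herm_add_left, herm_smul_left, hp.1, hp.2.1, hp.2.2, hfe]

lemma con_pair (x y : Fin a → F) :
    con q f (colMap e x + colMap f y) = x ∧ con q e (colMap e x + colMap f y) = y := by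
  simp [map_add, con_colMap, hp.1, hp.2.1, hp.2.2, IsUPair.swap_val hF hp]

lemma decomp (X : Matrix (Fin a) (Fin 2) F) :
    colMap e (con q f X) + colMap f (con q e X) = X := by
  funext i
  exact (pair_expand hF hp (X i)).symm

lemma pair_ext {X Y : Matrix (Fin a) (Fin 2) F} (h1 : con q f X = con q f Y)
    (h2 : con q e X = con q e Y) : X = Y := by
  rw [← decomp hF hp X, ← decomp hF hp Y, h1, h2]

lemma bf_pair (X Y : Matrix (Fin a) (Fin 2) F) :
    bf q X Y = herm q (con q f X) (con q e Y) + herm q (con q e X) (con q f Y) := by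
  conv_lhs => rw [← decomp hF hp X, bf_add_left, bf_colMap_left _ _ _ hF, bf_colMap_left _ _ _ hF]

variable {G : Subgroup (Matrix (Fin a) (Fin 2) F ≃ₗ[F] Matrix (Fin a) (Fin 2) F)}

/-- The blocks of an element. -/
lemma blk_of {g : Matrix (Fin a) (Fin 2) F ≃ₗ[F] Matrix (Fin a) (Fin 2) F} (hg : g ∈ G) :
    Blk q G e f !![con q f ∘ₗ g.toLinearMap ∘ₗ colMap e, con q f ∘ₗ g.toLinearMap ∘ₗ colMap f;
      con q e ∘ₗ g.toLinearMap ∘ₗ colMap e, con q e ∘ₗ g.toLinearMap ∘ₗ colMap f] := by
  refine ⟨g, hg, fun X => ?_⟩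
  conv => enter [1, 1]; rw [← decomp hF hp X]
  conv => enter [2, 1]; rw [← decomp hF hp X]
  simp

omit hF hp in
lemma blk_one : Blk q G e f 1 := ⟨1, one_mem G, fun X => by simp⟩

omit hF hp in
lemma Blk.mul {M N : Matrix (Fin 2) (Fin 2) (Module.End F (Fin a → F))} (h : Blk q G e f M)
    (h' : Blk q G e f N) : Blk q G e f (M * N) := by
  obtain ⟨g, hg, hgx⟩ := h
  obtain ⟨k, hk, hkx⟩ := h'
  refine ⟨g * k, mul_mem hg hk, fun X => ?_⟩
  rw [LinearEquiv.mul_apply]
  refine ⟨?_, ?_⟩
  · rw [(hgx (k X)).1, (hkx X).1, (hkx X).2]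
    simp [Matrix.mul_apply, Fin.sum_univ_two]
    abel
  · rw [(hgx (k X)).2, (hkx X).1, (hkx X).2]
    simp [Matrix.mul_apply, Fin.sum_univ_two]
    abel

omit hF hp in
lemma Blk.inv {M N : Matrix (Fin 2) (Fin 2) (Module.End F (Fin a → F))} (h : Blk q G e f M)
    (hNM : N * M = 1) : Blk q G e f N := by
  obtain ⟨g, hg, hgx⟩ := h
  refine ⟨g⁻¹, inv_mem hg, fun X => ?_⟩
  obtain ⟨h1, h2⟩ := hgx (g⁻¹ X)
  rw [self_inv_apply] at h1 h2
  have e0 : ∀ i j, (N i 0 * M 0 j + N i 1 * M 1 j : Module.End F (Fin a → F)) =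
      (1 : Matrix (Fin 2) (Fin 2) (Module.End F (Fin a → F))) i j := fun i j => by
    rw [← hNM, Matrix.mul_apply, Fin.sum_univ_two]
  have a00 := LinearMap.congr_fun (e0 0 0) (con q f (g⁻¹ X))
  have a01 := LinearMap.congr_fun (e0 0 1) (con q e (g⁻¹ X))
  have a10 := LinearMap.congr_fun (e0 1 0) (con q f (g⁻¹ X))
  have a11 := LinearMap.congr_fun (e0 1 1) (con q e (g⁻¹ X))
  simp only [Matrix.one_apply, Fin.isValue, one_ne_zero, zero_ne_one, if_true, if_false,
    LinearMap.add_apply, Module.End.mul_apply, Module.End.one_apply, LinearMap.zero_apply]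
    at a00 a01 a10 a11
  rw [h1, h2, map_add, map_add, map_add, map_add]
  constructor
  · linear_combination (norm := module) -a00 - a01
  · linear_combination (norm := module) -a10 - a11

variable (hG : UFactors q G)
include hG

/-- The isometry relations of the blocks. -/
lemma Blk.rel {M : Matrix (Fin 2) (Fin 2) (Module.End F (Fin a → F))} (h : Blk q G e f M)
    (x y : Fin a → F) :
    herm q (M 0 0 x) (M 1 0 y) + herm q (M 1 0 x) (M 0 0 y) = 0 ∧
    herm q (M 0 0 x) (M 1 1 y) + herm q (M 1 0 x) (M 0 1 y) = herm q x y ∧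
    herm q (M 0 1 x) (M 1 1 y) + herm q (M 1 1 x) (M 0 1 y) = 0 := by
  obtain ⟨g, hg, hgx⟩ := h
  have h0 : ∀ u v s t : Fin a → F, bf q (g (colMap e u + colMap f v))
      (g (colMap e s + colMap f t)) = herm q u t + herm q v s := fun u v s t => by
    rw [hG.iso g hg, bf_pair hF hp, (con_pair hF hp u v).1, (con_pair hF hp u v).2,
      (con_pair hF hp s t).1, (con_pair hF hp s t).2]
  have h1 : ∀ u v s t : Fin a → F,
      herm q (M 0 0 u + M 0 1 v) (M 1 0 s + M 1 1 t) + herm q (M 1 0 u + M 1 1 v) (M 0 0 s + M 0 1 t)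
        = herm q u t + herm q v s := fun u v s t => by
    rw [← h0 u v s t, bf_pair hF hp, (hgx _).1, (hgx _).2, (hgx _).1, (hgx _).2,
      (con_pair hF hp u v).1, (con_pair hF hp u v).2, (con_pair hF hp s t).1,
      (con_pair hF hp s t).2]
  refine ⟨?_, ?_, ?_⟩
  · simpa [hF.herm_zero_right] using h1 x 0 y 0
  · simpa [hF.herm_zero_right] using h1 x 0 0 y
  · simpa [hF.herm_zero_right] using h1 0 x 0 y

/-- Scalar root elements. -/
lemma blk_up_scalar {c : F} (hc : c ^ q = -c) :
    Blk q G e f (upB (c • (1 : Module.End F (Fin a → F)))) := by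
  obtain ⟨g, hg, hgx⟩ := mem_right_hr1 hF hG hp.1 hc
  refine ⟨g, hg, fun X => ?_⟩
  rw [hgx, act_smul_right, LinearMap.smul_apply, act_hr1]
  constructor <;>
    simp [map_add, map_smul, con_colMap, hp.1, hp.2.1, hp.2.2]

lemma blk_lo_scalar {c : F} (hc : c ^ q = -c) :
    Blk q G e f (loB (c • (1 : Module.End F (Fin a → F)))) := by
  obtain ⟨g, hg, hgx⟩ := mem_right_hr1 hF hG hp.2.1 hc
  refine ⟨g, hg, fun X => ?_⟩
  rw [hgx, act_smul_right, LinearMap.smul_apply, act_hr1]
  constructor <;>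
    simp [map_add, map_smul, con_colMap, hp.1, hp.2.1, IsUPair.swap_val hF hp, add_comm]

/-- The elements of the left factor. -/
lemma blk_left {g : UG a F q} (hg : g ∈ SUG a F q) :
    Blk q G e f !![(g.1.toLinearMap : Module.End F (Fin a → F)), 0; 0, g.1.toLinearMap] := by
  obtain ⟨k, hk, hkx⟩ := hG.left g hg
  refine ⟨k, hk, fun X => ?_⟩
  have hX : ∀ w, con q w (k X) = g.1.toLinearMap (con q w X) := fun w => by
    rw [hkx]
    refine LinearMap.congr_fun (f := con q w ∘ₗ act g.1.toLinearMap LinearMap.id)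
      (g := g.1.toLinearMap ∘ₗ con q w) (ext_colMap fun v x => ?_) X
    simp [act_colMap, con_colMap]
  simp [hX]

/-- The element interchanging the two lines. -/
lemma blk_weyl {c : F} (hc0 : c ≠ 0) (hc : c ^ q = -c) :
    Blk q G e f !![0, c • (1 : Module.End F (Fin a → F)); (-c⁻¹) • 1, 0] := by
  have h := (blk_up_scalar hF hp hG hc).mul ((blk_lo_scalar hF hp hG (c := -c⁻¹)
    (by rw [hF.neg_pow, inv_pow, hc, inv_neg])).mul (blk_up_scalar hF hp hG hc))
  convert h using 1
  refine Matrix.ext fun i j => ?_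
  fin_cases i <;> fin_cases j <;>
    simp [Matrix.mul_apply, Fin.sum_univ_two, smul_smul, hc0, neg_smul]
  all_goals module

/-- From the upper to the lower unipotents. -/
lemma blk_lo_of_up {S : Module.End F (Fin a → F)} (h : Blk q G e f (upB S)) {c : F} (hc0 : c ≠ 0)
    (hc : c ^ q = -c) : Blk q G e f (loB ((-(c⁻¹ * c⁻¹)) • S)) := by
  have h' := ((blk_weyl hF hp hG hc0 hc).mul h).mul (blk_weyl hF hp hG (neg_ne_zero.2 hc0)
    (by rw [hF.neg_pow, hc]))
  convert h' using 1
  refine Matrix.ext fun i j => ?_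
  fin_cases i <;> fin_cases j <;>
    simp [Matrix.mul_apply, Fin.sum_univ_two, smul_smul, hc0, inv_neg, neg_smul]
  all_goals module

lemma blk_up_of_lo {S : Module.End F (Fin a → F)} (h : Blk q G e f (loB S)) {c : F} (hc0 : c ≠ 0)
    (hc : c ^ q = -c) : Blk q G e f (upB ((-(c * c)) • S)) := by
  have h' := ((blk_weyl hF hp hG hc0 hc).mul h).mul (blk_weyl hF hp hG (neg_ne_zero.2 hc0)
    (by rw [hF.neg_pow, hc]))
  convert h' using 1
  refine Matrix.ext fun i j => ?_
  fin_cases i <;> fin_cases j <;>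
    simp [Matrix.mul_apply, Fin.sum_univ_two, smul_smul, hc0, inv_neg, neg_smul]
  all_goals module

end

end Cfsg.Agent.MaxSub.TensorU
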