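import Cfsg.Agent.MaxSub.TensorU.TwoBasic

/-!
Without non-scalar upper root elements, an element fixing a line is a tensor product.
-/

set_option autoImplicit false
set_option linter.style.haveILetI false
set_option linter.unusedSectionVars false

namespace Cfsg.Agent.MaxSub.TensorU

open Module Matrix Cfsg.Agent.Classical.U Cfsg.Agent.MaxSub.TensorMax
open Cfsg.Agent.MaxSub.ExtField (Mem mem_zero inv_apply_self self_inv_apply rk1)

universe u

variable {F : Type u} [Field F] {a q : ℕ}

/-- The blocks of a linear map. -/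
def blocks (q : ℕ) (e f : Fin 2 → F)
    (g : Matrix (Fin a) (Fin 2) F ≃ₗ[F] Matrix (Fin a) (Fin 2) F) :
    Matrix (Fin 2) (Fin 2) (Module.End F (Fin a → F)) :=
  !![con q f ∘ₗ g.toLinearMap ∘ₗ colMap e, con q f ∘ₗ g.toLinearMap ∘ₗ colMap f;
    con q e ∘ₗ g.toLinearMap ∘ₗ colMap e, con q e ∘ₗ g.toLinearMap ∘ₗ colMap f]

/-- Only scalar upper root elements. -/
def OnlyScalarUp (q : ℕ) (G : Subgroup (Matrix (Fin a) (Fin 2) F ≃ₗ[F] Matrix (Fin a) (Fin 2) F))
    (e f : Fin 2 → F) : Prop :=
  ∀ S : Module.End F (Fin a → F), Blk q G e f (upB S) → ∃ k : F, S = k • 1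

variable (hF : SqField F q) {e f : Fin 2 → F} (hp : IsUPair q e f)
  {G : Subgroup (Matrix (Fin a) (Fin 2) F ≃ₗ[F] Matrix (Fin a) (Fin 2) F)}
include hF hp

lemma apply_colMap_blocks (g : Matrix (Fin a) (Fin 2) F ≃ₗ[F] Matrix (Fin a) (Fin 2) F)
    (w : Fin 2 → F) (x : Fin a → F) :
    con q f (g (colMap w x)) =
        herm q w f • blocks q e f g 0 0 x + herm q w e • blocks q e f g 0 1 x ∧
      con q e (g (colMap w x)) =
        herm q w f • blocks q e f g 1 0 x + herm q w e • blocks q e f g 1 1 x := by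
  have h : colMap w x = herm q w f • colMap e x + herm q w e • colMap f x := by
    conv_lhs => rw [pair_expand hF hp w, colMap_add_right, colMap_smul_right, colMap_smul_right]
  rw [h]
  simp [blocks]

variable (hG : UFactors q G)
include hG

/-- An upper triangular element has scalar blocks relative to its last block. -/
theorem fixE (hno : OnlyScalarUp q G e f) (ha : 3 ≤ a)
    {M : Matrix (Fin 2) (Fin 2) (Module.End F (Fin a → F))} (hM : Blk q G e f M) (hC : M 1 0 = 0) :
    ∃ k b : F, k ^ q = k ∧ k ≠ 0 ∧ M 0 0 = k • M 1 1 ∧ M 0 1 = b • M 1 1 ∧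
      Function.Injective (M 1 1) := by
  classical
  haveI : Finite F := hF.1
  set A := M 0 0 with hA
  set B := M 0 1 with hB
  set C := M 1 1 with hC'
  have hAC : ∀ x y, herm q (A x) (C y) = herm q x y := fun x y => by
    have h1 := (hM.rel hF hp hG x y).2.1
    rwa [hC, LinearMap.zero_apply, herm_zero_left, add_zero] at h1
  have hCinj : Function.Injective C := (injective_iff_map_eq_zero C).2 fun y hy =>
    hF.eq_zero_of_herm y fun x => herm_eq_zero_symm hF (by
      rw [← hAC, hy, hF.herm_zero_right])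
  have hAinj : Function.Injective A := (injective_iff_map_eq_zero A).2 fun x hx =>
    hF.eq_zero_of_herm x fun y => by rw [← hAC, hx, herm_zero_left]
  set Ci : Module.End F (Fin a → F) :=
    (LinearEquiv.ofInjectiveEndo C hCinj).symm.toLinearMap with hCi
  set Ai : Module.End F (Fin a → F) :=
    (LinearEquiv.ofInjectiveEndo A hAinj).symm.toLinearMap with hAi
  have hCC : Ci * C = 1 := LinearMap.ext fun x =>
    (LinearEquiv.ofInjectiveEndo C hCinj).symm_apply_apply x
  have hCC' : C * Ci = 1 := LinearMap.ext fun x =>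
    (LinearEquiv.ofInjectiveEndo C hCinj).apply_symm_apply x
  have hAA : Ai * A = 1 := LinearMap.ext fun x =>
    (LinearEquiv.ofInjectiveEndo A hAinj).symm_apply_apply x
  have hMeq : M = !![A, B; 0, C] := by
    rw [← hC, hA, hB, hC']; exact (Matrix.etaExpand_eq M).symm
  set N : Matrix (Fin 2) (Fin 2) (Module.End F (Fin a → F)) :=
    !![Ai, -(Ai * B * Ci); 0, Ci] with hNdef
  have hN : Blk q G e f N := hM.inv (by
    rw [hMeq, hNdef, Matrix.mul_fin_two, Matrix.one_fin_two]
    simp [mul_assoc, hAA, hCC]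
    refine LinearMap.ext fun z => ?_
    have hz : Ci (C z) = z := LinearMap.congr_fun hCC z
    simp [hz])
  obtain ⟨δ, hδ0, hδ⟩ := hF.exists_skew
  -- the diagonal
  obtain ⟨k₁, hk₁⟩ := hno (δ • (A * Ci)) (by
    have h := (hM.mul (blk_up_scalar hF hp hG hδ)).mul hN
    convert h using 1
    rw [hMeq, hNdef, upB, upB, Matrix.mul_fin_two, Matrix.mul_fin_two]
    refine Matrix.ext fun i j => ?_
    have hAA' : A * Ai = 1 := LinearMap.ext fun x =>
      (LinearEquiv.ofInjectiveEndo A hAinj).apply_symm_apply x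
    fin_cases i <;> fin_cases j <;>
      simp [← mul_assoc, hAA', hCC', add_mul, mul_add, smul_mul_assoc, mul_smul_comm]
    refine LinearMap.ext fun z => ?_
    have hz : ∀ y, A (Ai y) = y := LinearMap.congr_fun hAA'
    simp [hz])
  set k := k₁ / δ with hk
  have hAk : A = k • C := by
    have h1 : A * Ci = k • 1 := by
      rw [hk, div_eq_inv_mul, ← smul_smul, ← hk₁, smul_smul, inv_mul_cancel₀ hδ0, one_smul]
    calc A = A * (Ci * C) := by rw [hCC, mul_one]
      _ = k • C := by rw [← mul_assoc, h1, smul_mul_assoc, one_mul]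
  have hkC : ∀ x y, k * herm q (C x) (C y) = herm q x y := fun x y => by
    rw [← herm_smul_left, ← LinearMap.smul_apply, ← hAk, hAC]
  set x₀ : Fin a → F := Pi.single ⟨0, by omega⟩ 1
  have hx₀ : herm q x₀ x₀ = 1 := by simp [x₀, herm_single_one _ hF.q_ne_zero]
  have hk0 : k ≠ 0 := fun h0 => by
    have := hkC x₀ x₀
    rw [h0, zero_mul, hx₀] at this
    exact zero_ne_one this
  have hkq : k ^ q = k := by
    have h1 := hkC x₀ x₀
    rw [hx₀] at h1
    have h2 := congrArg (fun z : F => z ^ q) h1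
    simp only [mul_pow, hF.herm_symm, one_pow] at h2
    have hne : herm q (C x₀) (C x₀) ≠ 0 := fun h0 => by
      rw [h0, mul_zero] at h1; exact zero_ne_one h1
    exact mul_right_cancel₀ hne (h2.trans h1.symm)
  -- the upper block
  set T := B * Ci with hT
  have key : ∀ v, herm q v v = 0 → herm q (T v) v = 0 := by
    intro v hv
    rcases eq_or_ne v 0 with rfl | hv0
    · rw [map_zero, herm_zero_left]
    set u := Ci v with hu
    have hCi' : ∀ w z, herm q (Ci w) (Ci z) = k * herm q w z := fun w z => by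
      have h1 := hkC (Ci w) (Ci z)
      rw [← Module.End.mul_apply C Ci w, ← Module.End.mul_apply C Ci z, hCC'] at h1
      exact h1.symm
    have huu : herm q u u = 0 := by rw [hu, hCi', hv, mul_zero]
    have hst : (δ / k) ^ q = -(δ / k) := by rw [div_pow, hδ, hkq, neg_div]
    set gt := trv hF (⟨huu, hst⟩ : TrvCond q u (δ / k))
    set g' := trv hF (⟨hv, by rw [hF.neg_pow, hδ]⟩ : TrvCond q v (-δ))
    set gs : Module.End F (Fin a → F) := 1 + δ • hr1 q v v with hgs
    have hg'v : (g'.1.toLinearMap : Module.End F (Fin a → F)) = 1 + (-δ) • hr1 q v v :=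
      LinearMap.ext fun w => by
        show g'.1 w = _
        rw [show g'.1 w = w + (-δ * herm q w v) • v from trv_apply hF _ w]
        simp [hr1_apply, smul_smul, neg_smul]
    have hgt : C * (gt.1.toLinearMap : Module.End F (Fin a → F)) * Ci = gs :=
      LinearMap.ext fun w => by
        have hCw : ∀ z, C (Ci z) = z := fun z => LinearMap.congr_fun hCC' z
        simp only [Module.End.mul_apply, LinearEquiv.coe_coe, gt, trv_apply, map_add, map_smul, hCw,
          hu, hCi', hgs, LinearMap.add_apply, Module.End.one_apply, LinearMap.smul_apply, hr1_apply,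
          smul_smul]
        congr 2
        field_simp
    have hinv : gs * (g'.1.toLinearMap : Module.End F (Fin a → F)) = 1 := LinearMap.ext fun w => by
      simp [hgs, hg'v, hr1_apply, herm_smul_left, herm_neg_left, hv, map_add, smul_smul]
    have hprod := ((hM.mul (blk_left hF hp hG (TG_le_SUG hF (trv_mem hF
      (⟨huu, hst⟩ : TrvCond q u (δ / k)))))).mul hN).mul
      (blk_left hF hp hG (TG_le_SUG hF (trv_mem hF
        (⟨hv, by rw [hF.neg_pow, hδ]⟩ : TrvCond q v (-δ)))))
    have hAi' : Ai = k⁻¹ • Ci := by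
      have h1 : A * (k⁻¹ • Ci) = 1 := by
        rw [hAk, smul_mul_assoc, mul_smul_comm, hCC', smul_smul, mul_inv_cancel₀ hk0, one_smul]
      calc Ai = Ai * (A * (k⁻¹ • Ci)) := by rw [h1, mul_one]
        _ = k⁻¹ • Ci := by rw [← mul_assoc, hAA, one_mul]
    obtain ⟨σ, hσ⟩ := hno ((T * gs - gs * T) * (g'.1.toLinearMap : Module.End F (Fin a → F))) (by
      convert hprod using 1
      rw [hMeq, hNdef, Matrix.mul_fin_two, Matrix.mul_fin_two, Matrix.mul_fin_two, upB]
      have e1 : A * (gt.1.toLinearMap : Module.End F (Fin a → F)) * Ai = gs := by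
        rw [hAk, hAi', smul_mul_assoc, smul_mul_assoc, mul_smul_comm, smul_smul,
          mul_inv_cancel₀ hk0, one_smul, hgt]
      have e2 : B * (gt.1.toLinearMap : Module.End F (Fin a → F)) * Ci = T * gs := by
        rw [← hgt, hT]
        simp only [mul_assoc]
        rw [← mul_assoc Ci C, hCC, one_mul]
      have e3 : A * (gt.1.toLinearMap : Module.End F (Fin a → F)) * -(Ai * B * Ci) = -(gs * T) := by
        exact LinearMap.ext fun z => by simp [← e1, hT]
      refine Matrix.ext fun i j => ?_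
      fin_cases i <;> fin_cases j
      · simp [e1, hinv, g', gt]
      · simp [e1, e2, e3, g', gt, sub_eq_neg_add, add_mul]
      · simp
      · simp [hgt, hinv, g', gt])
    have hcomm : T * gs - gs * T = σ • gs := by
      have hg'gs : (g'.1.toLinearMap : Module.End F (Fin a → F)) * gs = 1 := LinearMap.ext fun w => by
        simp [hgs, hg'v, hr1_apply, herm_smul_left, herm_neg_left, hv, map_add, smul_smul, add_comm]
      calc T * gs - gs * T
          = (T * gs - gs * T) * ((g'.1.toLinearMap : Module.End F (Fin a → F)) * gs) := by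
            rw [hg'gs, mul_one]
        _ = σ • gs := by rw [← mul_assoc, hσ, smul_mul_assoc, one_mul]
    obtain ⟨w, hwv, hw⟩ : ∃ w, herm q w v = 0 ∧ w ∉ F ∙ v := by
      by_contra hcon
      push Not at hcon
      have h1 : LinearMap.ker (dualF q v) ≤ F ∙ v := fun w hw => hcon w hw
      have h2 := Submodule.finrank_mono h1
      have h3 := LinearMap.finrank_range_add_finrank_ker (dualF q v)
      have h4 := (LinearMap.range (dualF q v)).finrank_le
      rw [finrank_span_singleton hv0] at h2
      rw [finrank_fin_fun] at h3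
      rw [Module.finrank_self] at h4
      omega
    have hev : ∀ z, δ • (herm q z v • T v - herm q (T z) v • v) = σ • gs z := fun z => by
      have h1 := LinearMap.congr_fun hcomm z
      simp only [LinearMap.sub_apply, Module.End.mul_apply, LinearMap.smul_apply] at h1
      rw [← h1]
      simp only [hgs, LinearMap.add_apply, Module.End.one_apply, LinearMap.smul_apply, hr1_apply,
        map_add, map_smul]
      module
    have hσ0 : σ = 0 := by
      by_contra hne
      have h1 := hev w
      simp only [hgs, LinearMap.add_apply, Module.End.one_apply, LinearMap.smul_apply, hr1_apply,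
        hwv, zero_smul, zero_sub, smul_zero, add_zero] at h1
      refine hw (Submodule.mem_span_singleton.2 ⟨σ⁻¹ * (-(δ * herm q (T w) v)), ?_⟩)
      rw [mul_smul, neg_smul, mul_smul, ← smul_neg, h1, smul_smul, inv_mul_cancel₀ hne, one_smul]
    obtain ⟨z, hz⟩ := exists_partner hF hv0 hv
    have h2 := hev z
    rw [hσ0, zero_smul, smul_eq_zero, or_iff_right hδ0, IsUPair.swap_val hF hz, one_smul,
      sub_eq_zero] at h2
    rw [h2, herm_smul_left, hv, mul_zero]
  obtain ⟨b, hb⟩ := eq_smul_of_isotropic hF (by omega) T key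
  refine ⟨k, b, hkq, hk0, hAk, ?_, hCinj⟩
  calc B = T * C := by rw [hT, mul_assoc, hCC, mul_one]
    _ = b • C := by rw [hb, smul_mul_assoc]; rfl

/-- An element mapping the line at `e` to itself is a tensor product. -/
theorem isTens_of_fixE (hno : OnlyScalarUp q G e f) (ha : 3 ≤ a)
    {h : Matrix (Fin a) (Fin 2) F ≃ₗ[F] Matrix (Fin a) (Fin 2) F} (hh : h ∈ G)
    (hfix : ∀ x, con q e (h (colMap e x)) = 0) : IsTens h := by
  obtain ⟨k, b, -, -, hA, hB, hinj⟩ := fixE hF hp hG hno ha (blk_of hF hp hh)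
    (LinearMap.ext fun x => by simpa using hfix x)
  refine ⟨blocks q e f h 1 1, ⟨hinj, LinearMap.injective_iff_surjective.1 hinj⟩, fun w => ?_⟩
  refine ⟨(k * herm q w f + b * herm q w e) • e + herm q w e • f, fun x => ?_⟩
  obtain ⟨h1, h2⟩ := apply_colMap_blocks hF hp h w x
  have h10 : blocks q e f h 1 0 x = 0 := by simpa [blocks] using hfix x
  have h00 : blocks q e f h 0 0 x = k • blocks q e f h 1 1 x := LinearMap.congr_fun hA x
  have h01 : blocks q e f h 0 1 x = b • blocks q e f h 1 1 x := LinearMap.congr_fun hB x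
  have hy : ∀ y : Fin a → F, colMap ((k * herm q w f + b * herm q w e) • e + herm q w e • f) y
      = colMap e ((k * herm q w f + b * herm q w e) • y) + colMap f (herm q w e • y) := fun y => by
    rw [colMap_add_right, colMap_smul_right, colMap_smul_right, map_smul, map_smul]
  refine pair_ext hF hp ?_ ?_
  · rw [h1, hy, (con_pair hF hp _ _).1, h00, h01, smul_smul, smul_smul, ← add_smul]
    congr 1
    ring
  · rw [h2, hy, (con_pair hF hp _ _).2, h10, smul_zero, zero_add]

omit hG in
/-- Right translations act on the second factor only. -/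
lemma IsTens.right_mul {n h : Matrix (Fin a) (Fin 2) F ≃ₗ[F] Matrix (Fin a) (Fin 2) F}
    {φ : (Fin 2 → F) → (Fin 2 → F)} (hn : ∀ w x, n (colMap w x) = colMap (φ w) x)
    (ht : IsTens h) : IsTens (n * h) := by
  obtain ⟨β, hβ, hk⟩ := ht
  refine ⟨β, hβ, fun w => ?_⟩
  obtain ⟨k, hk⟩ := hk w
  exact ⟨φ k, fun x => by rw [LinearEquiv.mul_apply, hk, hn]⟩

/-- An element of the right factor moving an isotropic line to the line at `e`. -/
lemma exists_to_e {v : Fin 2 → F} (hv0 : v ≠ 0) (hv : herm q v v = 0) :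
    ∃ n ∈ G, ∃ φ : (Fin 2 → F) →ₗ[F] (Fin 2 → F), ∃ ψ : (Fin 2 → F) →ₗ[F] (Fin 2 → F),
      (∀ w (x : Fin a → F), n (colMap w x) = colMap (φ w) x) ∧
      (∀ w (x : Fin a → F), n⁻¹ (colMap w x) = colMap (ψ w) x) ∧
      ∃ μ : F, μ ≠ 0 ∧ φ v = μ • e := by
  have hfe := IsUPair.swap_val hF hp
  suffices hg : ∃ g ∈ SUG 2 F q, ∃ μ : F, μ ≠ 0 ∧ g.1 v = μ • e by
    obtain ⟨g, hg, μ, hμ, hgv⟩ := hg
    obtain ⟨n, hn, hnx⟩ := hG.right g hg
    refine ⟨n, hn, g.1.toLinearMap, g.1.symm.toLinearMap, fun w x => by rw [hnx, act_colMap]; rfl,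
      fun w x => n.injective ?_, μ, hμ, hgv⟩
    rw [self_inv_apply, hnx, act_colMap]
    simp
  have hv' := pair_expand hF hp v
  set α := herm q v f
  set β := herm q v e
  rcases eq_or_ne β 0 with hβ | hβ
  · refine ⟨1, one_mem _, α, fun h0 => hv0 ?_, ?_⟩
    · rw [hv', hβ, h0]; simp
    · rw [hβ, zero_smul, add_zero] at hv'
      exact hv'
  set s := α / β
  have hs : s ^ q = -s := by
    have h1 : α * β ^ q + β * α ^ q = 0 := by
      rw [hv'] at hv
      simp only [herm_add_left, hF.herm_add_right, herm_smul_left, herm_smul_right, hp.1, hp.2.1,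
        hp.2.2, hfe] at hv
      linear_combination hv
    have hβq : β ^ q ≠ 0 := pow_ne_zero q hβ
    rw [div_pow, eq_neg_iff_add_eq_zero, div_add_div _ _ hβq hβ, div_eq_zero_iff]
    left
    linear_combination h1
  obtain ⟨δ, hδ0, hδ⟩ := hF.exists_skew
  have t1 : TrvCond q e (-s) := ⟨hp.1, by rw [hF.neg_pow, hs]⟩
  have t2 : TrvCond q e δ := ⟨hp.1, hδ⟩
  have t3 : TrvCond q f (-δ⁻¹) := ⟨hp.2.1, by rw [hF.neg_pow, inv_pow, hδ, inv_neg]⟩
  refine ⟨trv hF t2 * trv hF t3 * trv hF t2 * trv hF t1,
    mul_mem (mul_mem (mul_mem (TG_le_SUG hF (trv_mem hF t2)) (TG_le_SUG hF (trv_mem hF t3)))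
      (TG_le_SUG hF (trv_mem hF t2))) (TG_le_SUG hF (trv_mem hF t1)), β * δ,
    mul_ne_zero hβ hδ0, ?_⟩
  have hv2 : v = β • (s • e + f) := by
    rw [smul_add, smul_smul, mul_div_cancel₀ _ hβ]; exact hv'
  rw [hv2, map_smul, mul_smul]
  congr 1
  simp only [Subgroup.coe_mul, LinearEquiv.mul_apply, trv_apply, herm_add_left, herm_smul_left,
    hp.1, hp.2.1, hp.2.2, hfe]
  match_scalars
  · field_simp
    ring
  · field_simp
    ring

/-- An element mapping an isotropic line onto a line is a tensor product. -/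
theorem isTens_of_line_two (hno : OnlyScalarUp q G e f) (ha : 3 ≤ a)
    {h : Matrix (Fin a) (Fin 2) F ≃ₗ[F] Matrix (Fin a) (Fin 2) F} (hh : h ∈ G)
    {v : Fin 2 → F} (hv0 : v ≠ 0) (hv : herm q v v = 0)
    (hmap : ∀ x, h (colMap e x) ∈ line v) : IsTens h := by
  obtain ⟨n, hn, φ, ψ, hφ, hψ, μ, hμ, hv'⟩ := exists_to_e hF hp hG hv0 hv
  have ht := isTens_of_fixE hF hp hG hno ha (mul_mem hn hh) fun x => by
    obtain ⟨y, hy⟩ := hmap x
    rw [LinearEquiv.mul_apply, ← hy, hφ, hv', con_colMap, herm_smul_left, hp.1, mul_zero,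
      zero_smul]
  have := IsTens.right_mul hF hp (n := n⁻¹) hψ ht
  rwa [inv_mul_cancel_left] at this

end Cfsg.Agent.MaxSub.TensorU
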