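import Mathlib

/-!
Products of two by two unipotent matrices over a commutative ring, evaluated at operators.
-/

set_option autoImplicit false

namespace Cfsg.Agent.MaxSub.TensorU

open Matrix Polynomial

/-- A word of five unipotents conjugates an upper one to a root element. -/
theorem word_conj {R : Type*} [CommRing R] (x₁ x₂ x₃ x₄ x₅ t : R) :
    (!![1, 0; x₁, 1] * !![1, x₂; 0, 1] * !![1, 0; x₃, 1] * !![1, x₄; 0, 1] * !![1, 0; x₅, 1] *
        !![1, t; 0, 1] *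
      (!![1, 0; -x₅, 1] * !![1, -x₄; 0, 1] * !![1, 0; -x₃, 1] * !![1, -x₂; 0, 1] *
        !![1, 0; -x₁, 1])) =
    !![1 - (1 + x₂ * x₃ + x₅ * (x₂ + x₄ + x₂ * x₃ * x₄)) *
          (x₁ + x₃ + x₁ * x₂ * x₃ +
            x₅ * (1 + x₁ * x₂ + x₁ * x₄ + x₃ * x₄ + x₁ * x₂ * x₃ * x₄)) * t,
        (1 + x₂ * x₃ + x₅ * (x₂ + x₄ + x₂ * x₃ * x₄)) ^ 2 * t;
      -((x₁ + x₃ + x₁ * x₂ * x₃ +
          x₅ * (1 + x₁ * x₂ + x₁ * x₄ + x₃ * x₄ + x₁ * x₂ * x₃ * x₄)) ^ 2 * t),
        1 + (1 + x₂ * x₃ + x₅ * (x₂ + x₄ + x₂ * x₃ * x₄)) *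
          (x₁ + x₃ + x₁ * x₂ * x₃ +
            x₅ * (1 + x₁ * x₂ + x₁ * x₄ + x₃ * x₄ + x₁ * x₂ * x₃ * x₄)) * t] := by
  simp only [Matrix.mul_fin_two]
  refine Matrix.ext fun i j => ?_
  fin_cases i <;> fin_cases j <;> simp <;> ring

/-- A commutator of two root elements. -/
theorem word_comm {R : Type*} [CommRing R] (d d' D : R) (h : d * d' = 1) :
    !![1, 0; d, 1] * !![1, d' * D; 0, 1] * !![1, 0; d, 1] * !![1, -(d' * D); 0, 1] *
      !![1, 0; -d, 1] * !![1, d' * D; 0, 1] * !![1, 0; -d, 1] =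
    !![1 + D ^ 2 - D ^ 3, d' * (D + D ^ 3); d * (2 * D - D ^ 3), 1 + D ^ 2 + D ^ 3] := by
  simp only [Matrix.mul_fin_two]
  refine Matrix.ext fun i j => ?_
  fin_cases i <;> fin_cases j
  · simp
    linear_combination (D ^ 2 * (d * d' + 1) - D ^ 3 * ((d * d') ^ 2 + d * d' + 1)) * h
  · simp
    linear_combination (d' * D ^ 3 * (d * d' + 1)) * h
  · simp
    linear_combination (2 * d * D - d * D ^ 3 * ((d * d') ^ 2 + d * d' + 1)) * h
  · simp
    linear_combination (D ^ 2 * (d * d' + 1) + D ^ 3 * ((d * d') ^ 2 + d * d' + 1)) * h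

variable {F A : Type*} [Field F] [Ring A] [Algebra F A]

/-- Evaluation of a matrix of polynomials at an operator. -/
noncomputable def evM (x : A) : Matrix (Fin 2) (Fin 2) F[X] →ₐ[F] Matrix (Fin 2) (Fin 2) A :=
  (Polynomial.aeval x).mapMatrix

theorem evM_lo (x : A) (p : F[X]) : evM x !![1, 0; p, 1] = !![1, 0; aeval x p, 1] := by
  refine Matrix.ext fun i j => ?_
  fin_cases i <;> fin_cases j <;> simp [evM]

theorem evM_up (x : A) (p : F[X]) : evM x !![1, p; 0, 1] = !![1, aeval x p; 0, 1] := by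
  refine Matrix.ext fun i j => ?_
  fin_cases i <;> fin_cases j <;> simp [evM]

theorem evM_mat (x : A) (p r s t : F[X]) :
    evM x !![p, r; s, t] = !![aeval x p, aeval x r; aeval x s, aeval x t] := by
  refine Matrix.ext fun i j => ?_
  fin_cases i <;> fin_cases j <;> simp [evM]

end Cfsg.Agent.MaxSub.TensorU
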