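import Cfsg.Agent.MaxSub.TensorU.TwoFix
import Cfsg.Agent.MaxSub.TensorU.TwoWord

/-!
Changing the frame of `F^a ⊗ F^2` by an upper unipotent.
-/

set_option autoImplicit false
set_option linter.style.haveILetI false
set_option linter.unusedSectionVars false

namespace Cfsg.Agent.MaxSub.TensorU

open Module Matrix Cfsg.Agent.Classical.U Cfsg.Agent.MaxSub.TensorMax

universe u

variable {F : Type u} [Field F] {a q : ℕ}

/-- A diagonal block matrix. -/
abbrev dgB {R : Type*} [Ring R] (g : R) : Matrix (Fin 2) (Fin 2) R := !![g, 0; 0, g]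

/-- Membership after a change of frame. -/
def Sh (q : ℕ) (G : Subgroup (Matrix (Fin a) (Fin 2) F ≃ₗ[F] Matrix (Fin a) (Fin 2) F))
    (e f : Fin 2 → F) (S : Module.End F (Fin a → F))
    (M : Matrix (Fin 2) (Fin 2) (Module.End F (Fin a → F))) : Prop :=
  Blk q G e f (upB S * M * upB (-S))

section Generic

variable {R : Type*} [Ring R]

lemma upB_mul (S T : R) : upB S * upB T = upB (S + T) := by
  rw [upB, upB, upB, Matrix.mul_fin_two]
  simp [add_comm]

lemma upB_zero : upB (0 : R) = 1 := by rw [upB, Matrix.one_fin_two]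

lemma root_blocks (S c : R) :
    upB S * loB c * upB (-S) = !![1 + S * c, -((1 + S * c) * S) + S; c, 1 - c * S] := by
  rw [upB, loB, upB, Matrix.mul_fin_two, Matrix.mul_fin_two]
  refine Matrix.ext fun i j => ?_
  fin_cases i <;> fin_cases j <;> simp <;> noncomm_ring

lemma frame_triangular (S x b y S' : R) :
    upB S * !![x, b; 0, y] * upB S' = !![x, x * S' + (b + S * y); 0, y] := by
  rw [upB, upB, Matrix.mul_fin_two, Matrix.mul_fin_two]
  refine Matrix.ext fun i j => ?_
  fin_cases i <;> fin_cases j <;> simp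

lemma dgB_mul (g h : R) : dgB g * dgB h = dgB (g * h) := by
  rw [dgB, dgB, dgB, Matrix.mul_fin_two]
  simp

lemma dgB_one : dgB (1 : R) = 1 := by rw [dgB, Matrix.one_fin_two]

lemma dg_conj_up (g g' S : R) (h : g * g' = 1) : dgB g * upB S * dgB g' = upB (g * S * g') := by
  rw [dgB, dgB, upB, upB, Matrix.mul_fin_two, Matrix.mul_fin_two]
  simp [h]

lemma dg_conj_lo (g g' S : R) (h : g * g' = 1) : dgB g * loB S * dgB g' = loB (g * S * g') := by
  rw [dgB, dgB, loB, loB, Matrix.mul_fin_two, Matrix.mul_fin_two]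
  simp [h]

lemma dg_conj_root (g g' S C : R) (h : g * g' = 1) (h' : g' * g = 1) :
    dgB g * (upB S * loB C * upB (-S)) * dgB g' =
      upB (g * S * g') * loB (g * C * g') * upB (-(g * S * g')) := by
  rw [← dg_conj_up g g' S h, ← dg_conj_lo g g' C h,
    show -(g * S * g') = g * -S * g' by noncomm_ring, ← dg_conj_up g g' (-S) h]
  have hd : dgB g' * dgB g = 1 := by rw [dgB_mul, h', dgB_one]
  simp only [mul_assoc]
  rw [← mul_assoc (dgB g') (dgB g), hd, one_mul, ← mul_assoc (dgB g') (dgB g), hd, one_mul]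

end Generic

variable {G : Subgroup (Matrix (Fin a) (Fin 2) F ≃ₗ[F] Matrix (Fin a) (Fin 2) F)} {e f : Fin 2 → F}

lemma Sh.mul {S : Module.End F (Fin a → F)}
    {M N : Matrix (Fin 2) (Fin 2) (Module.End F (Fin a → F))} (h : Sh q G e f S M)
    (h' : Sh q G e f S N) : Sh q G e f S (M * N) := by
  have := Blk.mul h h'
  unfold Sh
  convert this using 1
  rw [show upB S * M * upB (-S) * (upB S * N * upB (-S))
      = upB S * M * (upB (-S) * upB S) * N * upB (-S) by simp only [mul_assoc],
    upB_mul, neg_add_cancel, upB_zero, mul_one]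
  simp only [mul_assoc]

lemma sh_up (hF : SqField F q) (hp : IsUPair q e f) (hG : UFactors q G)
    {S : Module.End F (Fin a → F)} {c : F} (hc : c ^ q = -c) :
    Sh q G e f S (upB (c • (1 : Module.End F (Fin a → F)))) := by
  unfold Sh
  rw [upB_mul, upB_mul]
  simpa using blk_up_scalar hF hp hG hc

/-- Scalar block matrices. -/
noncomputable def scM (F : Type u) [Field F] (a : ℕ) :
    Matrix (Fin 2) (Fin 2) F →ₐ[F] Matrix (Fin 2) (Fin 2) (Module.End F (Fin a → F)) :=
  (Algebra.ofId F (Module.End F (Fin a → F))).mapMatrix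

lemma scM_apply (x y z w : F) :
    scM F a !![x, y; z, w] = !![x • 1, y • 1; z • 1, w • 1] := by
  refine Matrix.ext fun i j => ?_
  fin_cases i <;> fin_cases j <;>
    simp [scM, Algebra.ofId_apply, Algebra.algebraMap_eq_smul_one]

lemma scM_up (x : F) : scM F a (upB x) = upB (x • 1) := by
  rw [upB, scM_apply]; simp

lemma scM_lo (x : F) : scM F a (loB x) = loB (x • 1) := by
  rw [loB, scM_apply]; simp

end Cfsg.Agent.MaxSub.TensorU
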