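import Cfsg.Agent.MaxSub.TensorU.TwoBasic

/-!
A non-scalar upper root element of `F^a ⊗ F^2` gives all transvections.
-/

set_option autoImplicit false
set_option linter.style.haveILetI false
set_option linter.unusedSectionVars false

namespace Cfsg.Agent.MaxSub.TensorU

open Module Matrix Cfsg.Agent.Classical.U Cfsg.Agent.MaxSub.TensorMax
open Cfsg.Agent.MaxSub.ExtField (Mem mem_zero inv_apply_self self_inv_apply rk1)

universe u

variable {F : Type u} [Field F] {a q : ℕ}

lemma hr1_conj (g : UG a F q) (x : Fin a → F) :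
    (g.1.toLinearMap : Module.End F (Fin a → F)) * hr1 q x x * g.1.symm.toLinearMap
      = hr1 q (g.1 x) (g.1 x) := by
  refine LinearMap.ext fun w => ?_
  simp only [Module.End.mul_apply, LinearEquiv.coe_coe, hr1_apply, map_smul]
  rw [← UG_app g (g.1.symm w) x, LinearEquiv.apply_symm_apply]

variable (hF : SqField F q) {e f : Fin 2 → F} (hp : IsUPair q e f)
  {G : Subgroup (Matrix (Fin a) (Fin 2) F ≃ₗ[F] Matrix (Fin a) (Fin 2) F)}
  (hG : UFactors q G)
include hF hp hG

lemma up_add {S T : Module.End F (Fin a → F)} (h : Blk q G e f (upB S))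
    (h' : Blk q G e f (upB T)) : Blk q G e f (upB (S + T)) := by
  convert h.mul h' using 1
  rw [upB, upB, upB, Matrix.mul_fin_two]
  simp [add_comm]

lemma up_neg {S : Module.End F (Fin a → F)} (h : Blk q G e f (upB S)) :
    Blk q G e f (upB (-S)) := by
  refine h.inv ?_
  rw [upB, upB, Matrix.mul_fin_two, Matrix.one_fin_two]
  simp

lemma up_conj {S : Module.End F (Fin a → F)} (h : Blk q G e f (upB S)) {g : UG a F q}
    (hg : g ∈ SUG a F q) : Blk q G e f
      (upB ((g.1.toLinearMap : Module.End F (Fin a → F)) * S * g.1.symm.toLinearMap)) := by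
  have h' := ((blk_left hF hp hG hg).mul h).mul (blk_left hF hp hG (inv_mem hg))
  convert h' using 1
  rw [upB, upB, Matrix.mul_fin_two, Matrix.mul_fin_two]
  refine Matrix.ext fun i j => ?_
  have h1 : ∀ w, g.1 ((g⁻¹ : UG a F q).1 w) = w := fun w => g.1.apply_symm_apply w
  fin_cases i <;> fin_cases j <;> refine LinearMap.ext fun w => ?_ <;> simp

lemma up_sq_smul {S : Module.End F (Fin a → F)} (h : Blk q G e f (upB S)) {r : F}
    (hr : r ^ q = r) (hr0 : r ≠ 0) : Blk q G e f (upB ((r * r) • S)) := by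
  obtain ⟨δ, hδ0, hδ⟩ := hF.exists_skew
  have h' := blk_up_of_lo hF hp hG (blk_lo_of_up hF hp hG h hδ0 hδ) (c := r * δ)
    (mul_ne_zero hr0 hδ0) (by rw [mul_pow, hr, hδ, mul_neg])
  convert h' using 2
  rw [smul_smul]
  congr 1
  field_simp

/-- A rank-one upper element at an isotropic vector. -/
lemma exists_rankOne (hq : 3 ≤ q) (ha : 3 ≤ a) {S : Module.End F (Fin a → F)}
    (hS : Blk q G e f (upB S)) (hns : ∀ k : F, S ≠ k • 1) :
    ∃ (x : Fin a → F) (s : F), x ≠ 0 ∧ herm q x x = 0 ∧ s ≠ 0 ∧ s ^ q = -s ∧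
      Blk q G e f (upB (s • hr1 q x x)) := by
  haveI : Finite F := hF.1
  have hskew : ∀ x y, herm q (S x) y + herm q x (S y) = 0 := fun x y => by
    simpa using (hS.rel hF hp hG x y).2.2
  obtain ⟨v, hv, hμ⟩ : ∃ v, herm q v v = 0 ∧ herm q (S v) v ≠ 0 := by
    by_contra hcon
    push Not at hcon
    obtain ⟨k, hk⟩ := eq_smul_of_isotropic hF (by omega) S hcon
    exact hns k hk
  have hv0 : v ≠ 0 := fun h0 => hμ (by rw [h0, hF.herm_zero_right])
  set μ := herm q (S v) v with hμdef
  have hμq : μ ^ q = -μ := by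
    have h1 := hskew v v
    rw [← hF.herm_symm (S v) v] at h1
    linear_combination h1
  obtain ⟨t, ht0, ht⟩ := hF.exists_skew
  set N : Module.End F (Fin a → F) := hr1 q v v with hN
  -- the differences
  have hD : ∀ c : F, c ^ q = -c →
      Blk q G e f (upB (c • (N * S - S * N) - (c * c * μ) • N)) := fun c hc => by
    have h1 := up_add hF hp hG (up_conj hF hp hG hS
      (TG_le_SUG hF (trv_mem hF (⟨hv, hc⟩ : TrvCond q v c)))) (up_neg hF hp hG hS)
    convert h1 using 2
    refine LinearMap.ext fun w => ?_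
    have ht1 : ∀ z, (trv hF (⟨hv, hc⟩ : TrvCond q v c)).1 z = z + (c * herm q z v) • v :=
      trv_apply hF _
    have hs : (trv hF (⟨hv, hc⟩ : TrvCond q v c)).1.symm w = w + (-c * herm q w v) • v := by
      rw [LinearEquiv.symm_apply_eq, ht1]
      simp [herm_add_left, herm_neg_left, herm_smul_left, hv, add_assoc, ← add_smul]
    simp only [LinearMap.sub_apply, LinearMap.add_apply, LinearMap.smul_apply, Module.End.mul_apply,
      LinearMap.neg_apply, LinearEquiv.coe_coe, hs, ht1, hN, hr1_apply, map_add, map_smul,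
      herm_add_left, herm_smul_left, ← hμdef]
    module
  obtain ⟨r, hr, hr0, hr1'⟩ := exists_fix_ne hF hq
  by_cases hrr : r * r = 1
  · have hr_1 : r = -1 := (mul_self_eq_one_iff.1 hrr).resolve_left hr1'
    have h2 : (2 : F) ≠ 0 := fun h0 => hr1' (by linear_combination hr_1 - h0)
    refine ⟨v, -(2 * (t * t * μ)), hv0, hv,
      neg_ne_zero.2 (mul_ne_zero h2 (mul_ne_zero (mul_ne_zero ht0 ht0) hμ)), ?_, ?_⟩
    · rw [hF.neg_pow, mul_pow, mul_pow, mul_pow, ht, hμq, show (2 : F) = 1 + 1 by norm_num,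
        hF.add_pow, one_pow]
      ring
    · convert up_add hF hp hG (hD t ht) (hD (-t) (by rw [hF.neg_pow, ht])) using 2
      module
  · set k := r * r with hk
    have hk0 : k ≠ 0 := mul_ne_zero hr0 hr0
    have hkq : k ^ q = k := by rw [hk, mul_pow, hr]
    refine ⟨v, -((k * k - k) * (t * t * μ)), hv0, hv, neg_ne_zero.2 (mul_ne_zero ?_
      (mul_ne_zero (mul_ne_zero ht0 ht0) hμ)), ?_, ?_⟩
    · rw [show k * k - k = k * (k - 1) by ring]
      exact mul_ne_zero hk0 (sub_ne_zero.2 hrr)
    · rw [hF.neg_pow, mul_pow, mul_pow, mul_pow, ht, hμq, hF.sub_pow, mul_pow, hkq]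
      ring
    · convert up_add hF hp hG (hD (k * t) (by rw [mul_pow, hkq, ht, mul_neg]))
        (up_neg hF hp hG (up_sq_smul hF hp hG (hD t ht) hr hr0)) using 2
      rw [← hk]
      module

/-- All rank-one upper and lower elements at isotropic vectors. -/
lemma par_iso (hq : 3 ≤ q) (ha : 3 ≤ a) {S : Module.End F (Fin a → F)}
    (hS : Blk q G e f (upB S)) (hns : ∀ k : F, S ≠ k • 1) {z : Fin a → F} (hz : herm q z z = 0)
    {s : F} (hs : s ^ q = -s) :
    Blk q G e f (upB (s • hr1 q z z)) ∧ Blk q G e f (loB (s • hr1 q z z)) := by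
  haveI : Finite F := hF.1
  suffices hup : ∀ s : F, s ^ q = -s → Blk q G e f (upB (s • hr1 q z z)) by
    refine ⟨hup s hs, ?_⟩
    obtain ⟨δ, hδ0, hδ⟩ := hF.exists_skew
    convert blk_lo_of_up hF hp hG (hup (-(δ * δ) * s) (by
      rw [mul_pow, hF.neg_pow, mul_pow, hδ, hs]; ring)) hδ0 hδ using 2
    rw [smul_smul]
    congr 1
    field_simp
  intro s hs
  have hzero : Blk q G e f (upB (0 : Module.End F (Fin a → F))) := by
    rw [upB, ← Matrix.one_fin_two]; exact blk_one
  rcases eq_or_ne s 0 with rfl | hs0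
  · rw [zero_smul]; exact hzero
  rcases eq_or_ne z 0 with rfl | hz0
  · rw [hr1_zero_left, smul_zero]; exact hzero
  obtain ⟨x, s₀, hx0, hx, hs₀0, hs₀, hx'⟩ := exists_rankOne hF hp hG hq ha hS hns
  obtain ⟨l, hl⟩ := hF.exists_norm (c := s / s₀) (by
    rw [div_pow, hs, hs₀, neg_div_neg_eq])
  have hl0 : l ≠ 0 := fun h0 => by
    rw [h0, zero_pow (Nat.succ_ne_zero q)] at hl
    exact div_ne_zero hs0 hs₀0 hl.symm
  obtain ⟨g, hg, hgx⟩ := TG_transitive_vectors hF ha (hasUni hF ha (by omega)) hx0 hx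
    (smul_ne_zero hl0 hz0) (show herm q (l • z) (l • z) = 0 by
      simp [herm_smul_left, herm_smul_right, hz])
  convert up_conj hF hp hG hx' (TG_le_SUG hF hg) using 2
  rw [mul_smul_comm, smul_mul_assoc, hr1_conj, hgx, hr1_smul_left, hr1_smul_right, smul_smul,
    smul_smul]
  congr 1
  rw [← mul_div_cancel₀ s hs₀0, ← hl, pow_succ']
  ring

lemma centre_iff {x : Fin a → F} :
    IsCentre q G (colMap e x) ↔ ∀ c : F, c ^ q = -c → Blk q G e f (upB (c • hr1 q x x)) := by
  have hkey : ∀ (c : F) (X : Matrix (Fin a) (Fin 2) F),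
      con q f (rk1 (c • bfDual q (colMap e x)) (colMap e x) X) = c • hr1 q x x (con q e X) ∧
      con q e (rk1 (c • bfDual q (colMap e x)) (colMap e x) X) = 0 := by
    intro c X
    have h1 : bfDual q (colMap e x) X = herm q (con q e X) x := by
      show bf q X (colMap e x) = _
      rw [← bf_symm hF (colMap e x) X, bf_colMap_left _ _ _ hF, hF.herm_symm]
    simp [h1, map_smul, con_colMap, hp.1, hp.2.2, hr1_apply, smul_smul]
  constructor
  · intro h c hc
    obtain ⟨g, hg, hgx⟩ := h c hc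
    refine ⟨g, hg, fun X => ?_⟩
    rw [hgx, map_add, map_add, (hkey c X).1, (hkey c X).2]
    simp
  · intro h c hc
    obtain ⟨g, hg, hgx⟩ := h c hc
    refine ⟨g, hg, fun X => pair_ext hF hp ?_ ?_⟩
    · rw [(hgx X).1, map_add, (hkey c X).1]; simp
    · rw [(hgx X).2, map_add, (hkey c X).2]; simp

omit hF hp in
lemma IsCentre.smul (hF : SqField F q) {b : ℕ}
    {H : Subgroup (Matrix (Fin a) (Fin b) F ≃ₗ[F] Matrix (Fin a) (Fin b) F)}
    {M : Matrix (Fin a) (Fin b) F} (h : IsCentre q H M) (l : F) : IsCentre q H (l • M) := by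
  intro c hc
  refine (h (c * (l * l ^ q)) (by rw [mul_pow, mul_pow, hc, hF.pow_pow]; ring)).congr fun X => ?_
  simp only [LinearMap.smulRight_apply, LinearMap.smul_apply, smul_smul, smul_eq_mul]
  congr 1
  show c * (l * l ^ q) * bf q X M = c * bf q X (l • M) * l
  rw [bf_smul_right]
  ring

lemma centre_move {x y : Fin a → F} (h : IsCentre q G (colMap e x + colMap f y))
    {M : Matrix (Fin 2) (Fin 2) (Module.End F (Fin a → F))} (hM : Blk q G e f M) :
    IsCentre q G (colMap e (M 0 0 x + M 0 1 y) + colMap f (M 1 0 x + M 1 1 y)) := by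
  obtain ⟨g, hg, hgx⟩ := hM
  have := h.map hF hG hg
  convert this using 1
  refine pair_ext hF hp ?_ ?_
  · rw [(hgx _).1, (con_pair hF hp _ _).1, (con_pair hF hp _ _).1, (con_pair hF hp _ _).2]
  · rw [(hgx _).2, (con_pair hF hp _ _).2, (con_pair hF hp _ _).1, (con_pair hF hp _ _).2]

/-- All the vectors of the line at `e` are centres. -/
lemma centre_line (hq : 3 ≤ q) (ha : 3 ≤ a) {S : Module.End F (Fin a → F)}
    (hS : Blk q G e f (upB S)) (hns : ∀ k : F, S ≠ k • 1) (y : Fin a → F) :
    IsCentre q G (colMap e y) := by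
  classical
  haveI : Finite F := hF.1
  have hiso : ∀ w, herm q w w = 0 → IsCentre q G (colMap e w) := fun w hw =>
    (centre_iff hF hp hG).2 fun c hc => (par_iso hF hp hG hq ha hS hns hw hc).1
  rcases eq_or_ne (herm q y y) 0 with hy | hy
  · exact hiso y hy
  obtain ⟨x, hx0, hx⟩ := exists_isotropic hF (n := a) (by omega)
  obtain ⟨z, hxz⟩ := exists_partner hF hx0 hx
  obtain ⟨-, hz, hxz1⟩ := id hxz
  have hzx := IsUPair.swap_val hF hxz
  obtain ⟨u, hu, hun⟩ : ∃ u ∈ perpTwo q x z, herm q u u ≠ 0 := by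
    by_contra hcon
    push Not at hcon
    have hne : perpTwo q x z ≠ ⊥ := fun h0 => by
      have h1 := finrank_perpTwo (q := q) x z
      rw [h0, finrank_bot] at h1
      omega
    obtain ⟨u, hu, hu0⟩ := Submodule.exists_mem_ne_zero_of_ne_bot hne
    obtain ⟨w, hw, hwu⟩ := nondeg_perpTwo hF hxz hu hu0
    refine hwu (zero_of_semilinear hF (A := herm q w u) (B := herm q u w) fun c => ?_).1
    have h2 := hcon (c • w + u) (add_mem (Submodule.smul_mem _ _ hw) hu)
    simp only [herm_add_left, hF.herm_add_right, herm_smul_left, herm_smul_right, hcon w hw,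
      hcon u hu] at h2
    linear_combination h2
  rw [mem_perpTwo] at hu
  obtain ⟨β, hβ⟩ := hF.exists_trace (c := -herm q u u) (by rw [hF.neg_pow, hF.herm_symm])
  set w := x + u + β • z with hwdef
  have hxu := herm_eq_zero_symm hF hu.1
  have hzu := herm_eq_zero_symm hF hu.2
  have hwz : herm q w z = 1 := by
    simp [hwdef, herm_add_left, herm_smul_left, hxz1, hu.2, hz]
  have hzw : herm q z w = 1 := by rw [← hF.herm_symm, hwz, one_pow]
  have hxw : herm q x w = β ^ q := by
    simp [hwdef, hF.herm_add_right, herm_smul_right, hx, hxu, hxz1]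
  have hwx : herm q w x = β := by rw [← hF.herm_symm, hxw, hF.pow_pow]
  have hww : herm q w w = 0 := by
    simp only [hwdef, herm_add_left, hF.herm_add_right, herm_smul_left, herm_smul_right, hx,
      hz, hu.1, hu.2, hxu, hzu, hxz1, hzx]
    linear_combination hβ
  obtain ⟨δ, hδ0, hδ⟩ := hF.exists_skew
  obtain ⟨r, hr, hr0, hr1'⟩ := exists_fix_ne hF hq
  -- `κ = k s` fixed, neither zero nor `-1`
  set κ := -r with hκdef
  have hκ : κ ^ q = κ := by rw [hκdef, hF.neg_pow, hr]
  have hκ0 : κ ≠ 0 := neg_ne_zero.2 hr0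
  have hκ1 : 1 + κ ≠ 0 := by
    rw [hκdef, ← sub_eq_add_neg, sub_ne_zero]; exact hr1'.symm
  have h1 : IsCentre q G (colMap e x + colMap f 0) := by
    rw [map_zero, add_zero]; exact hiso x hx
  have h2 := centre_move hF hp hG h1 (par_iso hF hp hG hq ha hS hns hz hδ).2
  have h3 := centre_move hF hp hG h2 (par_iso hF hp hG hq ha hS hns hww (s := κ / δ)
    (by rw [div_pow, hκ, hδ, div_neg])).1
  have h4 := centre_move hF hp hG h3 (par_iso hF hp hG hq ha hS hns hz (s := -δ / (1 + κ))
    (by rw [div_pow, hF.neg_pow, hF.add_pow, one_pow, hκ, hδ, neg_div])).2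
  set y₀ := x + κ • w with hy₀
  have hC : IsCentre q G (colMap e y₀) := by
    convert h4 using 1
    refine pair_ext hF hp ?_ ?_
    · rw [(con_pair hF hp _ _).1, con_colMap, hp.2.2, one_smul]
      simp [hr1_apply, hxz1, hzw, herm_smul_left, smul_smul, hy₀]
      congr 1
      field_simp
    · rw [(con_pair hF hp _ _).2, con_colMap, hp.1, zero_smul]
      simp [hr1_apply, hxz1, hzw, hz, herm_smul_left, herm_add_left, hwz, smul_smul, ← add_smul]
      rw [eq_comm, smul_eq_zero]
      left
      field_simp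
      ring
  have hy₀n : herm q y₀ y₀ ≠ 0 := by
    have e1 : herm q y₀ y₀ = -(κ * herm q u u) := by
      simp only [hy₀, herm_add_left, hF.herm_add_right, herm_smul_left, herm_smul_right, hx, hxw,
        hwx, hww, hκ]
      linear_combination κ * hβ
    rw [e1]
    exact neg_ne_zero.2 (mul_ne_zero hκ0 hun)
  obtain ⟨l, hl⟩ := hF.exists_norm (c := herm q y y / herm q y₀ y₀)
    (by rw [div_pow, hF.herm_symm, hF.herm_symm])
  have hln : herm q (l • y₀) (l • y₀) = herm q y y := by
    rw [herm_smul_left, herm_smul_right, ← mul_assoc, ← pow_succ', hl, div_mul_cancel₀ _ hy₀n]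
  obtain ⟨g, hg, hgy⟩ := SUG_transitive_norm hF (by omega) hln (hln.trans_ne hy)
  have h5 := hC.smul hG hF l
  rw [← map_smul] at h5
  have h6 : IsCentre q G (colMap e (l • y₀) + colMap f 0) := by
    rw [map_zero, add_zero]; exact h5
  have h7 := centre_move hF hp hG h6 (blk_left hF hp hG hg)
  convert h7 using 1
  simp [← hgy]

/-- A non-scalar upper element gives all transvections. -/
theorem isCentre_two (hq : 3 ≤ q) (ha : 3 ≤ a) {S : Module.End F (Fin a → F)}
    (hS : Blk q G e f (upB S)) (hns : ∀ k : F, S ≠ k • 1) {M : Matrix (Fin a) (Fin 2) F}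
    (hM : bf q M M = 0) : IsCentre q G M := by
  haveI : Finite F := hF.1
  set x := con q f M
  set y := con q e M
  have hxy : herm q x y + herm q y x = 0 := by rw [← bf_pair hF hp, hM]
  rcases eq_or_ne y 0 with hy0 | hy0
  · have := centre_line hF hp hG hq ha hS hns x
    rwa [show colMap e x = M by rw [← decomp hF hp M]; simp [x, y] at *; simp [hy0]] at this
  have hpar : ∀ (w : Fin a → F) (c : F), c ^ q = -c → Blk q G e f (upB (c • hr1 q w w)) := fun w c hc =>
    (centre_iff hF hp hG).1 (centre_line hF hp hG hq ha hS hns w) c hc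
  obtain ⟨δ, hδ0, hδ⟩ := hF.exists_skew
  -- the lower vector
  obtain ⟨c, hc0, hc⟩ := hF.exists_skew
  have hyf : IsCentre q G (colMap f y) := by
    have h1 : IsCentre q G (colMap e ((-c) • y) + colMap f 0) := by
      rw [map_zero, add_zero]; exact centre_line hF hp hG hq ha hS hns _
    have h2 := centre_move hF hp hG h1 (blk_weyl hF hp hG hc0 hc)
    simpa [smul_smul, hc0] using h2
  obtain ⟨w, hw⟩ : ∃ w, herm q y w ≠ 0 := by
    by_contra hcon
    push Not at hcon
    exact hy0 (hF.eq_zero_of_herm y hcon)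
  set f₀ := ((herm q y w)⁻¹) ^ q • w with hf₀
  have hyf₀ : herm q y f₀ = 1 := by
    rw [hf₀, herm_smul_right, hF.pow_pow, inv_mul_cancel₀ hw]
  set l := -δ⁻¹ with hl
  have hlq : l ^ q = δ⁻¹ := by rw [hl, hF.neg_pow, inv_pow, hδ, inv_neg, neg_neg]
  have hxyq : (-herm q x y) ^ q = -(-herm q x y) := by
    rw [hF.neg_pow, hF.herm_symm]; linear_combination -hxy
  have h3 := up_add hF hp hG (up_add hF hp hG (up_add hF hp hG (hpar (x + l • f₀) δ hδ)
    (up_neg hF hp hG (hpar x δ hδ)))
    (up_neg hF hp hG (hpar f₀ (δ * (l * l ^ q)) (by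
      rw [mul_pow, mul_pow, hF.pow_pow, hδ]; ring))))
    (hpar f₀ (-herm q x y) hxyq)
  have h4 := centre_move hF hp hG (x := 0) (y := y) (by rw [map_zero, zero_add]; exact hyf) h3
  convert h4 using 1
  rw [← decomp hF hp M]
  simp only [hr1_apply, LinearMap.add_apply, LinearMap.neg_apply, LinearMap.smul_apply,
    LinearMap.zero_apply, Module.End.one_apply, map_zero, zero_add, Fin.isValue, Matrix.of_apply,
    Matrix.cons_val', Matrix.cons_val_zero, Matrix.cons_val_one, Matrix.empty_val',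
    Matrix.cons_val_fin_one, hF.herm_add_right, herm_smul_right, hyf₀, hlq]
  rw [show herm q y x = -herm q x y by linear_combination hxy]
  refine congrArg (fun z => colMap e z + colMap f y) ?_
  show x = _
  simp only [hl, smul_add, smul_smul]
  match_scalars <;> field_simp <;> ring

end Cfsg.Agent.MaxSub.TensorU
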