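import Cfsg.Agent.MaxSub.TensorU.Main
import Cfsg.Agent.MaxSub.TensorU.TwoAscent
import Cfsg.Agent.MaxSub.TensorU.TwoParam

/-!
Stabilisers of tensor decompositions `2 ⊗ 3` are maximal in `SU_6(q)` for `q ≥ 3`.
-/

set_option autoImplicit false
set_option linter.style.haveILetI false
set_option linter.unusedSectionVars false

namespace Cfsg.Agent.MaxSub.TensorU

open Module Matrix Cfsg.Geo Cfsg.Agent.GeoClasses Cfsg.Agent.Classical.U Cfsg.Agent.ClassicalMax
  Cfsg.Agent.MaxSub.TensorMax
open Cfsg.Agent.MaxSub.ExtField (Mem mem_zero inv_apply_self self_inv_apply rk1)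
open scoped Kronecker MatrixGroups

universe u

variable {F : Type u} [Field F] {n q : ℕ}

/-- The two orders of the factors give the same stabiliser. -/
lemma tensorProductSubgroup_swap {a b : ℕ} (e : Fin n ≃ Fin a × Fin b) (P : GL (Fin n) F) :
    tensorProductSubgroup a b e P =
      tensorProductSubgroup b a (e.trans (Equiv.prodComm _ _)) P := by
  have key : ∀ {a b : ℕ} (e : Fin n ≃ Fin a × Fin b) (A : GL (Fin a) F) (B : GL (Fin b) F),
      glReindex e.symm (glKron A B) =
        glReindex (e.trans (Equiv.prodComm _ _)).symm (glKron B A) := by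
    intro a b e A B
    refine Units.ext ?_
    rw [glReindex_apply, glReindex_apply]
    ext i j
    simp [glKron, mul_comm]
  ext g
  constructor
  · rintro ⟨_, ⟨k, ⟨A, B, hk⟩, rfl⟩, rfl⟩
    have hk' : k = glKron A B := Units.ext hk
    exact ⟨_, ⟨_, ⟨B, A, rfl⟩, rfl⟩, by rw [hk']; exact congrArg _ (key e A B).symm⟩
  · rintro ⟨_, ⟨k, ⟨B, A, hk⟩, rfl⟩, rfl⟩
    have hk' : k = glKron B A := Units.ext hk
    exact ⟨_, ⟨_, ⟨A, B, rfl⟩, rfl⟩, by rw [hk']; exact congrArg _ (key e A B)⟩

/-- The stabiliser of a unitary tensor decomposition `2 ⊗ 3` is maximal for `q ≥ 3`. -/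
theorem suGL_tensor_two_three (hF : SqField F q) (hq : 3 ≤ q) (e₀ : Fin n ≃ Fin 2 × Fin 3)
    (P : GL (Fin n) F)
    {f₁ : (Fin 2 → F) → (Fin 2 → F) → F} {f₂ : (Fin 3 → F) → (Fin 3 → F) → F}
    (hf₁ : IsUnitaryFormPow q f₁) (hf₂ : IsUnitaryFormPow q f₂)
    (hT : IsTensorFormStructure (fun x : F => x ^ q) (Cfsg.hermForm n F q) f₁ f₂ e₀ P) :
    IsMaximalIn (suGL n F q) (tensorProductSubgroup 2 3 e₀ P ⊓ suGL n F q) := by
  classical
  haveI : Finite F := hF.1
  have hn : n = 2 * 3 := by simpa using Fintype.card_congr e₀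
  have hn4 : 4 ≤ n := by omega
  obtain ⟨P', c, hc, hsub, hform₀⟩ := exists_std hF e₀ P hf₁ hf₂ hT
  rw [← hsub, tensorProductSubgroup_swap]
  set e : Fin n ≃ Fin 3 × Fin 2 := e₀.trans (Equiv.prodComm _ _) with he
  have hform : ∀ X Y : Matrix (Fin 3) (Fin 2) F,
      herm q ((toMat e P').symm X) ((toMat e P').symm Y) = c * bf q X Y := fun X Y => by
    have h1 := hform₀ Xᵀ Yᵀ
    rw [show bf q Xᵀ Yᵀ = bf q X Y by
      simp only [bf, herm_def, Matrix.transpose_apply]
      exact Finset.sum_comm] at h1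
    exact h1
  have hcq : c ^ q = c := by
    set X : Matrix (Fin 3) (Fin 2) F :=
      colMap (Pi.single ⟨0, by omega⟩ 1) (Pi.single ⟨0, by omega⟩ 1)
    have h1 : bf q X X = 1 := by
      rw [bf_colMap_colMap hF, herm_single_one _ hF.q_ne_zero, herm_single_one _ hF.q_ne_zero]
      simp
    have h2 := hform X X
    rw [h1, mul_one] at h2
    rw [← h2, hF.herm_symm]
  refine ⟨lt_of_le_not_ge inf_le_right fun hle => suGL_not_le_tensorProductSubgroup hF (by omega)
    (by omega) (by omega) e P' (hle.trans inf_le_left), fun M hM hMS => ?_⟩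
  set G := M.map (toAct e P') with hGdef
  have hherm : ∀ (g : GL (Fin n) F) (X : Matrix (Fin 3) (Fin 2) F),
      (toMat e P').symm (toAct e P' g X) = (g : Matrix (Fin n) (Fin n) F) *ᵥ (toMat e P').symm X :=
    fun g X => by rw [toAct_apply, LinearEquiv.symm_apply_apply]
  have hfac : UFactors q G := by
    have hin : ∀ (A : GL (Fin 3) F) (B : GL (Fin 2) F), A ∈ specialLinear (Fin 3) F →
        B ∈ specialLinear (Fin 2) F →
        (∀ X Y : Matrix (Fin 3) (Fin 2) F, bf q ((A : Matrix (Fin 3) (Fin 3) F) * X * (B : Matrix (Fin 2) (Fin 2) F)ᵀ)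
          ((A : Matrix (Fin 3) (Fin 3) F) * Y * (B : Matrix (Fin 2) (Fin 2) F)ᵀ) = bf q X Y) →
        toAct e P' (tensorElt e P' A B) ∈ G := fun A B hA hB hAB => by
      refine ⟨_, hM ⟨tensorElt_mem e P' A B, fun x y => ?_, ?_⟩, rfl⟩
      · obtain ⟨X, rfl⟩ := (toMat e P').symm.surjective x
        obtain ⟨Y, rfl⟩ := (toMat e P').symm.surjective y
        show herm q (((tensorElt e P' A B : GL (Fin n) F) : Matrix (Fin n) (Fin n) F) *ᵥ _)
          (((tensorElt e P' A B : GL (Fin n) F) : Matrix (Fin n) (Fin n) F) *ᵥ _) = _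
        rw [← hherm, ← hherm, hform, toAct_tensorElt, toAct_tensorElt, hAB]
        exact (hform X Y).symm
      · show tensorElt e P' A B ∈ specialLinear (Fin n) F
        rw [mem_specialLinear_iff, det_tensorElt, mem_specialLinear_iff.1 hA,
          mem_specialLinear_iff.1 hB, one_pow, one_pow, mul_one]
    refine ⟨?_, fun g hg => ?_, fun g hg => ?_⟩
    · rintro _ ⟨m, hm, rfl⟩ X Y
      have h1 := (hMS hm).1 ((toMat e P').symm X) ((toMat e P').symm Y)
      simp only [Units.coeHom_apply] at h1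
      rw [← hherm, ← hherm] at h1
      have h2 := (hform (toAct e P' m X) (toAct e P' m Y)).symm.trans (h1.trans (hform X Y))
      exact mul_left_cancel₀ hc h2
    · obtain ⟨A, hA, hAv⟩ := exists_gl_of_SUG hg
      refine ⟨_, hin A 1 hA (one_mem _) (fun X Y => ?_), fun X => ?_⟩
      · rw [Units.val_one, Matrix.transpose_one, Matrix.mul_one, Matrix.mul_one, hAv,
          bf_act_left hF]
      · rw [toAct_tensorElt, hAv, Units.val_one]
        simp [act]
    · obtain ⟨B, hB, hBv⟩ := exists_gl_of_SUG hg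
      refine ⟨_, hin 1 B (one_mem _) hB (fun X Y => ?_), fun X => ?_⟩
      · rw [Units.val_one, Matrix.one_mul, Matrix.one_mul, hBv, bf_act_right]
      · rw [toAct_tensorElt, hBv, Units.val_one]
        simp [act]
  obtain ⟨v₀, hv₀0, hv₀⟩ := exists_isotropic hF (n := 2) (by omega)
  obtain ⟨v₁, hpair⟩ := exists_partner hF hv₀0 hv₀
  by_cases hns : ∃ S, Blk q G v₀ v₁ (upB S) ∧ ∀ k : F, S ≠ k • 1
  · right
    refine le_antisymm hMS ?_
    set M' := M.comap (ugToGL n F q) with hM'
    suffices hS : SUG n F q ≤ M' by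
      intro g hg
      obtain ⟨k, hk, rfl⟩ := exists_ugToGL_eq hg
      exact hS hk
    rw [SUG_eq_TG hF (by omega) (by omega), TG, Subgroup.closure_le]
    rintro k ⟨v, t, hvt, hk⟩
    obtain ⟨S, hS, hSns⟩ := hns
    have hMv : bf q (toMat e P' v) (toMat e P' v) = 0 := by
      have := hform (toMat e P' v) (toMat e P' v)
      rw [LinearEquiv.symm_apply_apply, hvt.1] at this
      exact (mul_eq_zero.1 this.symm).resolve_left hc
    obtain ⟨_, ⟨m, hm, rfl⟩, hmx⟩ := isCentre_two hF hpair hfac hq le_rfl hS hSns hMv (t * c)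
      (by rw [mul_pow, hvt.2, hcq, neg_mul])
    show ugToGL n F q k ∈ M
    suffices heq : ugToGL n F q k = m by rw [heq]; exact hm
    refine gl_ext_mulVec fun x => (toMat e P').injective ?_
    have h1 := hmx (toMat e P' x)
    rw [toAct_apply, LinearEquiv.symm_apply_apply] at h1
    rw [h1, ugToGL_mulVec, hk, map_add, map_smul, LinearMap.smulRight_apply]
    congr 2
    show t * _ = t * c * bf q _ _
    rw [mul_assoc, ← hform, LinearEquiv.symm_apply_apply, LinearEquiv.symm_apply_apply]
  · left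
    refine le_antisymm (le_inf (fun g hg => ?_) hMS) hM
    push Not at hns
    have ht := isTens_two hF hpair hfac hns hq rfl (h := toAct e P' g) ⟨g, hg, rfl⟩
    obtain ⟨A, B, hAB⟩ := tensor_of_lines (by omega) (by omega) (toAct e P' g) fun w hw => by
      obtain ⟨k, -, hk⟩ := ht.map_line (by omega) hw
      exact ⟨k, hk⟩
    have hdA : A.det ≠ 0 := fun h0 => by
      obtain ⟨u, hu, hAu⟩ := Matrix.exists_mulVec_eq_zero_iff.2 h0
      obtain ⟨i, hi⟩ := Function.ne_iff.1 hu
      have h1 : toAct e P' g (vecMulVec u (Pi.single ⟨0, by omega⟩ 1)) = toAct e P' g 0 := by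
        rw [hAB, hAB, Matrix.mul_vecMulVec, hAu]
        simp [Matrix.zero_vecMulVec]
      have h2 := congrFun (congrFun ((toAct e P' g).injective h1) i) ⟨0, by omega⟩
      exact hi (by simpa [vecMulVec_apply] using h2)
    have hdB : B.det ≠ 0 := fun h0 => by
      obtain ⟨u, hu, hBu⟩ := Matrix.exists_vecMul_eq_zero_iff.2 h0
      obtain ⟨i, hi⟩ := Function.ne_iff.1 hu
      have h1 : toAct e P' g (vecMulVec (Pi.single ⟨0, by omega⟩ 1) u) = toAct e P' g 0 := by
        rw [hAB, hAB, Matrix.mul_assoc, Matrix.vecMulVec_mul, hBu]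
        ext i j
        simp [Matrix.mul_apply, vecMulVec_apply]
      have h2 := congrFun (congrFun ((toAct e P' g).injective h1) ⟨0, by omega⟩) i
      exact hi (by simpa [vecMulVec_apply] using h2)
    have hge : g = tensorElt e P' (Matrix.GeneralLinearGroup.mkOfDetNeZero A hdA)
        (Matrix.GeneralLinearGroup.mkOfDetNeZero Bᵀ (by rwa [Matrix.det_transpose])) :=
      toAct_injective e P' (LinearEquiv.ext fun X => by
        rw [toAct_tensorElt, hAB]
        exact congrArg (A * X * ·) (Matrix.transpose_transpose B).symm)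
    rw [hge]
    exact tensorElt_mem e P' _ _

end Cfsg.Agent.MaxSub.TensorU
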