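import Cfsg.Agent.MaxSub.TensorU.TwoFrame

/-!
A word in the scalar and the opposite root elements produces a shifted root group.
-/

set_option autoImplicit false
set_option linter.style.haveILetI false
set_option linter.unusedSectionVars false
set_option maxHeartbeats 1000000

namespace Cfsg.Agent.MaxSub.TensorU

open Module Matrix Cfsg.Agent.Classical.U Cfsg.Agent.MaxSub.TensorMax

universe u

variable {F : Type u} [Field F] {a q : ℕ}

open Polynomial in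
/-- The two polynomials of the word evaluated at an operator. -/
lemma word_values {A : Type*} [Ring A] [Algebra F A] (L : A) {δ : F} (hδ0 : δ ≠ 0)
    (c₁ b₁ c₂ b₂ c₃ γ : F)
    (hC : (c₁ + c₂ + c₃) • L + (c₁ * b₁ * (c₂ + c₃) + (c₁ + c₂) * b₂ * c₃) • L ^ 2
      + (c₁ * b₁ * c₂ * b₂ * c₃) • L ^ 3 = γ • 1)
    {Pp Cp : F[X]}
    (hPp : Pp = 1 + C (b₁ * δ) * (C (c₂ / δ) * X) + C (c₃ / δ) * X *
      (C (b₁ * δ) + C (b₂ * δ) + C (b₁ * δ) * (C (c₂ / δ) * X) * C (b₂ * δ)))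
    (hCp : Cp = C (c₁ / δ) * X + C (c₂ / δ) * X + C (c₁ / δ) * X * C (b₁ * δ) * (C (c₂ / δ) * X) +
      C (c₃ / δ) * X * (1 + C (c₁ / δ) * X * C (b₁ * δ) + C (c₁ / δ) * X * C (b₂ * δ)
        + C (c₂ / δ) * X * C (b₂ * δ)
        + C (c₁ / δ) * X * C (b₁ * δ) * (C (c₂ / δ) * X) * C (b₂ * δ))) :
    aeval L Pp = 1 + (c₂ * b₁ + c₃ * (b₁ + b₂)) • L + (c₂ * b₁ * c₃ * b₂) • L ^ 2 ∧
      aeval L Cp = (γ / δ) • 1 := by
  constructor
  · rw [hPp]
    simp only [map_add, map_mul, map_one, aeval_C, aeval_X, Algebra.algebraMap_eq_smul_one,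
      smul_mul_assoc, mul_smul_comm, one_mul, mul_one, smul_smul, mul_add, add_mul, smul_add,
      pow_two]
    match_scalars <;> field_simp
  · rw [hCp, div_eq_inv_mul γ δ, mul_smul, ← hC]
    simp only [map_add, map_mul, map_one, aeval_C, aeval_X, Algebra.algebraMap_eq_smul_one,
      smul_mul_assoc, mul_smul_comm, one_mul, mul_one, smul_smul, mul_add, add_mul, smul_add,
      pow_two, pow_succ, pow_zero, mul_assoc]
    match_scalars <;> field_simp <;> ring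

variable (hF : SqField F q) {e f : Fin 2 → F} (hp : IsUPair q e f)
  {G : Subgroup (Matrix (Fin a) (Fin 2) F ≃ₗ[F] Matrix (Fin a) (Fin 2) F)}
  (hG : UFactors q G)
include hF hp hG

open Polynomial in
/-- The word moves the graph by a polynomial in `L`. -/
lemma sh_shift {S L : Module.End F (Fin a → F)} {δ : F} (hδ0 : δ ≠ 0) (hδ : δ ^ q = -δ)
    (hL : ∀ c : F, c ^ q = c → Sh q G e f S (loB ((c / δ) • L)))
    {c₁ b₁ c₂ b₂ c₃ γ : F} (hc₁ : c₁ ^ q = c₁) (hb₁ : b₁ ^ q = b₁) (hc₂ : c₂ ^ q = c₂)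
    (hb₂ : b₂ ^ q = b₂) (hc₃ : c₃ ^ q = c₃) (hγ0 : γ ≠ 0) (hγ : γ ^ q = γ)
    (hC : (c₁ + c₂ + c₃) • L + (c₁ * b₁ * (c₂ + c₃) + (c₁ + c₂) * b₂ * c₃) • L ^ 2
      + (c₁ * b₁ * c₂ * b₂ * c₃) • L ^ 3 = γ • 1) :
    ∀ c : F, c ^ q = -c → Sh q G e f (S + (δ / γ) • (1 + (c₂ * b₁ + c₃ * (b₁ + b₂)) • L
      + (c₂ * b₁ * c₃ * b₂) • L ^ 2)) (loB (c • (1 : Module.End F (Fin a → F)))) := by
  intro c hc
  set t := -(c * (δ * δ) / (γ * γ)) with ht
  have htq : t ^ q = -t := by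
    rw [ht, hF.neg_pow, div_pow, mul_pow, mul_pow, mul_pow, hc, hδ, hγ]
    ring
  have hb : ∀ x : F, x ^ q = x → (x * δ) ^ q = -(x * δ) := fun x hx => by
    rw [mul_pow, hx, hδ, mul_neg]
  have hnb : ∀ x : F, x ^ q = x → (-x) ^ q = -x := fun x hx => by rw [hF.neg_pow, hx]
  have hW := ((((((hL c₁ hc₁).mul (sh_up hF hp hG (hb b₁ hb₁))).mul (hL c₂ hc₂)).mul
    (sh_up hF hp hG (hb b₂ hb₂))).mul (hL c₃ hc₃)).mul (sh_up hF hp hG htq)).mul
    (((((hL (-c₃) (hnb _ hc₃)).mul (sh_up hF hp hG (hb (-b₂) (hnb _ hb₂)))).mul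
      (hL (-c₂) (hnb _ hc₂))).mul (sh_up hF hp hG (hb (-b₁) (hnb _ hb₁)))).mul
      (hL (-c₁) (hnb _ hc₁)))
  have hgen := word_conj (C (c₁ / δ) * X) (C (b₁ * δ)) (C (c₂ / δ) * X) (C (b₂ * δ))
    (C (c₃ / δ) * X) (C t)
  generalize hPp : (1 + C (b₁ * δ) * (C (c₂ / δ) * X) + C (c₃ / δ) * X *
      (C (b₁ * δ) + C (b₂ * δ) + C (b₁ * δ) * (C (c₂ / δ) * X) * C (b₂ * δ)) : F[X]) = Pp at hgen
  generalize hCp : (C (c₁ / δ) * X + C (c₂ / δ) * X + C (c₁ / δ) * X * C (b₁ * δ) * (C (c₂ / δ) * X)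
      + C (c₃ / δ) * X * (1 + C (c₁ / δ) * X * C (b₁ * δ) + C (c₁ / δ) * X * C (b₂ * δ)
        + C (c₂ / δ) * X * C (b₂ * δ)
        + C (c₁ / δ) * X * C (b₁ * δ) * (C (c₂ / δ) * X) * C (b₂ * δ)) : F[X]) = Cp at hgen
  obtain ⟨hP, hCv⟩ := word_values L hδ0 c₁ b₁ c₂ b₂ c₃ γ hC hPp.symm hCp.symm
  generalize hPdef : (1 + (c₂ * b₁ + c₃ * (b₁ + b₂)) • L + (c₂ * b₁ * c₃ * b₂) • L ^ 2) = P at hP ⊢
  have h2 := congrArg (evM L) hgen
  simp only [map_mul, evM_lo, evM_up, evM_mat, map_neg, aeval_C, aeval_X, map_add, map_sub,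
    map_pow, map_one, map_zero, hP, hCv] at h2
  simp only [Algebra.algebraMap_eq_smul_one, smul_mul_assoc, one_mul, smul_smul] at h2
  unfold Sh
  have hsplit : upB (S + (δ / γ) • P) * loB (c • (1 : Module.End F (Fin a → F))) *
      upB (-(S + (δ / γ) • P)) = upB S * (upB ((δ / γ) • P) * loB (c • 1) * upB (-((δ / γ) • P))) *
        upB (-S) := by
    rw [← upB_mul, show -(S + (δ / γ) • P) = -((δ / γ) • P) + -S from neg_add_rev _ _, ← upB_mul]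
    simp only [mul_assoc]
  rw [hsplit]
  suffices heq : upB ((δ / γ) • P) * loB (c • 1) * upB (-((δ / γ) • P)) =
      loB ((c₁ / δ) • L) * upB ((b₁ * δ) • 1) * loB ((c₂ / δ) • L) * upB ((b₂ * δ) • 1) *
        loB ((c₃ / δ) • L) * upB (t • 1) *
      (loB ((-c₃ / δ) • L) * upB ((-b₂ * δ) • 1) * loB ((-c₂ / δ) • L) * upB ((-b₁ * δ) • 1) *
        loB ((-c₁ / δ) • L)) by
    rw [heq]; exact hW
  have hneg : ∀ (x : F) (M : Module.End F (Fin a → F)), (-x) • M = -(x • M) :=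
    fun x M => neg_smul x M
  rw [neg_div, neg_div, neg_div, neg_mul b₂ δ, neg_mul b₁ δ, hneg (c₃ / δ), hneg (b₂ * δ), hneg (c₂ / δ),
    hneg (b₁ * δ), hneg (c₁ / δ), h2,
    root_blocks]
  refine Matrix.ext fun i j => ?_
  fin_cases i <;> fin_cases j <;>
    simp only [Fin.zero_eta, Fin.isValue, Fin.mk_one, Matrix.of_apply, Matrix.cons_val',
      Matrix.cons_val_zero, Matrix.cons_val_one, Matrix.empty_val', Matrix.cons_val_fin_one,
      pow_two, smul_mul_assoc, mul_smul_comm, one_mul, mul_one, smul_smul, smul_add, add_mul,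
      mul_add, neg_mul, mul_neg]
  all_goals
    rw [ht]
    match_scalars <;> field_simp <;> ring

end Cfsg.Agent.MaxSub.TensorU
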