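import Cfsg.Agent.MaxSub.TensorU.TwoRoot
import Cfsg.Agent.MaxSub.TensorU.TwoShift
import Cfsg.Agent.MaxSub.TensorU.Params

/-!
An image of a line opposite to a line is a line.
-/

set_option autoImplicit false
set_option linter.style.haveILetI false
set_option linter.unusedSectionVars false
set_option maxHeartbeats 1000000

namespace Cfsg.Agent.MaxSub.TensorU

open Module Matrix Cfsg.Agent.Classical.U Cfsg.Agent.MaxSub.TensorMax
open Cfsg.Agent.MaxSub.ExtField (Mem mem_zero inv_apply_self self_inv_apply rk1)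

universe u

variable {F : Type u} [Field F] {a q : ℕ}

/-- Two scalar combinations of a non-scalar operator agree only trivially. -/
lemma lin_indep_one {V : Type u} [AddCommGroup V] [Module F V] [Nontrivial V] {L : Module.End F V}
    (hL : ∀ k : F, L ≠ k • 1) {y z y' z' : F} (h : y • L + z • 1 = y' • L + z' • 1) :
    y = y' ∧ z = z' := by
  have hy : y = y' := by
    by_contra hne
    refine hL ((y - y')⁻¹ * (z' - z)) (LinearMap.ext fun x => ?_)
    have h1 := LinearMap.congr_fun h x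
    simp only [LinearMap.add_apply, LinearMap.smul_apply, Module.End.one_apply] at h1 ⊢
    rw [mul_smul, eq_inv_smul_iff₀ (sub_ne_zero.2 hne)]
    linear_combination (norm := module) h1
  refine ⟨hy, ?_⟩
  obtain ⟨x, hx⟩ := exists_ne (0 : V)
  have h1 := LinearMap.congr_fun h x
  simp only [hy, LinearMap.add_apply, LinearMap.smul_apply, Module.End.one_apply,
    add_right_inj] at h1
  exact smul_left_injective F hx h1

variable (hF : SqField F q) {e f : Fin 2 → F} (hp : IsUPair q e f)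
  {G : Subgroup (Matrix (Fin a) (Fin 2) F ≃ₗ[F] Matrix (Fin a) (Fin 2) F)}
  (hG : UFactors q G)
include hF hp hG

/-- An opposite image of a line is a line. -/
theorem isTens_of_opp (hno : OnlyScalarUp q G e f) (hq : 3 ≤ q) (ha : a = 3)
    {h : Matrix (Fin a) (Fin 2) F ≃ₗ[F] Matrix (Fin a) (Fin 2) F} (hh : h ∈ G)
    (hopp : Function.Injective (con q e ∘ₗ h.toLinearMap ∘ₗ colMap e)) : IsTens h := by
  classical
  haveI : Finite F := hF.1
  set A : Module.End F (Fin a → F) := con q e ∘ₗ h.toLinearMap ∘ₗ colMap e with hAdef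
  set B : Module.End F (Fin a → F) := con q f ∘ₗ h.toLinearMap ∘ₗ colMap e with hBdef
  set Ai : Module.End F (Fin a → F) := (LinearEquiv.ofInjectiveEndo A hopp).symm.toLinearMap
  have hAA : ∀ x, A (Ai x) = x := fun x => (LinearEquiv.ofInjectiveEndo A hopp).apply_symm_apply x
  have hAA' : ∀ x, Ai (A x) = x := fun x => (LinearEquiv.ofInjectiveEndo A hopp).symm_apply_apply x
  set S := B * Ai with hS
  have hBS : ∀ x, B x = S (A x) := fun x => by rw [hS, Module.End.mul_apply, hAA']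
  have hskew : ∀ x y, herm q (S x) y + herm q x (S y) = 0 := fun x y => by
    have h1 := ((blk_of hF hp hh).rel hF hp hG (Ai x) (Ai y)).1
    change herm q (B (Ai x)) (A (Ai y)) + herm q (A (Ai x)) (B (Ai y)) = 0 at h1
    rwa [hAA, hAA] at h1
  set T : Matrix (Fin a) (Fin 2) F →ₗ[F] (Fin a → F) :=
    con q e ∘ₗ (h⁻¹ : Matrix (Fin a) (Fin 2) F ≃ₗ[F] Matrix (Fin a) (Fin 2) F).toLinearMap
  have hT : ∀ x X, herm q x (T X) = herm q (A x) (con q f X - S (con q e X)) := fun x X => by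
    show herm q x (con q e (h⁻¹ X)) = _
    rw [← bf_colMap_left e x _ hF, ← hG.iso h hh (colMap e x) (h⁻¹ X), self_inv_apply,
      bf_pair hF hp, hF.herm_sub_right]
    change herm q (B x) (con q e X) + herm q (A x) (con q f X) = _
    rw [hBS]
    linear_combination hskew (A x) (con q e X)
  set T₁ : Module.End F (Fin a → F) := T ∘ₗ colMap e with hT₁
  have hT₁x : ∀ x w, herm q x (T₁ w) = herm q (A x) w := fun x w => by
    show herm q x (T (colMap e w)) = _
    rw [hT, con_colMap, con_colMap, hp.1, hp.2.2, zero_smul, one_smul, map_zero, sub_zero]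
  have hTX : ∀ X, T X = T₁ (con q f X - S (con q e X)) := fun X =>
    sub_eq_zero.1 (hF.eq_zero_of_herm _ fun x => herm_eq_zero_symm hF (by
      rw [hF.herm_sub_right, hT, hT₁x, sub_self]))
  set K := A * T₁ with hK
  have hKx : ∀ c : F, c ^ q = -c → Sh q G e f S (loB (c • K)) := by
    intro c hc
    obtain ⟨g, hg, hgx⟩ := blk_up_scalar hF hp hG (G := G) hc
    refine ⟨h * g * h⁻¹, mul_mem (mul_mem hh hg) (inv_mem hh), fun X => ?_⟩
    have hgY : g (h⁻¹ X) = h⁻¹ X + c • colMap e (T X) := pair_ext hF hp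
      (by rw [(hgx _).1, map_add, map_smul, con_colMap, hp.2.2]; simp [T])
      (by rw [(hgx _).2, map_add, map_smul, con_colMap, hp.1]; simp)
    have hval : (h * g * h⁻¹) X = X + c • h (colMap e (T X)) := by
      rw [LinearEquiv.mul_apply, LinearEquiv.mul_apply, hgY, map_add, map_smul, self_inv_apply]
    rw [hval, root_blocks, map_add, map_add, map_smul, map_smul]
    change con q f X + c • B (T X) = _ ∧ con q e X + c • A (T X) = _
    rw [hBS, hTX]
    constructor <;>
      simp [hK, map_sub, smul_sub] <;> abel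
  -- the graph is scalar
  have hgoal : (∃ s : F, S = s • 1) → IsTens h := by
    rintro ⟨s, hs⟩
    have hsq : s ^ q = -s := by
      have hx : herm q (Pi.single ⟨0, by omega⟩ 1 : Fin a → F) (Pi.single ⟨0, by omega⟩ 1) = 1 := by
        simp [herm_single_one _ hF.q_ne_zero]
      have h1 := hskew (Pi.single ⟨0, by omega⟩ 1) (Pi.single ⟨0, by omega⟩ 1)
      rw [hs] at h1
      simp only [LinearMap.smul_apply, Module.End.one_apply, herm_smul_left, herm_smul_right,
        hx, mul_one] at h1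
      linear_combination h1
    refine isTens_of_line_two hF hp hG hno (by omega) hh (v := s • e + f) (fun h0 => ?_) ?_
      fun x => ⟨A x, pair_ext hF hp ?_ ?_⟩
    · have := congrArg (fun z => herm q z e) h0
      simp [herm_add_left, herm_smul_left, hp.1, IsUPair.swap_val hF hp] at this
    · simp [herm_add_left, hF.herm_add_right, herm_smul_left, herm_smul_right, hp.1, hp.2.1,
        hp.2.2, IsUPair.swap_val hF hp, hsq]
    · rw [con_colMap, herm_add_left, herm_smul_left, hp.2.2, hp.2.1, mul_one, add_zero]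
      show _ = B x
      rw [hBS, hs]; rfl
    · rw [con_colMap, herm_add_left, herm_smul_left, hp.1, IsUPair.swap_val hF hp, mul_zero,
        zero_add, one_smul]
      rfl
  refine hgoal ?_
  have hKadj : ∀ x y, herm q (K x) y = herm q x (K y) := fun x y => by
    rw [hK, Module.End.mul_apply, Module.End.mul_apply, ← hT₁x, ← hF.herm_symm (A (T₁ y)) x,
      ← hT₁x, hF.herm_symm]
  have hT₁inj : Function.Injective T₁ := (injective_iff_map_eq_zero T₁).2 fun w hw =>
    hF.eq_zero_of_herm w fun x => herm_eq_zero_symm hF (by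
      rw [← hAA x, ← hT₁x, hw, hF.herm_zero_right])
  have hKinj : Function.Injective K := hopp.comp hT₁inj
  obtain ⟨δ, hδ0, hδ⟩ := hF.exists_skew
  set L := (δ * δ) • K with hLdef
  have hδδ : (δ * δ) ^ q = δ * δ := by rw [mul_pow, hδ]; ring
  have hL : ∀ c : F, c ^ q = c → Sh q G e f S (loB ((c / δ) • L)) := fun c hc => by
    have e1 : (c / δ) • L = (c * δ) • K := by
      rw [hLdef, smul_smul]
      congr 1
      field_simp
    rw [e1]
    exact hKx (c * δ) (by rw [mul_pow, hc, hδ, mul_neg])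
  have hLadj : IsAdj q L L := fun x y => by
    rw [hLdef, LinearMap.smul_apply, LinearMap.smul_apply, herm_smul_left, herm_smul_right, hδδ,
      hKadj]
  have hLinj : Function.Injective L :=
    (smul_right_injective _ (mul_ne_zero hδ0 hδ0)).comp hKinj
  by_cases hLs : ∃ k : F, L = k • 1
  · obtain ⟨k, hk⟩ := hLs
    set x₀ : Fin a → F := Pi.single ⟨0, by omega⟩ 1
    have hx₀ : herm q x₀ x₀ = 1 := by simp [x₀, herm_single_one _ hF.q_ne_zero]
    have hk0 : k ≠ 0 := fun h0 => by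
      have h1 : L x₀ = L 0 := by rw [hk, h0, map_zero]; simp
      rw [hLinj h1, herm_zero_left] at hx₀
      exact zero_ne_one hx₀
    have hkq : k ^ q = k := by
      have h1 := hLadj x₀ x₀
      rw [hk] at h1
      simpa [herm_smul_left, herm_smul_right, hx₀] using h1.symm
    refine scalar_of_root hF hp hG hno hq ha fun c hc => ?_
    have e1 : (c * δ / k / δ) • L = c • (1 : Module.End F (Fin a → F)) := by
      rw [hk, smul_smul]
      congr 1
      field_simp
    rw [← e1]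
    exact hL (c * δ / k) (by rw [div_pow, mul_pow, hc, hδ, hkq, neg_mul_neg])
  push Not at hLs
  exfalso
  -- the two scalings
  have pair : ∀ c₁ b₁ c₂ b₂ c₃ γ : F, c₁ ^ q = c₁ → b₁ ^ q = b₁ → c₂ ^ q = c₂ → b₂ ^ q = b₂ →
      c₃ ^ q = c₃ → γ ≠ 0 → γ ^ q = γ →
      (c₁ + c₂ + c₃) • L + (c₁ * b₁ * (c₂ + c₃) + (c₁ + c₂) * b₂ * c₃) • L ^ 2
        + (c₁ * b₁ * c₂ * b₂ * c₃) • L ^ 3 = γ • 1 →
      ∃ k : F, 1 + (c₂ * b₁ + c₃ * (b₁ + b₂)) • L + (c₂ * b₁ * c₃ * b₂) • L ^ 2 = k • 1 := by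
    intro c₁ b₁ c₂ b₂ c₃ γ h1 h2 h3 h4 h5 hγ0 hγ hC
    obtain ⟨m, hm, hm0, hm1⟩ := exists_fix_ne hF hq
    have e1 := scalar_of_root hF hp hG hno hq ha
      (sh_shift hF hp hG hδ0 hδ hL h1 h2 h3 h4 h5 hγ0 hγ hC)
    have hm' : ∀ x : F, x ^ q = x → (x * m) ^ q = x * m := fun x hx => by rw [mul_pow, hx, hm]
    have hm'' : ∀ x : F, x ^ q = x → (x / m) ^ q = x / m := fun x hx => by rw [div_pow, hx, hm]
    have e2 := scalar_of_root hF hp hG hno hq ha
      (sh_shift hF hp hG hδ0 hδ hL (hm' _ h1) (hm'' _ h2) (hm' _ h3) (hm'' _ h4) (hm' _ h5)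
        (γ := γ * m) (mul_ne_zero hγ0 hm0) (hm' _ hγ) (by
          have h6 := congrArg (fun Z : Module.End F (Fin a → F) => m • Z) hC
          simp only [smul_add, smul_smul] at h6
          rw [mul_comm γ m]
          refine Eq.trans ?_ h6
          match_scalars <;> field_simp <;> ring))
    set P := 1 + (c₂ * b₁ + c₃ * (b₁ + b₂)) • L + (c₂ * b₁ * c₃ * b₂) • L ^ 2 with hP
    have hP' : 1 + (c₂ * m * (b₁ / m) + c₃ * m * (b₁ / m + b₂ / m)) • L
        + (c₂ * m * (b₁ / m) * (c₃ * m) * (b₂ / m)) • L ^ 2 = P := by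
      rw [hP]; match_scalars <;> field_simp
    rw [hP'] at e2
    obtain ⟨k₁, hk₁⟩ := e1
    obtain ⟨k₂, hk₂⟩ := e2
    have hne : δ / γ - δ / (γ * m) ≠ 0 := by
      rw [show δ / γ - δ / (γ * m) = δ / (γ * m) * (m - 1) by field_simp]
      exact mul_ne_zero (div_ne_zero hδ0 (mul_ne_zero hγ0 hm0)) (sub_ne_zero.2 hm1)
    refine ⟨(δ / γ - δ / (γ * m))⁻¹ * (k₁ - k₂), LinearMap.ext fun x => ?_⟩
    have h7 := LinearMap.congr_fun hk₁ x
    have h8 := LinearMap.congr_fun hk₂ x
    simp only [LinearMap.add_apply, LinearMap.smul_apply, Module.End.one_apply] at h7 h8 ⊢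
    rw [mul_smul, eq_inv_smul_iff₀ hne]
    linear_combination (norm := module) h7 - h8
  have hLn : ∀ n : ℕ, IsAdj q (L ^ n) (L ^ n) := fun n => by
    induction n with
    | zero => exact isAdj_id
    | succ n ih =>
      intro x y
      conv_lhs => rw [pow_succ]
      conv_rhs => rw [pow_succ']
      exact (ih (L x) y).trans (hLadj x _)
  haveI : Nontrivial (Fin a → F) := by
    refine ⟨⟨Pi.single ⟨0, by omega⟩ 1, 0, fun h0 => ?_⟩⟩
    simpa using congrFun h0 ⟨0, by omega⟩
  by_cases hquad : ∃ p r : F, L ^ 2 = p • L + r • 1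
  · obtain ⟨p, r, hpr⟩ := hquad
    have hreal : p ^ q = p ∧ r ^ q = r := by
      have h1 : IsAdj q (p • L + r • (1 : Module.End F (Fin a → F)))
          (p ^ q • L + r ^ q • (1 : Module.End F (Fin a → F))) :=
        (hLadj.smul hF p).add hF (isAdj_id.smul hF r)
      have h2 := hLn 2
      rw [hpr] at h2
      obtain ⟨e1, e2⟩ := lin_indep_one hLs (IsAdj.unique hF h2 h1)
      exact ⟨e1.symm, e2.symm⟩
    have hr0 : r ≠ 0 := fun h0 => by
      rw [h0, zero_smul, add_zero, pow_two] at hpr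
      refine hLs p (LinearMap.ext fun x => hLinj ?_)
      show L (L x) = L (p • x)
      rw [map_smul]
      exact LinearMap.congr_fun hpr x
    obtain ⟨m, b, hm, hb, hm0, hb0, hmb⟩ : ∃ m b : F, m ^ q = m ∧ b ^ q = b ∧ m ≠ 0 ∧ b ≠ 0 ∧
        1 + m + b * m * p = 0 := by
      rcases eq_or_ne p 0 with hp0 | hp0
      · exact ⟨-1, 1, by rw [hF.neg_pow, one_pow], one_pow _, by simp, one_ne_zero,
          by rw [hp0]; ring⟩
      · obtain ⟨m, hm, hm0, hm1⟩ := exists_fix_ne hF hq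
        refine ⟨-m, -(1 - m) / (-m * p), by rw [hF.neg_pow, hm], ?_, neg_ne_zero.2 hm0, ?_, ?_⟩
        · rw [div_pow, hF.neg_pow, hF.sub_pow, one_pow, mul_pow, hF.neg_pow, hm, hreal.1]
        · exact div_ne_zero (neg_ne_zero.2 (sub_ne_zero.2 hm1.symm))
            (mul_ne_zero (neg_ne_zero.2 hm0) hp0)
        · rw [show -(1 - m) / (-m * p) * -m * p = -(1 - m) / (-m * p) * (-m * p) by ring,
            div_mul_cancel₀ _ (mul_ne_zero (neg_ne_zero.2 hm0) hp0)]
          ring
    have hzq : (0 : F) ^ q = 0 := zero_pow hF.q_ne_zero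
    obtain ⟨k, hk⟩ := pair 1 b m 0 0 (b * m * r) (one_pow _) hb hm hzq hzq
      (mul_ne_zero (mul_ne_zero hb0 hm0) hr0) (by rw [mul_pow, mul_pow, hb, hm, hreal.2]) (by
        rw [hpr]
        simp only [mul_zero, zero_mul, add_zero, zero_smul]
        match_scalars
        · linear_combination (δ * δ) * hmb
        · ring)
    obtain ⟨e1, -⟩ := lin_indep_one hLs (y := m * b) (z := 1) (y' := 0) (z' := k) (by
      simp only [add_zero, zero_mul, mul_zero, zero_smul] at hk
      refine Eq.trans ?_ (hk.trans ?_) <;> module)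
    exact mul_ne_zero hm0 hb0 e1
  push Not at hquad
  have hlin2 : ∀ x y z x' y' z' : F,
      x • L ^ 2 + y • L + z • (1 : Module.End F (Fin a → F)) = x' • L ^ 2 + y' • L + z' • 1 →
      x = x' ∧ y = y' ∧ z = z' := by
    intro x y z x' y' z' hxyz
    have hx : x = x' := by
      by_contra hx
      refine hquad ((x - x')⁻¹ * (y' - y)) ((x - x')⁻¹ * (z' - z)) (LinearMap.ext fun v => ?_)
      have h1 := LinearMap.congr_fun hxyz v
      simp only [LinearMap.add_apply, LinearMap.smul_apply, Module.End.one_apply] at h1 ⊢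
      rw [mul_smul, mul_smul, ← smul_add, eq_inv_smul_iff₀ (sub_ne_zero.2 hx)]
      linear_combination (norm := module) h1
    rw [hx, add_assoc, add_assoc, add_right_inj] at hxyz
    exact ⟨hx, lin_indep_one hLs hxyz⟩
  obtain ⟨r₀, r₁, r₂, hcub⟩ : ∃ r₀ r₁ r₂ : F, L ^ 3 = r₂ • L ^ 2 + r₁ • L + r₀ • 1 := by
    have h1 := LinearMap.aeval_self_charpoly L
    have hd : (LinearMap.charpoly L).natDegree = 3 := by
      rw [LinearMap.charpoly_natDegree, finrank_fin_fun]; exact ha
    rw [Polynomial.aeval_eq_sum_range, hd] at h1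
    simp only [Finset.sum_range_succ, Finset.sum_range_zero, zero_add] at h1
    have h3 : (LinearMap.charpoly L).coeff 3 = 1 := by
      have := (LinearMap.charpoly_monic L).leadingCoeff
      rwa [Polynomial.leadingCoeff, hd] at this
    rw [h3, one_smul] at h1
    refine ⟨-(LinearMap.charpoly L).coeff 0, -(LinearMap.charpoly L).coeff 1,
      -(LinearMap.charpoly L).coeff 2, ?_⟩
    rw [pow_zero, pow_one] at h1
    refine LinearMap.ext fun v => ?_
    have h4 := LinearMap.congr_fun h1 v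
    simp only [LinearMap.add_apply, LinearMap.smul_apply, Module.End.one_apply,
      LinearMap.zero_apply] at h4 ⊢
    linear_combination (norm := module) h4
  have hreal : r₀ ^ q = r₀ ∧ r₁ ^ q = r₁ ∧ r₂ ^ q = r₂ := by
    have h1 : IsAdj q (r₂ • L ^ 2 + r₁ • L + r₀ • (1 : Module.End F (Fin a → F)))
        (r₂ ^ q • L ^ 2 + r₁ ^ q • L + r₀ ^ q • (1 : Module.End F (Fin a → F))) :=
      (((hLn 2).smul hF r₂).add hF (hLadj.smul hF r₁)).add hF (isAdj_id.smul hF r₀)
    have h2 := hLn 3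
    rw [hcub] at h2
    obtain ⟨e1, e2, e3⟩ := hlin2 _ _ _ _ _ _ (IsAdj.unique hF h2 h1)
    exact ⟨e3.symm, e2.symm, e1.symm⟩
  have hr0 : r₀ ≠ 0 := fun h0 => by
    rw [h0, zero_smul, add_zero] at hcub
    refine one_ne_zero (hlin2 1 0 0 0 r₂ r₁ (LinearMap.ext fun x => hLinj ?_)).1
    have h1 := LinearMap.congr_fun hcub x
    simp only [pow_succ', pow_zero, mul_one, Module.End.mul_apply, LinearMap.add_apply,
      LinearMap.smul_apply] at h1
    simp only [one_smul, zero_smul, add_zero, zero_add, pow_succ', pow_zero, mul_one,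
      Module.End.mul_apply, LinearMap.add_apply, LinearMap.smul_apply, Module.End.one_apply,
      map_add, map_smul, LinearMap.zero_apply, h1]
  -- the word
  obtain ⟨c₁, c₃, X, Y, hc₁, hc₃, hX, hY, hc₁0, hc₃0, hX0, hY0, h1, h2⟩ :
      ∃ c₁ c₃ X Y : F, c₁ ^ q = c₁ ∧ c₃ ^ q = c₃ ∧ X ^ q = X ∧ Y ^ q = Y ∧ c₁ ≠ 0 ∧ c₃ ≠ 0 ∧
        X ≠ 0 ∧ Y ≠ 0 ∧ (c₁ + 1 + c₃) * X * Y = -(r₁ * c₁ * c₃) ∧
        (1 + c₃) * Y / c₃ + (c₁ + 1) * X / c₁ = -r₂ := by
    obtain ⟨hq0, hq1, hq2⟩ := hreal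
    obtain ⟨m, hm, hm0, hm1⟩ := exists_fix_ne hF hq
    have hm1' : 1 - m ≠ 0 := sub_ne_zero.2 hm1.symm
    rcases eq_or_ne r₁ 0 with h1 | h1
    · rcases eq_or_ne r₂ 0 with h2 | h2
      · refine ⟨-m, -(1 - m), -m / (1 - m), (1 - m) / m, ?_, ?_, ?_, ?_, neg_ne_zero.2 hm0,
          neg_ne_zero.2 hm1', div_ne_zero (neg_ne_zero.2 hm0) hm1', div_ne_zero hm1' hm0,
          by rw [h1]; ring, ?_⟩
        · rw [hF.neg_pow, hm]
        · rw [hF.neg_pow, hF.sub_pow, one_pow, hm]
        · rw [div_pow, hF.neg_pow, hF.sub_pow, one_pow, hm]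
        · rw [div_pow, hF.sub_pow, one_pow, hm]
        · rw [h2]; field_simp; ring
      · refine ⟨-m, -(1 - m), -r₂ * m / ((1 - m) / -m), -r₂ * (1 - m) / (m / -(1 - m)), ?_, ?_,
          ?_, ?_, neg_ne_zero.2 hm0, neg_ne_zero.2 hm1',
          div_ne_zero (mul_ne_zero (neg_ne_zero.2 h2) hm0) (div_ne_zero hm1' (neg_ne_zero.2 hm0)),
          div_ne_zero (mul_ne_zero (neg_ne_zero.2 h2) hm1')
            (div_ne_zero hm0 (neg_ne_zero.2 hm1')), by rw [h1]; ring, ?_⟩
        · rw [hF.neg_pow, hm]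
        · rw [hF.neg_pow, hF.sub_pow, one_pow, hm]
        · simp only [div_pow, mul_pow, hF.neg_pow, hF.sub_pow, one_pow, hm, hq2]
        · simp only [div_pow, mul_pow, hF.neg_pow, hF.sub_pow, one_pow, hm, hq2]
        · field_simp; ring
    · rcases eq_or_ne r₂ 0 with h2 | h2
      · refine ⟨-1, -1, 1, r₁, ?_, ?_, one_pow _, hq1, by simp, by simp, one_ne_zero, h1,
          by ring, by rw [h2]; simp⟩ <;> rw [hF.neg_pow, one_pow]
      · refine ⟨-m, -1, -r₂ / ((1 - m) / -m), r₁ / (-r₂ / ((1 - m) / -m)), ?_, ?_, ?_, ?_,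
          neg_ne_zero.2 hm0, by simp,
          div_ne_zero (neg_ne_zero.2 h2) (div_ne_zero hm1' (neg_ne_zero.2 hm0)),
          div_ne_zero h1 (div_ne_zero (neg_ne_zero.2 h2)
            (div_ne_zero hm1' (neg_ne_zero.2 hm0))), ?_, ?_⟩
        · rw [hF.neg_pow, hm]
        · rw [hF.neg_pow, one_pow]
        · simp only [div_pow, hF.neg_pow, hF.sub_pow, one_pow, hm, hq2]
        · simp only [div_pow, hF.neg_pow, hF.sub_pow, one_pow, hm, hq1, hq2]
        · field_simp; ring
        · field_simp; ring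
  set N := c₁ * X⁻¹ * 1 * Y⁻¹ * c₃ with hN
  have hN0 : N ≠ 0 := by simp [hN, hc₁0, hc₃0, hX0, hY0]
  obtain ⟨k, hk⟩ := pair c₁ X⁻¹ 1 Y⁻¹ c₃ (N * r₀) hc₁ (by rw [inv_pow, hX]) (one_pow _)
    (by rw [inv_pow, hY]) hc₃ (mul_ne_zero hN0 hr0)
    (by rw [mul_pow, hreal.1, hN, mul_pow, mul_pow, mul_pow, mul_pow, one_pow, inv_pow, inv_pow,
      hc₁, hc₃, hX, hY]) (by
      have e1 : c₁ + 1 + c₃ = -(N * r₁) := by
        rw [hN]
        field_simp
        linear_combination h1
      have e2 : c₁ * X⁻¹ * (1 + c₃) + (c₁ + 1) * Y⁻¹ * c₃ = -(N * r₂) := by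
        rw [hN]
        field_simp at h2 ⊢
        linear_combination h2
      rw [hcub, e1, e2]
      match_scalars <;> ring)
  obtain ⟨e1, -⟩ := hlin2 (1 * X⁻¹ * c₃ * Y⁻¹) (1 * X⁻¹ + c₃ * (X⁻¹ + Y⁻¹)) 1 0 0 k (by
    refine Eq.trans ?_ (hk.trans ?_) <;> module)
  exact mul_ne_zero (mul_ne_zero (mul_ne_zero one_ne_zero (inv_ne_zero hX0)) hc₃0)
    (inv_ne_zero hY0) e1

end Cfsg.Agent.MaxSub.TensorU
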