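import Cfsg.Agent.MaxSub.TensorU.TwoFrame

/-!
A root group with scalar parameters at a graph forces a scalar graph.
-/

set_option autoImplicit false
set_option linter.style.haveILetI false
set_option linter.unusedSectionVars false
set_option maxHeartbeats 800000

namespace Cfsg.Agent.MaxSub.TensorU

open Module Matrix Cfsg.Agent.Classical.U Cfsg.Agent.MaxSub.TensorMax

universe u

variable {F : Type u} [Field F] {a q : ℕ}

variable (hF : SqField F q) {e f : Fin 2 → F} (hp : IsUPair q e f)
  {G : Subgroup (Matrix (Fin a) (Fin 2) F ≃ₗ[F] Matrix (Fin a) (Fin 2) F)}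
  (hG : UFactors q G)
include hF hp hG

/-- At least four fixed elements: a torus. -/
lemma scalar_of_root_four (hno : OnlyScalarUp q G e f) (hq : 4 ≤ q) (ha : a = 3)
    {S : Module.End F (Fin a → F)}
    (hroot : ∀ c : F, c ^ q = -c → Sh q G e f S (loB (c • (1 : Module.End F (Fin a → F))))) :
    ∃ k : F, S = k • 1 := by
  obtain ⟨δ, hδ0, hδ⟩ := hF.exists_skew
  obtain ⟨ρ, hρ, hρ0, hρ1⟩ := exists_fix_ne' hF hq
  set b := -(1 + ρ) / (ρ * δ) with hb
  have hbq : b ^ q = -b := by
    rw [hb, div_pow, hF.neg_pow, mul_pow, hF.add_pow, one_pow, hρ, hδ, mul_neg, div_neg]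
  have h := ((hroot δ hδ).mul (sh_up hF hp hG hbq)).mul
    (hroot (ρ * δ) (by rw [mul_pow, hρ, hδ, mul_neg]))
  have hsc : loB δ * upB b * loB (ρ * δ) = !![-ρ, b; 0, -ρ⁻¹] := by
    rw [loB, loB, upB, Matrix.mul_fin_two, Matrix.mul_fin_two]
    refine Matrix.ext fun i j => ?_
    fin_cases i <;> fin_cases j <;> simp [hb] <;> field_simp <;> ring
  rw [← scM_lo, ← scM_up, ← scM_lo, ← map_mul, ← map_mul, hsc, scM_apply, zero_smul] at h
  unfold Sh at h
  rw [frame_triangular] at h
  obtain ⟨k, b', -, -, -, hB, -⟩ := fixE hF hp hG hno (by omega) h (by simp)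
  simp only [Matrix.of_apply, Matrix.cons_val', Matrix.cons_val_zero, Matrix.cons_val_one,
    Matrix.empty_val', Matrix.cons_val_fin_one] at hB
  have hne : ρ - ρ⁻¹ ≠ 0 := by
    intro h0
    apply hρ1
    rw [sub_eq_zero] at h0
    conv_lhs => arg 2; rw [h0]
    exact mul_inv_cancel₀ hρ0
  refine ⟨(ρ - ρ⁻¹)⁻¹ * (-(b' * ρ⁻¹) - b), LinearMap.ext fun x => ?_⟩
  have h1 := LinearMap.congr_fun hB x
  simp only [LinearMap.add_apply, LinearMap.smul_apply, LinearMap.neg_apply, Module.End.mul_apply,
    Module.End.one_apply, map_neg, map_smul] at h1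
  rw [LinearMap.smul_apply, Module.End.one_apply, mul_smul, eq_inv_smul_iff₀ hne]
  linear_combination (norm := module) h1

/-- Three fixed elements: a commutator of two conjugate root elements. -/
lemma scalar_of_root_three (hno : OnlyScalarUp q G e f) (hq3 : q = 3) (ha : a = 3)
    {S : Module.End F (Fin a → F)}
    (hroot : ∀ c : F, c ^ q = -c → Sh q G e f S (loB (c • (1 : Module.End F (Fin a → F))))) :
    ∃ k : F, S = k • 1 := by
  classical
  haveI : Finite F := hF.1
  obtain ⟨δ, hδ0, hδ⟩ := hF.exists_skew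
  have hskew : ∀ x y, herm q (S x) y + herm q x (S y) = 0 := fun x y => by
    have h := (Blk.rel hF hp hG (by simpa only [Sh, root_blocks] using hroot δ hδ) x y).1
    simp [herm_add_left, hF.herm_add_right, herm_smul_left, herm_smul_right, hδ] at h
    have h' : δ * (-δ) * (herm q (S x) y + herm q x (S y)) = 0 := by linear_combination h
    exact (mul_eq_zero.1 h').resolve_left (mul_ne_zero hδ0 (neg_ne_zero.2 hδ0))
  have h3 : (3 : F) = 0 := by
    have h1 : ((Nat.card F : ℕ) : F) = 0 := by
      haveI := Fintype.ofFinite F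
      rw [Nat.card_eq_fintype_card]
      exact Nat.cast_card_eq_zero F
    rw [hF.2, hq3] at h1
    have h2 : (3 : F) * 3 = 0 := by
      norm_num at h1 ⊢
      exact h1
    simpa using h2
  have hδδ : δ * δ = -1 := by
    have h1 : δ * (δ * δ) = δ * -1 := by
      rw [hq3] at hδ
      linear_combination hδ
    exact mul_left_cancel₀ hδ0 h1
  by_contra hcon
  push Not at hcon
  obtain ⟨v, hv, hμ⟩ : ∃ v, herm q v v = 0 ∧ herm q (S v) v ≠ 0 := by
    by_contra hc'
    push Not at hc'
    obtain ⟨k, hk⟩ := eq_smul_of_isotropic hF (by omega) S hc'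
    exact hcon k hk
  have hv0 : v ≠ 0 := fun h0 => hμ (by rw [h0, hF.herm_zero_right])
  set μ := herm q (S v) v with hμdef
  have hμq : μ ^ q = -μ := by
    have h1 := hskew v v
    rw [← hF.herm_symm (S v) v] at h1
    linear_combination h1
  set t := μ⁻¹ with ht
  have htq : t ^ q = -t := by rw [ht, inv_pow, hμq, inv_neg]
  set gu := trv hF (⟨hv, htq⟩ : TrvCond q v t)
  have hgu : gu ∈ SUG a F q := TG_le_SUG hF (trv_mem hF _)
  set g : Module.End F (Fin a → F) := gu.1.toLinearMap with hg
  set g' : Module.End F (Fin a → F) := gu.1.symm.toLinearMap with hg'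
  have hgg : g * g' = 1 := LinearMap.ext fun w => gu.1.apply_symm_apply w
  have hgg' : g' * g = 1 := LinearMap.ext fun w => gu.1.symm_apply_apply w
  have hgx : ∀ z, g z = z + (t * herm q z v) • v := fun z => trv_apply hF _ z
  have hgx' : ∀ z, g' z = z + (-t * herm q z v) • v := fun z => by
    show gu.1.symm z = _
    rw [LinearEquiv.symm_apply_eq]
    show z = g _
    rw [hgx]
    simp [herm_add_left, herm_neg_left, herm_smul_left, hv, add_assoc, ← add_smul]
  set S' := g * S * g' with hS'
  have hroot' : ∀ c : F, c ^ q = -c →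
      Sh q G e f S' (loB (c • (1 : Module.End F (Fin a → F)))) := by
    intro c hc
    have h := ((blk_left hF hp hG hgu).mul (hroot c hc)).mul (blk_left hF hp hG (inv_mem hgu))
    unfold Sh
    convert h using 1
    show _ = dgB g * _ * dgB g'
    rw [dg_conj_root g g' S _ hgg hgg', mul_smul_comm, mul_one, smul_mul_assoc, hgg]
  set E := S' - S with hE
  set D := δ • E with hD
  have hδneg : (-δ) ^ q = -(-δ) := by rw [hF.neg_pow, hδ]
  have hDx : ∀ w, D w = δ • ((t * herm q (S w) v - t * t * μ * herm q w v) • v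
      - (t * herm q w v) • S v) := fun w => by
    simp only [hD, hE, hS', LinearMap.smul_apply, LinearMap.sub_apply, Module.End.mul_apply, hgx',
      hgx, map_add, map_smul, herm_add_left, herm_smul_left, ← hμdef]
    module
  have hδt : t * μ = 1 := inv_mul_cancel₀ hμ
  have hDv : D v = δ • v := by
    rw [hDx, hv]
    simp [← hμdef, hδt]
  obtain ⟨ν, hν⟩ : ∃ ν : F, D (S v) = ν • v + (-δ) • S v := by
    refine ⟨δ * (t * herm q (S (S v)) v - t * t * μ * μ), ?_⟩
    rw [hDx, ← hμdef, hδt]
    module
  have hD2v : D (D v) = -v := by rw [hDv, map_smul, hDv, smul_smul, hδδ, neg_one_smul]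
  have hD2Sv : D (D (S v)) = -(S v) := by
    rw [hν, map_add, map_smul, map_smul, hDv, hν]
    simp only [smul_add, smul_smul]
    match_scalars
    · ring
    · linear_combination hδδ
  have hcube : ∀ w, D (D (D w)) = -D w := fun w => by
    rw [hDx w]
    simp only [map_smul, map_sub, hD2v, hD2Sv]
    module
  obtain ⟨w, hw0, hwD⟩ : ∃ w, w ≠ 0 ∧ D w = 0 := by
    have hne : perpTwo q v (S v) ≠ ⊥ := fun h0 => by
      have h1 := finrank_perpTwo (q := q) v (S v)
      rw [h0, finrank_bot] at h1
      omega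
    obtain ⟨w, hw, hw0⟩ := Submodule.exists_mem_ne_zero_of_ne_bot hne
    rw [mem_perpTwo] at hw
    refine ⟨w, hw0, ?_⟩
    have h1 : herm q (S w) v = 0 := by
      have := hskew w v
      rwa [hw.2, add_zero] at this
    rw [hDx, h1, hw.1]
    simp
  have hE' : E = δ⁻¹ • D := by rw [hD, smul_smul, inv_mul_cancel₀ hδ0, one_smul]
  have hW := Blk.mul (Blk.mul (hroot δ hδ) (hroot' δ hδ))
    (Blk.mul (hroot (-δ) hδneg) (hroot' (-δ) hδneg))
  set u : Module.End F (Fin a → F) := δ • 1 with hu
  set u' : Module.End F (Fin a → F) := (-δ) • 1 with hu'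
  have e1 : upB S * loB u * upB (-S) * (upB S' * loB u * upB (-S')) *
        (upB S * loB u' * upB (-S) * (upB S' * loB u' * upB (-S'))) =
        upB S * (loB u * upB E * loB u * upB (-E) * loB u' * upB E * loB u') * upB (-S') := by
    rw [show upB E = upB (-S) * upB S' by rw [upB_mul, hE, neg_add_eq_sub],
      show upB (-E) = upB (-S') * upB S by rw [upB_mul, hE, neg_add_eq_sub, neg_sub]]
    simp only [mul_assoc]
  have hD3 : D ^ 3 = -D := LinearMap.ext fun z => by
    simp [pow_succ, hcube]
  have hthree : (3 : Module.End F (Fin a → F)) = 0 := by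
    rw [← map_ofNat (algebraMap F (Module.End F (Fin a → F))) 3, h3, map_zero]
  have e2 : loB u * upB E * loB u * upB (-E) * loB u' * upB E * loB u'
      = !![1 + D + D ^ 2, 0; 0, 1 - D + D ^ 2] := by
    have hgen := congrArg (evM D) (word_comm (Polynomial.C δ) (Polynomial.C δ⁻¹) Polynomial.X
      (by rw [← Polynomial.C_mul, mul_inv_cancel₀ hδ0, Polynomial.C_1]))
    simp only [map_mul, evM_lo, evM_up, evM_mat, map_neg, Polynomial.aeval_C,
      Polynomial.aeval_X, map_add, map_sub, map_pow, map_one, map_zero, map_ofNat] at hgen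
    simp only [Algebra.algebraMap_eq_smul_one, smul_mul_assoc, one_mul] at hgen
    have hun : u' = -u := by rw [hu, hu']; exact neg_smul δ (1 : Module.End F (Fin a → F))
    rw [hun, hE', hu]
    refine hgen.trans ?_
    rw [hD3]
    have h2 : (2 : Module.End F (Fin a → F)) * D - -D = 0 := by
      calc (2 : Module.End F (Fin a → F)) * D - -D = 3 * D := by noncomm_ring
        _ = 0 := by rw [hthree, zero_mul]
    rw [h2, smul_zero, add_neg_cancel, smul_zero]
    refine Matrix.ext fun i j => ?_
    fin_cases i <;> fin_cases j <;> simp <;> abel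
  rw [e1, e2, frame_triangular] at hW
  obtain ⟨k, b', -, -, hA, -, -⟩ := fixE hF hp hG hno (by omega) hW (by simp)
  simp only [Matrix.of_apply, Matrix.cons_val', Matrix.cons_val_zero, Matrix.cons_val_one,
    Matrix.empty_val', Matrix.cons_val_fin_one] at hA
  have hk := LinearMap.congr_fun hA w
  simp only [pow_two, LinearMap.add_apply, LinearMap.sub_apply, LinearMap.smul_apply,
    Module.End.mul_apply, Module.End.one_apply, hwD, map_zero, add_zero, sub_zero] at hk
  have hk1 : k = 1 := by
    have h4 : (k - 1) • w = 0 := by rw [sub_smul, one_smul, ← hk, sub_self]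
    exact sub_eq_zero.1 ((smul_eq_zero.1 h4).resolve_right hw0)
  have hk2 := LinearMap.congr_fun hA v
  rw [hk1, one_smul] at hk2
  simp only [pow_two, LinearMap.add_apply, LinearMap.sub_apply, Module.End.mul_apply,
    Module.End.one_apply, hD2v, hDv] at hk2
  have h5 : (δ + δ) • v = 0 := by linear_combination (norm := module) hk2
  rcases smul_eq_zero.1 h5 with h6 | h6
  · exact hδ0 (by linear_combination δ * h3 - h6)
  · exact hv0 h6

/-- A root group with scalar parameters at a graph makes the graph scalar. -/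
theorem scalar_of_root (hno : OnlyScalarUp q G e f) (hq : 3 ≤ q) (ha : a = 3)
    {S : Module.End F (Fin a → F)}
    (hroot : ∀ c : F, c ^ q = -c → Sh q G e f S (loB (c • (1 : Module.End F (Fin a → F))))) :
    ∃ k : F, S = k • 1 := by
  rcases Nat.lt_or_ge q 4 with h | h
  · exact scalar_of_root_three hF hp hG hno (by omega) ha hroot
  · exact scalar_of_root_four hF hp hG hno h ha hroot

end Cfsg.Agent.MaxSub.TensorU
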